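import Cfsg.Agent.Lib.MinStem.Basic

/-!
# Consequences of the relations (module A)

Paper proofs. Write `r_j = rr j`, `T_kj = T`, `Y_k = Y k`, `Z_kj = Z`. All from the fields of `BHyp`.
* `comm_lam_Mf`: `Mu l k k 1`, `BTheta.mu`, `kp 1 = id`.
* `rr_comm`: `twist` with `g = wn`: `tau wn = wn⁻¹`, and `Mf i (dd (-1)) = 1`.
* `comm_Z_Mf`: `Z = r_j T r_j⁻¹`, `Mf k g = r_j Mf k (kp (-1) g) r_j⁻¹`, `comm_T_Mf`.
* `comm_Y_Z`: conjugate `comm_YT` by `r_j`, `rr_Y`.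
* `comm_Z_Z`: if the second indices agree: conjugates by `r_j` of commuting `T_ij`, `T_kj` (`T_comm_col`). Reduce to that by `alt` unless the indices are disjoint.
  Disjoint: `r_l` commutes with `Z_ij` (`comm_rr_Z`) and `r_j` commutes with `T_kl`, `T_ij` commutes with `T_kl`.
* `Y_Y`, `Y_T`, `dd_T`, `dd_Z`, `dd_Y`: `act` at `Ek h 0 z 0`, `Ek h 0 0 y`, `Ek h x 0 0` with `g = uu t`, `dd u`.
* `dd_T'`: `alt` gives `T_jk(c) = r_k Z_kj(c) r_k⁻¹`, and `r_k` commutes with `Mf j (dd u)` by `twist`, `kp_dd`.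
* `T_Y_same`: from `Y_T` at `-t`.
* `T_Z_mem`: `T_ij(c) Z_kl(d) T_ij(c)⁻¹`. By `alt` may assume `l ∉ {i, j}` or `(k, l) = (i, j)` (then `comm_ZT`). Then `Z_kl = r_l T_kl(-d) r_l⁻¹`, `r_l` commutes with `T_ij`, and
  `lam` gives `T_ij(c) T_kl(-d) T_ij(c)⁻¹ = T_kl(-d) T_il(-c d)` if `k = j` (`T_conj_next`), `T_kl(-d)` if `k ≠ j`. So the result is `Z_kl(d) Z_il(c d)` or `Z_kl(d)`.
-/

set_option autoImplicit false
set_option linter.unusedSectionVars false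
set_option linter.unusedSimpArgs false

namespace Cfsg.Agent.Lib.MinStem

open Matrix Subgroup Cfsg.Agent.Lib.PresOm Cfsg.Agent.Lib.PresSp.M2 Cfsg.Agent.Lib.PresSp.Mono
  Cfsg.Agent.Lib.PresSLn.TwoGen

variable {ι : Type*} [Fintype ι] [DecidableEq ι] {F : Type*} {K : Type*} [Field F] [Field K] [Algebra F K] [QCj K] [QF F K] {Γ : Type*} [Group Γ]

namespace BData

variable (D : BData ι F K Γ)

lemma T_add {i j : ι} (h : i ≠ j) (c d : F) : D.T h (c + d) = D.T h c * D.T h d := by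
  simp only [T, TT_add, map_mul]

lemma T_zero {i j : ι} (h : i ≠ j) : D.T h 0 = 1 := by
  simp only [T, TT_zero, map_one]

lemma T_neg {i j : ι} (h : i ≠ j) (c : F) : D.T h (-c) = (D.T h c)⁻¹ := by
  simp only [T, TT_neg, map_inv]

lemma Y_add (i : ι) (c d : K) : D.Y i (c + d) = D.Y i c * D.Y i d := by
  simp only [Y, uu_add, map_mul]

lemma Y_zero (i : ι) : D.Y i 0 = 1 := by
  simp only [Y, uu_zero, map_one]

lemma Y_neg (i : ι) (c : K) : D.Y i (-c) = (D.Y i c)⁻¹ := by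
  simp only [Y, uu_neg, map_inv]

lemma Z_add {i j : ι} (h : i ≠ j) (c d : F) : D.Z h (c + d) = D.Z h c * D.Z h d := by
  simp only [Z, neg_add, T_add]
  group

lemma Z_zero {i j : ι} (h : i ≠ j) : D.Z h 0 = 1 := by
  simp only [Z, neg_zero, T_zero]
  group

lemma Z_neg {i j : ι} (h : i ≠ j) (c : F) : D.Z h (-c) = (D.Z h c)⁻¹ := by
  simp only [Z, T_neg]
  group

lemma Ek_Y {k j : ι} (h : k ≠ j) (z : K) : D.Ek h 0 z 0 = D.Y k z := by
  simp only [Ek, Z_zero, T_zero, one_mul, mul_one]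

lemma Ek_T {k j : ι} (h : k ≠ j) (y : F) : D.Ek h 0 0 y = D.T h y := by
  simp only [Ek, Z_zero, Y_zero, one_mul]

lemma Ek_Z {k j : ι} (h : k ≠ j) (x : F) : D.Ek h x 0 0 = D.Z h x := by
  simp only [Ek, Y_zero, T_zero, mul_one]

end BData

namespace BHyp

variable {D : BData ι F K Γ} (H : BHyp D)
include H

lemma Mf_neg (i : ι) : D.Mf i (dd (-1)) = 1 := by
  rw [D.Mf_apply, H.neg]
  simp

lemma rr_sq (i : ι) : D.rr i * D.rr i = 1 := by
  rw [BData.rr, ← map_mul, wn_sq, H.Mf_neg]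

lemma rr_inv (i : ι) : (D.rr i)⁻¹ = D.rr i := inv_eq_of_mul_eq_one_left (H.rr_sq i)

lemma comm_lam_Mf {l : SpecialLinearGroup ι F} {k : ι} (h1 : l.1 *ᵥ Pi.single k 1 = Pi.single k 1)
    (h2 : Pi.single k 1 ᵥ* l.1 = Pi.single k 1) (g : M2 K) : Commute (D.lam l) (D.Mf k g) := by
  have h3 : Mu l k k 1 := ⟨by simpa using h1, by simpa using h2⟩
  have h4 := H.toBHyp0.toBTheta.mu h3 g
  rw [kF_one, kp_one] at h4
  exact mul_inv_eq_iff_eq_mul.1 h4

lemma comm_T_Mf {i j k : ι} (hij : i ≠ j) (hki : k ≠ i) (hkj : k ≠ j) (c : F) (g : M2 K) :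
    Commute (D.T hij c) (D.Mf k g) :=
  H.comm_lam_Mf (Mv.T_fix hij hki.symm hkj.symm c).col (Mv.T_fix hij hki.symm hkj.symm c).row g

lemma rr_comm {i j : ι} (h : i ≠ j) : Commute (D.rr i) (D.rr j) := by
  have h1 := H.twist h wn
  rw [tau_wn, map_inv] at h1
  change D.rr j * D.rr i * (D.rr j)⁻¹ = (D.rr i)⁻¹ at h1
  rw [H.rr_inv i] at h1
  exact (mul_inv_eq_iff_eq_mul.1 h1).symm

lemma rr_Y {i j : ι} (h : i ≠ j) (z : K) : D.rr j * D.Y i z * (D.rr j)⁻¹ = D.Y i (- cj z) := by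
  have h1 := H.twist h (uu z)
  rw [tau_uu] at h1
  simpa [BData.Y] using h1

lemma rr_T_same {k j : ι} (h : k ≠ j) (y : F) : D.rr j * D.T h y * (D.rr j)⁻¹ = D.Z h (-y) := by
  simp only [BData.Z, neg_neg]

lemma rr_Z_same {k j : ι} (h : k ≠ j) (x : F) : D.rr j * D.Z h x * (D.rr j)⁻¹ = D.T h (-x) := by
  simp only [BData.Z]
  rw [H.rr_inv j]
  calc D.rr j * (D.rr j * D.T h (-x) * D.rr j) * D.rr j
      = (D.rr j * D.rr j) * D.T h (-x) * (D.rr j * D.rr j) := by group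
    _ = _ := by rw [H.rr_sq j, one_mul, mul_one]

lemma comm_rr_T {i j k : ι} (hij : i ≠ j) (hki : k ≠ i) (hkj : k ≠ j) (c : F) : Commute (D.rr k) (D.T hij c) :=
  (H.comm_T_Mf hij hki hkj c wn).symm

lemma comm_rr_Z {i j k : ι} (hij : i ≠ j) (hki : k ≠ i) (hkj : k ≠ j) (c : F) : Commute (D.rr k) (D.Z hij c) := by
  simp only [BData.Z]
  exact ((H.rr_comm hkj).mul_right (H.comm_rr_T hij hki hkj (-c))).mul_right (H.rr_comm hkj).inv_right

lemma comm_Z_Mf {i j k : ι} (hij : i ≠ j) (hki : k ≠ i) (hkj : k ≠ j) (c : F) (g : M2 K) :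
    Commute (D.Z hij c) (D.Mf k g) := by
  have h1 := (H.comm_T_Mf hij hki hkj (-c) (tau g)).conj (D.rr j)
  rw [H.twist hkj, tau_tau] at h1
  exact h1

lemma comm_Y_Z {k j : ι} (h : k ≠ j) (z : K) (x : F) : Commute (D.Y k z) (D.Z h x) := by
  have h1 := (H.comm_YT h (- cj z) (-x)).conj (D.rr j)
  rw [H.rr_Y h, map_neg, cj_cj', neg_neg] at h1
  exact h1

lemma comm_Z_Z {i j k l : ι} (h : i ≠ j) (h' : k ≠ l) (c d : F) : Commute (D.Z h c) (D.Z h' d) := by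
  have key : ∀ {i k j : ι} (h : i ≠ j) (h' : k ≠ j) (c d : F), Commute (D.Z h c) (D.Z h' d) := fun h h' c d =>
    ((T_comm_col h h' (-c) (-d)).map D.lam).conj _
  by_cases hjl : j = l
  · subst hjl
    exact key h h' c d
  by_cases hjk : j = k
  · subst hjk
    rw [H.alt h' d]
    exact key h h'.symm c (-d)
  by_cases hil : i = l
  · subst hil
    rw [H.alt h c]
    exact key h.symm h' (-c) d
  by_cases hik : i = k
  · subst hik
    rw [H.alt h c, H.alt h' d]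
    exact key h.symm h'.symm (-c) (-d)
  -- disjoint
  have h1 : Commute (D.Z h c) (D.rr l) := (H.comm_rr_Z h (Ne.symm hil) (Ne.symm hjl) c).symm
  have h2 : Commute (D.T h (-c)) (D.T h' (-d)) := (T_comm_disj h h' hjk hil (-c) (-d)).map D.lam
  have h3 : Commute (D.rr j) (D.T h' (-d)) := H.comm_rr_T h' hjk hjl (-d)
  have h4 : Commute (D.Z h c) (D.T h' (-d)) := by
    simp only [BData.Z]
    exact (h3.mul_left h2).mul_left h3.inv_left
  change Commute (D.Z h c) (D.rr l * D.T h' (-d) * (D.rr l)⁻¹)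
  exact (h1.mul_right h4).mul_right h1.inv_right

lemma comm_Z_Y {i j : ι} (h : i ≠ j) (k : ι) (c : F) (z : K) : Commute (D.Z h c) (D.Y k z) := by
  by_cases hki : k = i
  · subst hki
    exact (H.comm_Y_Z h z c).symm
  by_cases hkj : k = j
  · subst hkj
    rw [H.alt h c]
    exact (H.comm_Y_Z h.symm z (-c)).symm
  exact H.comm_Z_Mf h hki hkj c (uu z)

lemma Y_Y {k j : ι} (h : k ≠ j) (t z : K) : D.Y j t * D.Y k z * (D.Y j t)⁻¹ = D.Z h (tr (cj t * z)) * D.Y k z := by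
  have h1 := H.act h (uu t) 0 z 0
  rw [D.Ek_Y] at h1
  simp only [adX_uu, adZ_uu, adY_uu, map_zero, mul_zero, sub_zero, zero_add] at h1
  change D.Y j t * D.Y k z * (D.Y j t)⁻¹ = _ at h1
  rw [h1]
  simp only [BData.Ek, D.T_zero, mul_one]

lemma Y_T {k j : ι} (h : k ≠ j) (t : K) (y : F) :
    D.Y j t * D.T h y * (D.Y j t)⁻¹ = D.Z h (-(nm t * y)) * D.Y k (-(t * algebraMap F K y)) * D.T h y := by
  have h1 := H.act h (uu t) 0 0 y
  rw [D.Ek_T] at h1
  simp only [adX_uu, adZ_uu, adY_uu, mul_zero, tr_zero, zero_add, zero_sub] at h1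
  change D.Y j t * D.T h y * (D.Y j t)⁻¹ = _ at h1
  rw [h1]
  rfl

lemma T_Y_same {i j : ι} (h : i ≠ j) (c : F) (t : K) :
    D.T h c * D.Y j t * (D.T h c)⁻¹ = D.Y j t * D.Z h (-(nm t * c)) * D.Y i (t * algebraMap F K c) := by
  have h1 := H.Y_T h (-t) c
  rw [D.Y_neg, inv_inv, nm_neg, show -(-t * algebraMap F K c) = t * algebraMap F K c by ring] at h1
  have h2 : D.T h c * D.Y j t = D.Y j t * (D.Z h (-(nm t * c)) * D.Y i (t * algebraMap F K c) * D.T h c) := by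
    rw [← h1]
    group
  rw [h2]
  group

lemma dd_T {k j : ι} (h : k ≠ j) (u : Kˣ) (y : F) :
    D.Mf j (dd u) * D.T h y * (D.Mf j (dd u))⁻¹ = D.T h (nm ((u⁻¹ : Kˣ) : K) * y) := by
  have h1 := H.act h (dd u) 0 0 y
  rw [D.Ek_T] at h1
  simp only [adX_dd, adZ_dd, adY_dd, mul_zero] at h1
  rw [h1, D.Ek_T]

lemma dd_Z {k j : ι} (h : k ≠ j) (u : Kˣ) (x : F) :
    D.Mf j (dd u) * D.Z h x * (D.Mf j (dd u))⁻¹ = D.Z h (nm (u : K) * x) := by
  have h1 := H.act h (dd u) x 0 0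
  rw [D.Ek_Z] at h1
  simp only [adX_dd, adZ_dd, adY_dd, mul_zero] at h1
  rw [h1, D.Ek_Z]

lemma dd_T' {j k : ι} (h : j ≠ k) (u : Kˣ) (c : F) :
    D.Mf j (dd u) * D.T h c * (D.Mf j (dd u))⁻¹ = D.T h (nm (u : K) * c) := by
  have hr : D.rr k * D.Mf j (dd (cjU u)) * (D.rr k)⁻¹ = D.Mf j (dd u) := by
    have h1 := H.twist h (dd (cjU u))
    rw [tau_dd] at h1
    rw [h1]
    congr 2
    apply Units.ext
    simp [coe_cjU]
  have e : ∀ c : F, D.T h c = D.rr k * D.Z h.symm c * (D.rr k)⁻¹ := by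
    intro c
    have h2 := H.alt h (-c)
    rw [neg_neg] at h2
    rw [← h2, H.rr_Z_same h, neg_neg]
  have h4 := H.dd_Z h.symm (cjU u) c
  rw [coe_cjU, nm_cj] at h4
  rw [e c, e (nm (u : K) * c), ← h4, ← hr]
  group

lemma dd_Y {k j : ι} (h : k ≠ j) (u : Kˣ) (z : K) :
    D.Mf j (dd u) * D.Y k z * (D.Mf j (dd u))⁻¹ = D.Y k ((u : K) * cj ((u⁻¹ : Kˣ) : K) * z) := by
  have h1 := H.act h (dd u) 0 z 0
  rw [D.Ek_Y] at h1
  simp only [adX_dd, adZ_dd, adY_dd, mul_zero] at h1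
  rw [D.Ek_Y] at h1
  exact h1

lemma T_Z_mem {i j k l : ι} (h : i ≠ j) (h' : k ≠ l) (c d : F) :
    D.T h c * D.Z h' d * (D.T h c)⁻¹ ∈ closure {x : Γ | ∃ (i j : ι) (h : i ≠ j) (e : F), x = D.Z h e} := by
  have hZ : ∀ {i j : ι} (h : i ≠ j) (e : F), D.Z h e ∈ closure {x : Γ | ∃ (i j : ι) (h : i ≠ j) (e : F), x = D.Z h e} :=
    fun {i j} h e => subset_closure ⟨i, j, h, e, rfl⟩
  have key : ∀ {k l : ι} (h' : k ≠ l) (d : F), l ≠ i → l ≠ j →
      D.T h c * D.Z h' d * (D.T h c)⁻¹ ∈ closure {x : Γ | ∃ (i j : ι) (h : i ≠ j) (e : F), x = D.Z h e} := by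
    intro k l h' d hli hlj
    have hcomm : Commute (D.rr l) (D.T h c) := H.comm_rr_T h hli hlj c
    have h1 : D.T h c * D.Z h' d * (D.T h c)⁻¹ =
        D.rr l * (D.T h c * D.T h' (-d) * (D.T h c)⁻¹) * (D.rr l)⁻¹ := by
      have h2 : D.T h c * D.rr l = D.rr l * D.T h c := hcomm.eq.symm
      simp only [BData.Z]
      calc D.T h c * (D.rr l * D.T h' (-d) * (D.rr l)⁻¹) * (D.T h c)⁻¹
          = (D.T h c * D.rr l) * D.T h' (-d) * (D.T h c * D.rr l)⁻¹ := by group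
        _ = (D.rr l * D.T h c) * D.T h' (-d) * (D.rr l * D.T h c)⁻¹ := by rw [h2]
        _ = _ := by group
    rw [h1]
    by_cases hkj : k = j
    · subst hkj
      have h3 : D.T h c * D.T h' (-d) * (D.T h c)⁻¹ = D.T (Ne.symm hli) (c * -d) * D.T h' (-d) := by
        have := congrArg D.lam (T_conj_next h h' (Ne.symm hli) c (-d))
        simp only [map_mul, map_inv] at this
        exact this
      rw [h3]
      have h4 : D.rr l * (D.T (Ne.symm hli) (c * -d) * D.T h' (-d)) * (D.rr l)⁻¹ =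
          (D.rr l * D.T (Ne.symm hli) (c * -d) * (D.rr l)⁻¹) * (D.rr l * D.T h' (-d) * (D.rr l)⁻¹) := by group
      rw [h4, H.rr_T_same, H.rr_T_same]
      exact mul_mem (hZ _ _) (hZ _ _)
    · have h3 : D.T h c * D.T h' (-d) * (D.T h c)⁻¹ = D.T h' (-d) :=
        mul_inv_eq_iff_eq_mul.2 ((T_comm_disj h h' (Ne.symm hkj) (Ne.symm hli) c (-d)).map D.lam).eq
      rw [h3, H.rr_T_same]
      exact hZ _ _
  by_cases hli : l = i
  · subst hli
    by_cases hkj : k = j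
    · subst hkj
      rw [H.alt h' d]
      have h3 := H.comm_ZT h (-d) c
      have : D.T h c * D.Z h (-d) * (D.T h c)⁻¹ = D.Z h (-d) := mul_inv_eq_iff_eq_mul.2 h3.eq.symm
      rw [this]
      exact hZ _ _
    · rw [H.alt h' d]
      exact key h'.symm (-d) h' hkj
  by_cases hlj : l = j
  · subst hlj
    by_cases hki : k = i
    · subst hki
      have h3 := H.comm_ZT h d c
      have : D.T h c * D.Z h d * (D.T h c)⁻¹ = D.Z h d := mul_inv_eq_iff_eq_mul.2 h3.eq.symm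
      rw [show D.Z h' d = D.Z h d from rfl, this]
      exact hZ _ _
    · rw [H.alt h' d]
      exact key h'.symm (-d) hki h'
  exact key h' d hli hlj

end BHyp

end Cfsg.Agent.Lib.MinStem
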