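import Cfsg.Agent.Lib.MinStem.QF

/-!
# The multiplier of `Ω⁻_{2n+2}(q)`: the data and the relations (module 0)

Port of `OddStem/Basic.lean`. Plan of the whole folder: forum topic `S2099`.
`Γ` is a group, `lam : SL_n(F) →* Γ`, `M : SL₂(K) →* Γ` "the rank one group at the index `b`", `K / F` quadratic (`QF F K`).
Target picture, with `V = K ⊕ ⨁ (F e_i ⊕ F f_i)`, `Q = N(z) + Σ x_i y_i`, writing `E(p, v)` for the Eichler transformation
`Eich Q g p v`, i.e. `g x = x + pol(x,v) p - pol(x,p) v - Q(v) pol(x,p) p`: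
* `lam (TT (h : k ≠ j) y) ↦ E(e_k, y f_j)`,
* `Y k z = Mf k (uu z) ↦ E(e_k, z)`, `z ∈ K`,
* `Z (h : k ≠ j) x = r_j T_kj(-x) r_j⁻¹ ↦ E(e_k, x e_j)`, where `r_j = Mf j wn`,
* `Ek h x z y = Z h x * Y k z * T h y ↦ E(e_k, x e_j + z + y f_j)`,
* `Mf j g` acts on the coordinates `(x, z, y)` at `e_j, K, f_j` by `(adX g, adZ g, adY g)`: the matrix `H = [[x, z], [z̄, -y]]` goes to `g H gᴴ`, identically on the other basis vectors.
* `r_j` acts on `K` by `z ↦ - z̄`, so `r_j Mf i g r_j⁻¹ = Mf i (tau g)`, `tau g = kp (-1) ḡ` (field `twist`).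
-/

set_option autoImplicit false
set_option linter.unusedSectionVars false
set_option linter.unusedSimpArgs false

namespace Cfsg.Agent.Lib.MinStem

open Matrix Subgroup Cfsg.Agent.Lib.PresOm Cfsg.Agent.Lib.PresSp.M2 Cfsg.Agent.Lib.PresSp.Mono
  Cfsg.Agent.Lib.PresSLn.TwoGen

universe u v w

section ad

variable {F : Type*} {K : Type*} [Field F] [Field K] [Algebra F K] [QCj K] [QF F K]

/-- The action of `SL₂(K)` on the coordinates `(x, z, y)`: first coordinate. -/
def adX (g : M2 K) (x : F) (z : K) (y : F) : F :=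
  nm (g.1 0 0) * x + tr (g.1 0 0 * cj (g.1 0 1) * z) - nm (g.1 0 1) * y

/-- Second coordinate. -/
def adZ (g : M2 K) (x : F) (z : K) (y : F) : K :=
  g.1 0 0 * cj (g.1 1 0) * algebraMap F K x + g.1 0 0 * cj (g.1 1 1) * z + g.1 0 1 * cj (g.1 1 0) * cj z
    - g.1 0 1 * cj (g.1 1 1) * algebraMap F K y

/-- Third coordinate. -/
def adY (g : M2 K) (x : F) (z : K) (y : F) : F :=
  - nm (g.1 1 0) * x - tr (g.1 1 0 * cj (g.1 1 1) * z) + nm (g.1 1 1) * y

@[simp] lemma adX_uu (t : K) (x : F) (z : K) (y : F) : adX (uu t) x z y = x + tr (cj t * z) - nm t * y := by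
  simp [adX, coe_uu, nm_one]

@[simp] lemma adZ_uu (t : K) (x : F) (z : K) (y : F) : adZ (uu t) x z y = z - t * algebraMap F K y := by
  simp [adZ, coe_uu]

@[simp] lemma adY_uu (t : K) (x : F) (z : K) (y : F) : adY (uu t) x z y = y := by
  simp [adY, coe_uu, nm_one, nm_zero, tr_zero]

@[simp] lemma adX_ll (t : K) (x : F) (z : K) (y : F) : adX (ll t) x z y = x := by
  simp [adX, coe_ll, nm_one, nm_zero, tr_zero]

@[simp] lemma adZ_ll (t : K) (x : F) (z : K) (y : F) : adZ (ll t) x z y = cj t * algebraMap F K x + z := by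
  simp [adZ, coe_ll]

@[simp] lemma adY_ll (t : K) (x : F) (z : K) (y : F) : adY (ll t) x z y = - nm t * x - tr (t * z) + y := by
  simp [adY, coe_ll, nm_one]

@[simp] lemma adX_dd (u : Kˣ) (x : F) (z : K) (y : F) : adX (dd u) x z y = nm (u : K) * x := by
  simp [adX, coe_dd, nm_zero, tr_zero]

@[simp] lemma adZ_dd (u : Kˣ) (x : F) (z : K) (y : F) : adZ (dd u) x z y = (u : K) * cj ((u⁻¹ : Kˣ) : K) * z := by
  simp [adZ, coe_dd]

@[simp] lemma adY_dd (u : Kˣ) (x : F) (z : K) (y : F) : adY (dd u) x z y = nm ((u⁻¹ : Kˣ) : K) * y := by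
  simp [adY, coe_dd, nm_zero, tr_zero]

@[simp] lemma adX_wn (x : F) (z : K) (y : F) : adX (wn : M2 K) x z y = - y := by
  simp [adX, coe_wn, nm_zero, nm_one, nm_neg, tr_zero]

@[simp] lemma adZ_wn (x : F) (z : K) (y : F) : adZ (wn : M2 K) x z y = - cj z := by
  simp [adZ, coe_wn]

@[simp] lemma adY_wn (x : F) (z : K) (y : F) : adY (wn : M2 K) x z y = - x := by
  simp [adY, coe_wn, nm_zero, nm_one, nm_neg, tr_zero]

end ad

/-- `l` sends `e_i` to `u e_i'` and the row `i'` of `l` is `u` times the row vector `e_i`. -/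
structure Mu {ι : Type*} [Fintype ι] [DecidableEq ι] {F : Type*} [Field F] (l : SpecialLinearGroup ι F) (i i' : ι)
    (u : Fˣ) : Prop where
  col : l.1 *ᵥ Pi.single i 1 = Pi.single i' (u : F)
  row : Pi.single i' 1 ᵥ* l.1 = Pi.single i (u : F)

/-- The data. -/
structure BData (ι : Type*) (F : Type*) (K : Type*) (Γ : Type*) [Fintype ι] [DecidableEq ι] [Field F] [Field K] [Group Γ] where
  lam : SpecialLinearGroup ι F →* Γ
  M : M2 K →* Γ
  a : ι
  b : ι
  hab : a ≠ b

namespace BData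

variable {ι : Type*} [Fintype ι] [DecidableEq ι] {F : Type*} {K : Type*} [Field F] [Field K] {Γ : Type*} [Group Γ] (D : BData ι F K Γ)

/-- The rank one group at the index `i`. -/
def Mf (i : ι) : M2 K →* Γ := (MulAut.conj (D.lam (pj D.a D.b i))).toMonoidHom.comp D.M

lemma Mf_apply (i : ι) (g : M2 K) : D.Mf i g = D.lam (pj D.a D.b i) * D.M g * (D.lam (pj D.a D.b i))⁻¹ := rfl

lemma Mf_b (g : M2 K) : D.Mf D.b g = D.M g := by
  rw [Mf_apply, pj_self]
  simp

/-- The Weyl elements. -/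
def rr (i : ι) : Γ := D.Mf i wn

/-- The short root elements. -/
def Y (i : ι) (z : K) : Γ := D.Mf i (uu z)

/-- The Levi root elements. -/
def T {i j : ι} (h : i ≠ j) (c : F) : Γ := D.lam (TT h c)

/-- The long root elements. -/
def Z {k j : ι} (h : k ≠ j) (x : F) : Γ := D.rr j * D.T h (-x) * (D.rr j)⁻¹

/-- The Eichler elements with centre `e_k` and parameter `x e_j + z u₀ + y f_j`. -/
def Ek {k j : ι} (h : k ≠ j) (x : F) (z : K) (y : F) : Γ := D.Z h x * D.Y k z * D.T h y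

/-- The image of the data under a homomorphism. -/
def map {Γ' : Type*} [Group Γ'] (f : Γ →* Γ') : BData ι F K Γ' where
  lam := f.comp D.lam
  M := f.comp D.M
  a := D.a
  b := D.b
  hab := D.hab

end BData

variable {ι : Type*} [Fintype ι] [DecidableEq ι] {F : Type*} {K : Type*} [Field F] [Field K] [Algebra F K] [QCj K] [QF F K] {Γ : Type*} [Group Γ]

/-- The rank one group at `b` is centralised by the stabiliser of `e_b`, and is twisted by the torus. -/
structure BTheta (D : BData ι F K Γ) : Prop where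
  theta : ∀ l : SpecialLinearGroup ι F, l.1 *ᵥ Pi.single D.b 1 = Pi.single D.b 1 →
    Pi.single D.b 1 ᵥ* l.1 = Pi.single D.b 1 → ∀ g, Commute (D.lam l) (D.M g)
  tw : ∀ (ζ : Fˣ) (g : M2 K), D.lam (tt D.hab ζ) * D.M g * (D.lam (tt D.hab ζ))⁻¹ = D.M (kp (kF ζ⁻¹) g)

/-- The relations that hold in every central extension. -/
structure BHyp0 (D : BData ι F K Γ) : Prop extends BTheta D where
  twist : ∀ {i j : ι}, i ≠ j → ∀ g, D.rr j * D.Mf i g * (D.rr j)⁻¹ = D.Mf i (tau g)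
  comm_YT : ∀ {k j : ι} (h : k ≠ j) (z : K) (y : F), Commute (D.Y k z) (D.T h y)
  comm_ZT : ∀ {k j : ι} (h : k ≠ j) (x y : F), Commute (D.Z h x) (D.T h y)
  act : ∀ {k j : ι} (h : k ≠ j) (g : M2 K) (x : F) (z : K) (y : F),
    D.Mf j g * D.Ek h x z y * (D.Mf j g)⁻¹ = D.Ek h (adX g x z y) (adZ g x z y) (adY g x z y)
  alt : ∀ {k j : ι} (h : k ≠ j) (c : F), D.Z h c = D.Z h.symm (-c)

/-- All the relations. -/
structure BHyp (D : BData ι F K Γ) : Prop extends BHyp0 D where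
  neg : D.M (dd (-1)) = 1

namespace BData

variable (D : BData ι F K Γ) {Γ' : Type*} [Group Γ'] (f : Γ →* Γ')

lemma map_Mf (i : ι) (g : M2 K) : (D.map f).Mf i g = f (D.Mf i g) := by
  simp only [Mf_apply, map_mul, map_inv]
  rfl

lemma map_rr (i : ι) : (D.map f).rr i = f (D.rr i) := D.map_Mf f i wn

lemma map_Y (i : ι) (z : K) : (D.map f).Y i z = f (D.Y i z) := D.map_Mf f i (uu z)

lemma map_T {i j : ι} (h : i ≠ j) (c : F) : (D.map f).T h c = f (D.T h c) := rfl

lemma map_Z {k j : ι} (h : k ≠ j) (x : F) : (D.map f).Z h x = f (D.Z h x) := by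
  simp only [Z, map_rr, map_T, map_mul, map_inv]

lemma map_Ek {k j : ι} (h : k ≠ j) (x : F) (z : K) (y : F) : (D.map f).Ek h x z y = f (D.Ek h x z y) := by
  simp only [Ek, map_Z, map_Y, map_T, map_mul]

end BData

/-- The relations survive under homomorphisms. -/
lemma BHyp0.map {D : BData ι F K Γ} (H : BHyp0 D) {Γ' : Type*} [Group Γ'] (f : Γ →* Γ') : BHyp0 (D.map f) where
  theta l h1 h2 g := (H.theta l h1 h2 g).map f
  tw ζ g := by
    have h := congrArg f (H.tw ζ g)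
    simp only [map_mul, map_inv] at h
    exact h
  twist h g := by
    rw [D.map_rr, D.map_Mf, D.map_Mf, ← map_inv, ← map_mul, ← map_mul, H.twist h]
  comm_YT h z y := by
    rw [D.map_Y, D.map_T]
    exact (H.comm_YT h z y).map f
  comm_ZT h x y := by
    rw [D.map_Z, D.map_T]
    exact (H.comm_ZT h x y).map f
  act h g x z y := by
    rw [D.map_Mf, D.map_Ek, D.map_Ek, ← map_inv, ← map_mul, ← map_mul, H.act h]
  alt h c := by
    rw [D.map_Z, D.map_Z, H.alt h c]

namespace Mu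

lemma of_Mv {l : SpecialLinearGroup ι F} {i i' : ι} {ε : F} (h : Mv l i i' ε) {u : Fˣ} (hu : (u : F) = ε) :
    Mu l i i' u := ⟨by rw [hu]; exact h.col, by rw [hu]; exact h.row⟩

lemma inv {l : SpecialLinearGroup ι F} {i i' : ι} {u : Fˣ} (h : Mu l i i' u) : Mu l⁻¹ i' i u⁻¹ where
  col := by
    have h1 : (l⁻¹).1 *ᵥ (l.1 *ᵥ Pi.single i 1) = Pi.single i 1 := by
      rw [mulVec_mulVec, inv_mul_coe, one_mulVec]
    rw [h.col, single_eq_smul i' (u : F), mulVec_smul] at h1
    rw [single_eq_smul i _, ← h1, smul_smul]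
    simp
  row := by
    have h1 : (Pi.single i' 1 ᵥ* l.1) ᵥ* (l⁻¹).1 = Pi.single i' 1 := by
      rw [vecMul_vecMul, mul_inv_coe, vecMul_one]
    rw [h.row, single_eq_smul i (u : F), smul_vecMul] at h1
    rw [single_eq_smul i' _, ← h1, smul_smul]
    simp

lemma mul {l l' : SpecialLinearGroup ι F} {i i' i'' : ι} {u u' : Fˣ} (h : Mu l i i' u) (h' : Mu l' i' i'' u') :
    Mu (l' * l) i i'' (u * u') where
  col := by
    rw [coeM, ← mulVec_mulVec, h.col, single_eq_smul i' (u : F), mulVec_smul, h'.col, single_eq_smul i'' (u' : F),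
      smul_smul, single_eq_smul i'' ((u * u' : Fˣ) : F), Units.val_mul]
  row := by
    rw [coeM, ← vecMul_vecMul, h'.row, single_eq_smul i' (u' : F), smul_vecMul, h.row, single_eq_smul i (u : F),
      smul_smul, single_eq_smul i ((u * u' : Fˣ) : F), Units.val_mul, mul_comm]

lemma tt_b {a b : ι} (hab : a ≠ b) (v : Fˣ) : Mu (tt hab v) b b v⁻¹ where
  col := by
    rw [coe_tt, mulVec_single_one]
    ext r
    by_cases h : r = b
    · subst h
      simp [td, hab.symm]
    · simp [Pi.single_apply, h, diagonal_apply, Ne.symm h]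
  row := by
    rw [coe_tt, single_one_vecMul]
    ext r
    by_cases h : r = b
    · subst h
      simp [td, hab.symm]
    · simp [Pi.single_apply, h, diagonal_apply, Ne.symm h]

end Mu

/-- The torus and the permutations on the rank one groups. -/
theorem BTheta.mu {D : BData ι F K Γ} (H : BTheta D) {l : SpecialLinearGroup ι F} {i i' : ι} {u : Fˣ} (h : Mu l i i' u)
    (g : M2 K) : D.lam l * D.Mf i g * (D.lam l)⁻¹ = D.Mf i' (kp (kF u) g) := by
  let p := (pj D.a D.b i : SpecialLinearGroup ι F)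
  let p' := (pj D.a D.b i' : SpecialLinearGroup ι F)
  let t := tt D.hab u
  let l2 := p'⁻¹ * (l * (p * t))
  have hp : Mu p D.b i 1 := Mu.of_Mv (mv_pj D.hab i) (by simp)
  have hp' : Mu p'⁻¹ i' D.b 1⁻¹ := (Mu.of_Mv (mv_pj D.hab i') (by simp) : Mu p' D.b i' 1).inv
  have h2 : Mu l2 D.b D.b 1 := by
    have := (((Mu.tt_b D.hab u).mul hp).mul h).mul hp'
    simpa using this
  have hc : Commute (D.lam l2) (D.M (kp (kF u) g)) :=
    H.theta l2 (by simpa using h2.col) (by simpa using h2.row) _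
  have htw := H.tw u⁻¹ g
  rw [tt_inv, inv_inv] at htw
  have e1 : l * p = p' * l2 * t⁻¹ := by
    simp only [l2]
    group
  have e2 : D.lam l * D.lam p = D.lam p' * D.lam l2 * (D.lam t)⁻¹ := by
    rw [← map_mul, e1, map_mul, map_mul, map_inv]
  rw [D.Mf_apply, D.Mf_apply]
  change D.lam l * (D.lam p * D.M g * (D.lam p)⁻¹) * (D.lam l)⁻¹ = D.lam p' * D.M (kp (kF u) g) * (D.lam p')⁻¹
  rw [map_inv] at htw
  have e3 : D.lam l * (D.lam p * D.M g * (D.lam p)⁻¹) * (D.lam l)⁻¹ =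
      (D.lam l * D.lam p) * D.M g * (D.lam l * D.lam p)⁻¹ := by group
  rw [e3, e2]
  have e4 : D.lam p' * D.lam l2 * (D.lam t)⁻¹ * D.M g * (D.lam p' * D.lam l2 * (D.lam t)⁻¹)⁻¹ =
      D.lam p' * (D.lam l2 * ((D.lam t)⁻¹ * D.M g * ((D.lam t)⁻¹)⁻¹) * (D.lam l2)⁻¹) * (D.lam p')⁻¹ := by group
  rw [e4, htw, mul_inv_eq_iff_eq_mul.2 hc.eq]

end Cfsg.Agent.Lib.MinStem
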