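import Cfsg.Agent.Lib.MinStem.Basic
import Cfsg.Agent.Lib.PresOm.Thm
import Cfsg.Agent.Lib.GeoOmega.Eichler
import Cfsg.Agent.Lib.MinDeg.Minus

/-!
# The target: the Levi subgroup and the rank one groups in `Ω⁻_{2n+2}(F)` (module T)

Port of `OddStem/Target.lean`: read it, all proofs carry over with `u₀`-coordinate replaced by `z = zOf C v ∈ K` (`pol Q x (uM C z) = tr (zOf C x * cj z)`).
Write `Q = quadFormMinus n F a b`, `V = VM n = (Fin n ⊕ Fin n) ⊕ Fin 2`, `C : QC F K a b` (coordinates on `K`).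
`levM_blk`: check on `uu`, `ll` by `eich_Y`, `eich_L`, `Eich.conj`, `Eich.smul`, (`m2_induction`).
`blk_twist`: `blk j wn` fixes `e_i, f_i` and acts on `K` by `z ↦ - z̄`: same method, `tau_uu`, `tau_ll`: `E(e_i, -t̄)`.
`blk_dd_conj`: `blk i (dd α)` fixes `e_k, f_k`, acts on `K` by multiplication with `ρ = α / ᾱ`, `N ρ = 1`; `kp_uu`, `kp_ll`.
`blk_neg`: `adX (dd (-1)) x z y = x` etc.
`closure_lev_blk`: as in `OddStem`.
-/

set_option autoImplicit false
set_option linter.unusedSectionVars false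
set_option linter.unusedSimpArgs false
set_option linter.unusedVariables false

namespace Cfsg.Agent.Lib.MinStem

open Matrix Cfsg Subgroup Cfsg.Agent.Lib.PresOm Cfsg.Agent.Lib.PresSp.M2 Cfsg.Agent.Lib.PresSp.Mono
  Cfsg.Agent.Lib.PresSLn.TwoGen Cfsg.Agent.Lib.GeoOmega.Eichler Cfsg.Agent.Lib.QuadFn Cfsg.Agent.Lib.OmDeg.Plus Cfsg.Geo
  Cfsg.Agent.Lib.Geo.QForm Cfsg.Agent.Lib.Orth.Levi

section ad

variable {F : Type*} {K : Type*} [Field F] [Field K] [Algebra F K] [QCj K] [QF F K]

lemma adX_add (g : M2 K) (x x' : F) (z z' : K) (y y' : F) :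
    adX g (x + x') (z + z') (y + y') = adX g x z y + adX g x' z' y' := by
  apply alg_inj (K := K)
  simp only [adX, map_add, map_sub, map_mul, alg_nm', alg_tr', mul_add]
  ring

lemma adZ_add (g : M2 K) (x x' : F) (z z' : K) (y y' : F) :
    adZ g (x + x') (z + z') (y + y') = adZ g x z y + adZ g x' z' y' := by
  simp only [adZ, map_add]
  ring

lemma adY_add (g : M2 K) (x x' : F) (z z' : K) (y y' : F) :
    adY g (x + x') (z + z') (y + y') = adY g x z y + adY g x' z' y' := by
  apply alg_inj (K := K)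
  simp only [adY, map_add, map_sub, map_mul, map_neg, alg_nm', alg_tr', mul_add]
  ring

lemma adX_smul (g : M2 K) (c x : F) (z : K) (y : F) :
    adX g (c * x) (algebraMap F K c * z) (c * y) = c * adX g x z y := by
  apply alg_inj (K := K)
  simp only [adX, map_add, map_sub, map_mul, alg_nm', alg_tr', cj_alg']
  ring

lemma adZ_smul (g : M2 K) (c x : F) (z : K) (y : F) :
    adZ g (c * x) (algebraMap F K c * z) (c * y) = algebraMap F K c * adZ g x z y := by
  simp only [adZ, map_mul, cj_alg']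
  ring

lemma adY_smul (g : M2 K) (c x : F) (z : K) (y : F) :
    adY g (c * x) (algebraMap F K c * z) (c * y) = c * adY g x z y := by
  apply alg_inj (K := K)
  simp only [adY, map_add, map_sub, map_mul, map_neg, alg_nm', alg_tr', cj_alg']
  ring

lemma adX_mul (g h : M2 K) (x : F) (z : K) (y : F) :
    adX (g * h) x z y = adX g (adX h x z y) (adZ h x z y) (adY h x z y) := by
  apply alg_inj (K := K)
  simp only [adX, adZ, adY, PresSp.M2.coe_mul, Matrix.mul_apply, Fin.sum_univ_two, map_add, map_sub, map_mul, map_neg,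
    alg_nm', alg_tr', cj_cj', cj_alg']
  ring

lemma adZ_mul (g h : M2 K) (x : F) (z : K) (y : F) :
    adZ (g * h) x z y = adZ g (adX h x z y) (adZ h x z y) (adY h x z y) := by
  simp only [adX, adZ, adY, PresSp.M2.coe_mul, Matrix.mul_apply, Fin.sum_univ_two, map_add, map_sub, map_mul, map_neg,
    alg_nm', alg_tr', cj_cj', cj_alg']
  ring

lemma adY_mul (g h : M2 K) (x : F) (z : K) (y : F) :
    adY (g * h) x z y = adY g (adX h x z y) (adZ h x z y) (adY h x z y) := by
  apply alg_inj (K := K)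
  simp only [adX, adZ, adY, PresSp.M2.coe_mul, Matrix.mul_apply, Fin.sum_univ_two, map_add, map_sub, map_mul, map_neg,
    alg_nm', alg_tr', cj_cj', cj_alg']
  ring

lemma adX_one (x : F) (z : K) (y : F) : adX (1 : M2 K) x z y = x := by
  simp [adX, nm_one, nm_zero, tr_zero]

lemma adZ_one (x : F) (z : K) (y : F) : adZ (1 : M2 K) x z y = z := by
  simp [adZ]

lemma adY_one (x : F) (z : K) (y : F) : adY (1 : M2 K) x z y = y := by
  simp [adY, nm_one, nm_zero, tr_zero]

end ad

section defs

variable {n : ℕ} {F : Type*} {K : Type*} [Field F] [Field K] [Algebra F K] [QCj K] [QF F K] {a b : F}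

/-- The index set of the space. -/
abbrev VM (n : ℕ) : Type := (Fin n ⊕ Fin n) ⊕ Fin 2

/-- The basis vectors. -/
def eM (i : Fin n) : VM n → F := Pi.single (Sum.inl (Sum.inl i)) 1
def fM (i : Fin n) : VM n → F := Pi.single (Sum.inl (Sum.inr i)) 1

/-- The vector of `z ∈ K`. -/
def uM (C : QC F K a b) (z : K) : VM n → F
  | Sum.inl _ => 0
  | Sum.inr t => C.co z t

/-- The `K`-coordinate of a vector. -/
def zOf (C : QC F K a b) (v : VM n → F) : K := C.co.symm (fun t => v (Sum.inr t))

lemma zOf_add (C : QC F K a b) (v w : VM n → F) : zOf C (v + w) = zOf C v + zOf C w := by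
  simp only [zOf, ← map_add]
  rfl

lemma zOf_smul (C : QC F K a b) (c : F) (v : VM n → F) : zOf C (c • v) = algebraMap F K c * zOf C v := by
  simp only [zOf]
  rw [← Algebra.smul_def, ← map_smul]
  rfl

lemma co_zOf (C : QC F K a b) (v : VM n → F) (t : Fin 2) : C.co (zOf C v) t = v (Sum.inr t) := by
  simp [zOf]

@[simp] lemma zOf_uM (C : QC F K a b) (z : K) : zOf C (uM C z : VM n → F) = z := by
  simp only [zOf, uM]
  exact C.co.symm_apply_apply z

/-- The extension of a matrix on the hyperbolic part. -/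
def exM : GeneralLinearGroup (Fin n ⊕ Fin n) F →* GeneralLinearGroup (VM n) F where
  toFun A := ⟨fromBlocks A.1 0 0 1, fromBlocks (A⁻¹).1 0 0 1,
    by
      rw [fromBlocks_multiply]
      simp,
    by
      rw [fromBlocks_multiply]
      simp⟩
  map_one' := by
    apply Units.ext
    change fromBlocks _ _ _ _ = _
    simp
  map_mul' x y := by
    apply Units.ext
    change fromBlocks _ _ _ _ = fromBlocks _ _ _ _ * fromBlocks _ _ _ _
    rw [fromBlocks_multiply]
    simp

/-- The Levi embedding: `l` on the `e_i`, its inverse transpose on the `f_i`, the identity on `K`. -/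
noncomputable def levM : SpecialLinearGroup (Fin n) F →* GeneralLinearGroup (VM n) F := exM.comp levG

lemma coe_levM (l : SpecialLinearGroup (Fin n) F) : (levM l).1 = fromBlocks (fromBlocks l.1 0 0 (Lp l)) 0 0 1 := rfl

/-- The action of the rank one group at `j` on a vector. -/
def blkFun (C : QC F K a b) (j : Fin n) (g : M2 K) (v : VM n → F) : VM n → F
  | Sum.inr t => C.co (adZ g (v (Sum.inl (Sum.inl j))) (zOf C v) (v (Sum.inl (Sum.inr j)))) t
  | Sum.inl (Sum.inl k) =>
    if k = j then adX g (v (Sum.inl (Sum.inl j))) (zOf C v) (v (Sum.inl (Sum.inr j))) else v (Sum.inl (Sum.inl k))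
  | Sum.inl (Sum.inr k) =>
    if k = j then adY g (v (Sum.inl (Sum.inl j))) (zOf C v) (v (Sum.inl (Sum.inr j))) else v (Sum.inl (Sum.inr k))

/-- The action as a linear map. -/
def blkL (C : QC F K a b) (j : Fin n) (g : M2 K) : (VM n → F) →ₗ[F] (VM n → F) where
  toFun := blkFun C j g
  map_add' u v := by
    funext r
    rcases r with (r | r) | r
    · simp only [blkFun, Pi.add_apply, zOf_add, adX_add]
      split_ifs <;> rfl
    · simp only [blkFun, Pi.add_apply, zOf_add, adY_add]
      split_ifs <;> rfl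
    · simp only [blkFun, Pi.add_apply, zOf_add, adZ_add, map_add]
  map_smul' c v := by
    funext r
    rcases r with (r | r) | r
    · simp only [blkFun, Pi.smul_apply, smul_eq_mul, zOf_smul, adX_smul, RingHom.id_apply]
      split_ifs <;> rfl
    · simp only [blkFun, Pi.smul_apply, smul_eq_mul, zOf_smul, adY_smul, RingHom.id_apply]
      split_ifs <;> rfl
    · simp only [blkFun, Pi.smul_apply, smul_eq_mul, zOf_smul, adZ_smul, RingHom.id_apply]
      rw [← Algebra.smul_def, map_smul]
      rfl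

lemma blkL_apply (C : QC F K a b) (j : Fin n) (g : M2 K) (v : VM n → F) : blkL C j g v = blkFun C j g v := rfl

lemma zOf_blkFun (C : QC F K a b) (j : Fin n) (g : M2 K) (v : VM n → F) :
    zOf C (blkFun C j g v) = adZ g (v (Sum.inl (Sum.inl j))) (zOf C v) (v (Sum.inl (Sum.inr j))) := by
  simp only [zOf, blkFun]
  exact C.co.symm_apply_apply _

lemma blkL_mul (C : QC F K a b) (j : Fin n) (g h : M2 K) : blkL C j (g * h) = (blkL C j g).comp (blkL C j h) := by
  apply LinearMap.ext
  intro v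
  funext r
  rcases r with (r | r) | r
  · by_cases hr : r = j
    · subst hr
      simp [blkL_apply, blkFun, adX_mul, zOf_blkFun]
    · simp [blkL_apply, blkFun, hr]
  · by_cases hr : r = j
    · subst hr
      simp [blkL_apply, blkFun, adY_mul, zOf_blkFun]
    · simp [blkL_apply, blkFun, hr]
  · simp [blkL_apply, blkFun, adZ_mul, zOf_blkFun]

lemma blkL_one (C : QC F K a b) (j : Fin n) : blkL C j (1 : M2 K) = LinearMap.id := by
  apply LinearMap.ext
  intro v
  funext r
  rcases r with (r | r) | r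
  · by_cases hr : r = j
    · subst hr
      simp [blkL_apply, blkFun, adX_one]
    · simp [blkL_apply, blkFun, hr]
  · by_cases hr : r = j
    · subst hr
      simp [blkL_apply, blkFun, adY_one]
    · simp [blkL_apply, blkFun, hr]
  · simp [blkL_apply, blkFun, adZ_one, co_zOf]

/-- The rank one group at `j`. -/
noncomputable def blk (C : QC F K a b) (j : Fin n) : M2 K →* GeneralLinearGroup (VM n) F where
  toFun g := ⟨LinearMap.toMatrix' (blkL C j g), LinearMap.toMatrix' (blkL C j g⁻¹),
    by rw [← LinearMap.toMatrix'_comp, ← blkL_mul, mul_inv_cancel, blkL_one, LinearMap.toMatrix'_id],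
    by rw [← LinearMap.toMatrix'_comp, ← blkL_mul, inv_mul_cancel, blkL_one, LinearMap.toMatrix'_id]⟩
  map_one' := by
    apply Units.ext
    change LinearMap.toMatrix' (blkL C j 1) = 1
    rw [blkL_one, LinearMap.toMatrix'_id]
  map_mul' g h := by
    apply Units.ext
    change LinearMap.toMatrix' (blkL C j (g * h)) = LinearMap.toMatrix' (blkL C j g) * LinearMap.toMatrix' (blkL C j h)
    rw [blkL_mul, LinearMap.toMatrix'_comp]

lemma blk_mulVec (C : QC F K a b) (j : Fin n) (g : M2 K) (v : VM n → F) : (blk C j g).1 *ᵥ v = blkFun C j g v := by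
  change LinearMap.toMatrix' (blkL C j g) *ᵥ v = _
  rw [LinearMap.toMatrix'_mulVec]
  rfl

end defs

section lemmas

variable {n : ℕ} {F : Type*} {K : Type*} [Field F] [Field K] [Algebra F K] [QCj K] [QF F K] {a b : F}

/-- The form `Q`. -/
local notation "QM" => quadFormMinus n F a b

/-- The polar form of `QM`. -/
lemma pol_minus' (x y : VM n → F) :
    pol (QM) x y = ∑ i, (x (Sum.inl (Sum.inl i)) * y (Sum.inl (Sum.inr i)) +
        x (Sum.inl (Sum.inr i)) * y (Sum.inl (Sum.inl i))) +
      (2 * x (Sum.inr 0) * y (Sum.inr 0) + a * (x (Sum.inr 0) * y (Sum.inr 1) + x (Sum.inr 1) * y (Sum.inr 0)) +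
        2 * b * x (Sum.inr 1) * y (Sum.inr 1)) := by
  simp only [pol, QuadraticMap.polar, quadFormMinus, Pi.add_apply]
  have h1 : ∑ i, (x (Sum.inl (Sum.inl i)) + y (Sum.inl (Sum.inl i))) * (x (Sum.inl (Sum.inr i)) + y (Sum.inl (Sum.inr i))) =
      ∑ i, x (Sum.inl (Sum.inl i)) * x (Sum.inl (Sum.inr i)) + ∑ i, y (Sum.inl (Sum.inl i)) * y (Sum.inl (Sum.inr i)) +
        ∑ i, (x (Sum.inl (Sum.inl i)) * y (Sum.inl (Sum.inr i)) + x (Sum.inl (Sum.inr i)) * y (Sum.inl (Sum.inl i))) := by
    rw [← Finset.sum_add_distrib, ← Finset.sum_add_distrib]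
    refine Finset.sum_congr rfl fun i _ => ?_
    ring
  rw [h1]
  ring

lemma pol_smulM (x y : VM n → F) (c : F) : pol (QM) x (c • y) = c * pol (QM) x y := by
  rw [pol_minus', pol_minus']
  simp only [Pi.smul_apply, smul_eq_mul, mul_add, Finset.mul_sum]
  congr 1
  · apply Finset.sum_congr rfl
    intro i _
    ring
  · ring

lemma Q_smulM (y : VM n → F) (c : F) : (QM) (c • y) = c ^ 2 * (QM) y := by
  simp only [quadFormMinus, Pi.smul_apply, smul_eq_mul, mul_add, Finset.mul_sum]
  congr 1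
  · apply Finset.sum_congr rfl
    intro i _
    ring
  · ring

lemma zOf_eM (C : QC F K a b) (k : Fin n) : zOf C (eM k : VM n → F) = 0 := by
  have : (fun t => (eM k : VM n → F) (Sum.inr t)) = 0 := by
    funext t
    simp [eM, Pi.single_apply]
  simp only [zOf, this, map_zero]

lemma zOf_fM (C : QC F K a b) (k : Fin n) : zOf C (fM k : VM n → F) = 0 := by
  have : (fun t => (fM k : VM n → F) (Sum.inr t)) = 0 := by
    funext t
    simp [fM, Pi.single_apply]
  simp only [zOf, this, map_zero]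

/-- The action of `SL₂(K)` preserves `x y + N z`. -/
lemma ad_inv (g : M2 K) (x : F) (z : K) (y : F) :
    adX g x z y * adY g x z y + nm (adZ g x z y) = x * y + nm z := by
  revert x z y
  refine m2_induction (P := fun g => ∀ (x : F) (z : K) (y : F),
    adX g x z y * adY g x z y + nm (adZ g x z y) = x * y + nm z) ?_ ?_ ?_ ?_ ?_ g
  · intro x z y
    rw [adX_one, adY_one, adZ_one]
  · intro t x z y
    simp only [adX_uu, adZ_uu, adY_uu]
    apply alg_inj (K := K)
    simp only [map_add, map_sub, map_mul, alg_nm', alg_tr', map_neg, cj_alg', cj_cj']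
    ring
  · intro t x z y
    simp only [adX_ll, adZ_ll, adY_ll]
    apply alg_inj (K := K)
    simp only [map_add, map_sub, map_mul, alg_nm', alg_tr', map_neg, cj_alg', cj_cj']
    ring
  · intro g h hg hh x z y
    rw [adX_mul, adY_mul, adZ_mul, hg, hh]
  · intro g hg x z y
    have := hg (adX g⁻¹ x z y) (adZ g⁻¹ x z y) (adY g⁻¹ x z y)
    rw [← adX_mul, ← adY_mul, ← adZ_mul, mul_inv_cancel, adX_one, adY_one, adZ_one] at this
    exact this.symm

/-- The form `Q` on a vector, in coordinates. -/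
lemma Q_coord (C : QC F K a b) (v : VM n → F) :
    (QM) v = (∑ i : Fin n, v (Sum.inl (Sum.inl i)) * v (Sum.inl (Sum.inr i))) + nm (zOf C v) := by
  have h0 := C.nm_co (zOf C v)
  rw [co_zOf, co_zOf] at h0
  rw [h0]
  rfl

/-- The polar form in the coordinates of `K`. -/
lemma pol_coord (C : QC F K a b) (x y : VM n → F) :
    pol (QM) x y = (∑ i : Fin n, (x (Sum.inl (Sum.inl i)) * y (Sum.inl (Sum.inr i)) +
        x (Sum.inl (Sum.inr i)) * y (Sum.inl (Sum.inl i)))) + tr (zOf C x * cj (zOf C y)) := by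
  simp only [pol, QuadraticMap.polar]
  rw [Q_coord C, Q_coord C, Q_coord C, zOf_add, nm_add]
  have h1 : ∑ i, ((x + y) (Sum.inl (Sum.inl i))) * ((x + y) (Sum.inl (Sum.inr i))) =
      ∑ i, x (Sum.inl (Sum.inl i)) * x (Sum.inl (Sum.inr i)) + ∑ i, y (Sum.inl (Sum.inl i)) * y (Sum.inl (Sum.inr i)) +
        ∑ i, (x (Sum.inl (Sum.inl i)) * y (Sum.inl (Sum.inr i)) + x (Sum.inl (Sum.inr i)) * y (Sum.inl (Sum.inl i))) := by
    rw [← Finset.sum_add_distrib, ← Finset.sum_add_distrib]
    refine Finset.sum_congr rfl fun i _ => ?_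
    simp only [Pi.add_apply]
    ring
  rw [h1]
  ring

/-- (T1) The polar form. `nm_add`, `C.nm_co`. -/
lemma pol_eM (x : VM n → F) (k : Fin n) : pol (QM) x (eM k) = x (Sum.inl (Sum.inr k)) := by
  rw [pol_minus']
  simp [eM, Pi.single_apply]

lemma pol_fM (x : VM n → F) (k : Fin n) : pol (QM) x (fM k) = x (Sum.inl (Sum.inl k)) := by
  rw [pol_minus']
  simp [fM, Pi.single_apply]

lemma pol_uM (C : QC F K a b) (x : VM n → F) (z : K) : pol (QM) x (uM C z) = tr (zOf C x * cj z) := by
  rw [pol_coord C]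
  simp [uM]

lemma Q_eM (k : Fin n) : (QM) (eM k) = 0 := by
  simp [quadFormMinus, eM, Pi.single_apply]

lemma Q_fM (k : Fin n) : (QM) (fM k) = 0 := by
  simp [quadFormMinus, fM, Pi.single_apply]

lemma Q_uM (C : QC F K a b) (z : K) : (QM) (uM C z) = nm z := by
  rw [Q_coord C]
  simp [uM]

/-- Anisotropic: `nm_ne_zero`, `C.nm_co`. -/
lemma aniso_C (C : QC F K a b) : ∀ z₁ z₂ : F, z₁ ^ 2 + a * z₁ * z₂ + b * z₂ ^ 2 = 0 → z₁ = 0 ∧ z₂ = 0 := by
  intro z₁ z₂ h
  have hz : C.co.symm ![z₁, z₂] = 0 := by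
    by_contra hz
    apply nm_ne_zero (F := F) hz
    rw [C.nm_co]
    simpa using h
  have h2 : (![z₁, z₂] : Fin 2 → F) = 0 := by
    have := congrArg C.co hz
    simpa using this
  exact ⟨by simpa using congrFun h2 0, by simpa using congrFun h2 1⟩

/-- `Cfsg.Agent.Lib.MinDeg.Minus.nd_minus`. -/
lemma nd_M (C : QC F K a b) : IsNondegenerateQuadraticForm (QM) := by
  have hpol : ∀ x y : VM n → F, QuadraticMap.polar (QM) x y = _ := pol_minus'
  refine ⟨?_, ⟨?_, ?_, ?_, ?_⟩, ?_⟩
  · intro c v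
    simp only [quadFormMinus, Pi.smul_apply, smul_eq_mul, mul_add, Finset.mul_sum]
    congr 1
    · refine Finset.sum_congr rfl fun i _ => ?_
      ring
    · ring
  · intro x y v
    simp only [hpol, Pi.add_apply, ← Finset.sum_add_distrib]
    have : ∀ A B C : F, A = B → (A + C = B + C) := fun A B C h => by rw [h]
    rw [add_add_add_comm, ← Finset.sum_add_distrib]
    congr 1
    · refine Finset.sum_congr rfl fun i _ => ?_
      ring
    · ring
  · intro c x v
    simp only [hpol, Pi.smul_apply, smul_eq_mul, Finset.mul_sum, mul_add]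
    congr 1
    · refine Finset.sum_congr rfl fun i _ => ?_
      ring
    · ring
  · intro v x y
    simp only [hpol, Pi.add_apply]
    rw [add_add_add_comm, ← Finset.sum_add_distrib]
    congr 1
    · refine Finset.sum_congr rfl fun i _ => ?_
      ring
    · ring
  · intro c v x
    simp only [hpol, Pi.smul_apply, smul_eq_mul, Finset.mul_sum, mul_add]
    congr 1
    · refine Finset.sum_congr rfl fun i _ => ?_
      ring
    · ring
  · intro v hv
    have key : ∃ x, QuadraticMap.polar (QM) x v ≠ 0 := by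
      by_contra hcon
      push Not at hcon
      apply hv
      have hz : zOf C v = 0 := by
        by_contra hz
        obtain ⟨y, hy⟩ := QF.tr_surj (F := F) (K := K) (1 : F)
        have h1 := hcon (uM C (y * (cj (zOf C v) : K)⁻¹))
        have h2 : pol (QM) (uM C (y * (cj (zOf C v) : K)⁻¹)) v = 1 := by
          rw [pol_coord C]
          have hc : (cj (zOf C v) : K) ≠ 0 := by simpa using hz
          simp [uM, hc, hy]
        exact one_ne_zero (h2.symm.trans h1)
      funext k
      rcases k with (i | i) | t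
      · have := hcon (fM i)
        rw [QuadraticMap.polar_comm] at this
        have h2 := pol_fM (a := a) (b := b) v i
        exact h2.symm.trans this
      · have := hcon (eM i)
        rw [QuadraticMap.polar_comm] at this
        have h2 := pol_eM (a := a) (b := b) v i
        exact h2.symm.trans this
      · have := co_zOf C v t
        rw [hz] at this
        simpa using this.symm
    refine ⟨key, ?_⟩
    obtain ⟨x, hx⟩ := key
    refine ⟨x, ?_⟩
    rwa [QuadraticMap.polar_comm]

lemma levM_apply (l : SpecialLinearGroup (Fin n) F) (v : VM n → F) :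
    (levM l).1 *ᵥ v = Sum.elim (Sum.elim (l.1 *ᵥ fun i => v (Sum.inl (Sum.inl i))) (Lp l *ᵥ fun i => v (Sum.inl (Sum.inr i))))
      (fun t => v (Sum.inr t)) := by
  rw [coe_levM, fromBlocks_mulVec]
  funext r
  rcases r with (r | r) | r
  · simp [fromBlocks_mulVec, Function.comp_def]
  · simp [fromBlocks_mulVec, Function.comp_def]
  · simp [Function.comp_def]

lemma levM_mem_iso (l : SpecialLinearGroup (Fin n) F) : levM l ∈ isometryGroup F (QM) := by
  rw [Cfsg.Agent.Lib.Geo.Basic.mem_isometryGroup_iff]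
  intro v
  rw [levM_apply]
  simp only [quadFormMinus, Sum.elim_inl, Sum.elim_inr]
  congr 1
  change (l.1 *ᵥ fun i => v (Sum.inl (Sum.inl i))) ⬝ᵥ (Lp l *ᵥ fun i => v (Sum.inl (Sum.inr i))) =
    (fun i => v (Sum.inl (Sum.inl i))) ⬝ᵥ (fun i => v (Sum.inl (Sum.inr i)))
  rw [dotProduct_mulVec, vecMul_transpose, mulVec_mulVec, inv_mul_coe, one_mulVec]

/-- `Q_coord`, `nm` of `adZ` times ... : `xy + N z` is invariant under the Hermitian action, as `det`: uses `g.2` (`det_fin_two`). By `m2_induction` it is enough to check `uu t`, `ll t`. -/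
lemma blk_mem_iso (C : QC F K a b) (j : Fin n) (g : M2 K) : blk C j g ∈ isometryGroup F (QM) := by
  rw [Cfsg.Agent.Lib.Geo.Basic.mem_isometryGroup_iff]
  intro v
  rw [blk_mulVec, Q_coord C, Q_coord C, zOf_blkFun]
  rw [← Finset.add_sum_erase Finset.univ _ (Finset.mem_univ j),
    ← Finset.add_sum_erase Finset.univ (fun i => v (Sum.inl (Sum.inl i)) * v (Sum.inl (Sum.inr i))) (Finset.mem_univ j)]
  have he : ∑ i ∈ Finset.univ.erase j, blkFun C j g v (Sum.inl (Sum.inl i)) * blkFun C j g v (Sum.inl (Sum.inr i)) =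
      ∑ i ∈ Finset.univ.erase j, v (Sum.inl (Sum.inl i)) * v (Sum.inl (Sum.inr i)) := by
    apply Finset.sum_congr rfl
    intro i hi
    have hij := Finset.ne_of_mem_erase hi
    simp [blkFun, hij]
  rw [he]
  simp only [blkFun, if_true]
  have := ad_inv (F := F) g (v (Sum.inl (Sum.inl j))) (zOf C v) (v (Sum.inl (Sum.inr j)))
  linear_combination this

lemma eich_T {i j : Fin n} (h : i ≠ j) (c : F) : Eich (QM) (levM (TT h c)) (eM i) (c • fM j) := by
  intro x
  rw [pol_smulM, pol_fM, pol_eM, Q_smulM, Q_fM, levM_apply, Lp_T, TT, coeT]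
  funext r
  rcases r with (r | r) | r
  · simp only [Sum.elim_inr, Sum.elim_inl, Pi.add_apply, add_mulVec, one_mulVec, Pi.sub_apply, Pi.smul_apply,
      smul_eq_mul, single_mulVec]
    by_cases h1 : r = i
    · subst h1
      simp [eM, fM, Function.update_apply, Pi.single_apply, h]
    · simp [eM, fM, Function.update_apply, Pi.single_apply, h1]
  · simp only [Sum.elim_inr, Sum.elim_inl, Pi.add_apply, add_mulVec, one_mulVec, Pi.sub_apply, Pi.smul_apply,
      smul_eq_mul, single_mulVec]
    by_cases h1 : r = j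
    · subst h1
      simp [eM, fM, Function.update_apply, Pi.single_apply, h, Ne.symm h]
      ring
    · simp [eM, fM, Function.update_apply, Pi.single_apply, h1]
  · simp [eM, fM, Pi.single_apply]

lemma eich_Y (C : QC F K a b) (j : Fin n) (t : K) : Eich (QM) (blk C j (uu t)) (eM j) (uM C t) := by
  intro x
  rw [pol_uM C, pol_eM, Q_uM C, blk_mulVec]
  funext r
  rcases r with (r | r) | r
  · by_cases h1 : r = j
    · subst h1
      simp [blkFun, eM, uM, Pi.single_apply]
      rw [mul_comm]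
    · simp [blkFun, eM, uM, Pi.single_apply, h1]
  · by_cases h1 : r = j
    · subst h1
      simp [blkFun, eM, uM, Pi.single_apply]
    · simp [blkFun, eM, uM, Pi.single_apply, h1]
  · have h2 : t * algebraMap F K (x (Sum.inl (Sum.inr j))) = x (Sum.inl (Sum.inr j)) • t := by
      rw [Algebra.smul_def, mul_comm]
    simp only [blkFun, adZ_uu, h2, map_sub, map_smul, Pi.sub_apply, Pi.smul_apply, co_zOf]
    simp [eM, uM, Pi.single_apply]

lemma eich_L (C : QC F K a b) (j : Fin n) (t : K) : Eich (QM) (blk C j (ll t)) (fM j) (uM C (- cj t)) := by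
  intro x
  rw [pol_uM C, pol_fM, Q_uM C, blk_mulVec]
  funext r
  rcases r with (r | r) | r
  · by_cases h1 : r = j
    · subst h1
      simp [blkFun, fM, uM, Pi.single_apply]
    · simp [blkFun, fM, uM, Pi.single_apply, h1]
  · by_cases h1 : r = j
    · subst h1
      simp [blkFun, fM, uM, Pi.single_apply, nm_neg, nm_cj, tr_neg]
      rw [mul_comm]
      ring_nf
    · simp [blkFun, fM, uM, Pi.single_apply, h1]
  · have h2 : (cj t : K) * algebraMap F K (x (Sum.inl (Sum.inl j))) = x (Sum.inl (Sum.inl j)) • (cj t : K) := by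
      rw [Algebra.smul_def, mul_comm]
    simp only [blkFun, adZ_ll, h2, map_add, map_smul, Pi.add_apply, Pi.smul_apply, co_zOf]
    simp [fM, uM, Pi.single_apply]
    ring

lemma blk_eM_ne (C : QC F K a b) {j k : Fin n} (h : k ≠ j) (g : M2 K) : (blk C j g).1 *ᵥ eM k = (eM k : VM n → F) := by
  rw [blk_mulVec]
  have hz : zOf C (Pi.single (Sum.inl (Sum.inl k)) 1 : VM n → F) = 0 := zOf_eM C k
  funext r
  rcases r with (r | r) | r
  · by_cases h1 : r = j
    · subst h1
      simp [blkFun, eM, Pi.single_apply, adX, Ne.symm h, hz, tr_zero]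
    · simp [blkFun, eM, Pi.single_apply, h1]
  · by_cases h1 : r = j
    · subst h1
      simp [blkFun, eM, Pi.single_apply, adY, Ne.symm h, hz, tr_zero]
    · simp [blkFun, eM, Pi.single_apply, h1]
  · simp [blkFun, eM, Pi.single_apply, adZ, Ne.symm h, hz]

lemma blk_fM_ne (C : QC F K a b) {j k : Fin n} (h : k ≠ j) (g : M2 K) : (blk C j g).1 *ᵥ fM k = (fM k : VM n → F) := by
  rw [blk_mulVec]
  have hz : zOf C (Pi.single (Sum.inl (Sum.inr k)) 1 : VM n → F) = 0 := zOf_fM C k
  funext r
  rcases r with (r | r) | r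
  · by_cases h1 : r = j
    · subst h1
      simp [blkFun, fM, Pi.single_apply, adX, Ne.symm h, hz, tr_zero]
    · simp [blkFun, fM, Pi.single_apply, h1]
  · by_cases h1 : r = j
    · subst h1
      simp [blkFun, fM, Pi.single_apply, adY, Ne.symm h, hz, tr_zero]
    · simp [blkFun, fM, Pi.single_apply, h1]
  · simp [blkFun, fM, Pi.single_apply, adZ, Ne.symm h, hz]

lemma blk_vec (C : QC F K a b) (j : Fin n) (g : M2 K) (x : F) (z : K) (y : F) :
    (blk C j g).1 *ᵥ (x • eM j + uM C z + y • fM j) =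
      adX g x z y • eM j + uM C (adZ g x z y) + adY g x z y • fM j := by
  rw [blk_mulVec]
  have h1 : zOf C (x • eM j + uM C z + y • fM j : VM n → F) = z := by
    rw [zOf_add, zOf_add, zOf_smul, zOf_smul, zOf_eM, zOf_fM, zOf_uM]
    simp
  have h2 : (x • eM j + uM C z + y • fM j : VM n → F) (Sum.inl (Sum.inl j)) = x := by
    simp [eM, fM, uM, Pi.single_apply]
  have h3 : (x • eM j + uM C z + y • fM j : VM n → F) (Sum.inl (Sum.inr j)) = y := by
    simp [eM, fM, uM, Pi.single_apply]
  funext r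
  rcases r with (r | r) | r
  · by_cases h4 : r = j
    · subst h4
      simp only [blkFun, if_true, h1, h2, h3]
      simp [eM, fM, uM, Pi.single_apply]
    · simp [blkFun, eM, fM, uM, Pi.single_apply, h4]
  · by_cases h4 : r = j
    · subst h4
      simp only [blkFun, if_true, h1, h2, h3]
      simp [eM, fM, uM, Pi.single_apply]
    · simp [blkFun, eM, fM, uM, Pi.single_apply, h4]
  · simp only [blkFun, h1, h2, h3]
    simp [eM, fM, uM, Pi.single_apply]

lemma levM_uM (C : QC F K a b) (l : SpecialLinearGroup (Fin n) F) (z : K) : (levM l).1 *ᵥ uM C z = (uM C z : VM n → F) := by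
  rw [levM_apply]
  funext r
  rcases r with (r | r) | r
  · have : (fun i => (uM C z : VM n → F) (Sum.inl (Sum.inl i))) = 0 := by
      funext i
      simp [uM]
    simp [this, uM]
    exact congrFun (Matrix.mulVec_zero _) r
  · have : (fun i => (uM C z : VM n → F) (Sum.inl (Sum.inr i))) = 0 := by
      funext i
      simp [uM]
    simp [this, uM]
    exact congrFun (Matrix.mulVec_zero _) r
  · simp [uM]

lemma levM_eM (l : SpecialLinearGroup (Fin n) F) (i : Fin n) :
    (levM l).1 *ᵥ eM i = fun r => match r with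
      | Sum.inl (Sum.inl k) => l.1 k i
      | _ => 0 := by
  rw [levM_apply]
  have h1 : (fun k => (eM i : VM n → F) (Sum.inl (Sum.inl k))) = Pi.single i 1 := by
    funext k
    simp [eM, Pi.single_apply]
  have h2 : (fun k => (eM i : VM n → F) (Sum.inl (Sum.inr k))) = 0 := by
    funext k
    simp [eM, Pi.single_apply]
  rw [h1, h2]
  funext r
  rcases r with (r | r) | r
  · simp
  · simp
  · simp [eM, Pi.single_apply]

lemma levM_fM (l : SpecialLinearGroup (Fin n) F) (i : Fin n) :
    (levM l).1 *ᵥ fM i = fun r => match r with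
      | Sum.inl (Sum.inr k) => (l⁻¹).1 i k
      | _ => 0 := by
  rw [levM_apply]
  have h1 : (fun k => (fM i : VM n → F) (Sum.inl (Sum.inr k))) = Pi.single i 1 := by
    funext k
    simp [fM, Pi.single_apply]
  have h2 : (fun k => (fM i : VM n → F) (Sum.inl (Sum.inl k))) = 0 := by
    funext k
    simp [fM, Pi.single_apply]
  rw [h1, h2]
  funext r
  rcases r with (r | r) | r
  · simp
  · simp [Lp]
  · simp [fM, Pi.single_apply]

lemma levM_eM_of_Mu {l : SpecialLinearGroup (Fin n) F} {i i' : Fin n} {u : Fˣ} (h : Mu l i i' u) :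
    (levM l).1 *ᵥ eM i = (u : F) • (eM i' : VM n → F) := by
  rw [levM_eM]
  have hc := h.col
  funext r
  rcases r with (r | r) | r
  · have := congrFun hc r
    simp only [mulVec_single_one, Matrix.col_apply] at this
    simp only [eM, Pi.smul_apply, smul_eq_mul, Pi.single_apply, Sum.inl.injEq]
    rw [this, Pi.single_apply]
    split_ifs <;> simp
  · simp [eM, Pi.single_apply]
  · simp [eM, Pi.single_apply]

lemma levM_fM_of_Mu {l : SpecialLinearGroup (Fin n) F} {i i' : Fin n} {u : Fˣ} (h : Mu l i i' u) :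
    (levM l).1 *ᵥ fM i = ((u⁻¹ : Fˣ) : F) • (fM i' : VM n → F) := by
  rw [levM_fM]
  have hr : Pi.single i (1 : F) ᵥ* (l⁻¹).1 = ((u⁻¹ : Fˣ) : F) • Pi.single i' (1 : F) := by
    have h1 : (Pi.single i' (1 : F)) ᵥ* l.1 = (u : F) • Pi.single i (1 : F) := by
      rw [h.row]
      funext k
      simp [Pi.single_apply]
    have h2 : ((Pi.single i' (1 : F)) ᵥ* l.1) ᵥ* (l⁻¹).1 = Pi.single i' (1 : F) := by
      rw [vecMul_vecMul, mul_inv_coe, vecMul_one]
    rw [h1, smul_vecMul] at h2
    rw [← h2, smul_smul]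
    simp
  funext r
  rcases r with (r | r) | r
  · simp [fM, Pi.single_apply]
  · have := congrFun hr r
    simp only [single_one_vecMul, Matrix.row_apply] at this
    simp only [fM, Pi.smul_apply, smul_eq_mul, Pi.single_apply, Sum.inl.injEq]
    rw [this]
    simp [Pi.single_apply]
  · simp [fM, Pi.single_apply]

/-- (T2) -/
lemma uM_alg_mul (C : QC F K a b) (c : F) (z : K) :
    uM C (algebraMap F K c * z) = (c • uM C z : VM n → F) := by
  funext r
  rcases r with r | r
  · simp [uM]
  · simp only [uM, Pi.smul_apply, smul_eq_mul]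
    rw [← Algebra.smul_def, map_smul]
    rfl

lemma levM_blk (C : QC F K a b) {l : SpecialLinearGroup (Fin n) F} {i i' : Fin n} {u : Fˣ} (h : Mu l i i' u) (g : M2 K) :
    levM l * blk C i g * (levM l)⁻¹ = blk C i' (kp (kF u) g) := by
  have hI := levM_mem_iso (F := F) (a := a) (b := b) l
  refine m2_induction (P := fun g => levM l * blk C i g * (levM l)⁻¹ = blk C i' (kp (kF u) g)) ?_ ?_ ?_ ?_ ?_ g
  · simp
  · intro t
    have e1 := (eich_Y C i t).conj hI
    rw [levM_eM_of_Mu h, levM_uM] at e1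
    have e2 := e1.smul (nd_M C) (u : F)
    rw [kp_uu]
    refine e2.unique' ?_
    have e3 := eich_Y C i' (((kF u : Kˣ) : K) * t)
    rw [coe_kF, uM_alg_mul] at e3
    rw [coe_kF]
    exact e3
  · intro t
    have e1 := (eich_L C i t).conj hI
    rw [levM_fM_of_Mu h, levM_uM] at e1
    have e2 := e1.smul (nd_M C) (((u⁻¹ : Fˣ) : F))
    rw [kp_ll]
    refine e2.unique' ?_
    have e3 := eich_L C i' ((((kF u)⁻¹ : Kˣ) : K) * t)
    rw [coe_kF_inv, map_mul, cj_alg', ← mul_neg, uM_alg_mul] at e3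
    rw [coe_kF_inv]
    exact e3
  · intro a' b' ha hb
    have e : levM l * blk C i (a' * b') * (levM l)⁻¹ =
        (levM l * blk C i a' * (levM l)⁻¹) * (levM l * blk C i b' * (levM l)⁻¹) := by
      rw [map_mul]
      group
    rw [e, ha, hb, map_mul, map_mul]
  · intro a' ha
    have e : levM l * blk C i a'⁻¹ * (levM l)⁻¹ = (levM l * blk C i a' * (levM l)⁻¹)⁻¹ := by
      rw [map_inv]
      group
    rw [e, ha, map_inv, map_inv]

/-- `r_j` acts on `K` by `z ↦ - z̄`. -/
lemma blk_wn_uM (C : QC F K a b) (j : Fin n) (z : K) :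
    (blk C j (wn : M2 K)).1 *ᵥ uM C z = (uM C (- cj z) : VM n → F) := by
  rw [blk_mulVec]
  funext r
  rcases r with (r | r) | r
  · by_cases hr : r = j
    · subst hr
      simp [blkFun, uM, zOf_uM]
    · simp [blkFun, uM, hr]
  · by_cases hr : r = j
    · subst hr
      simp [blkFun, uM, zOf_uM]
    · simp [blkFun, uM, hr]
  · simp [blkFun, uM, zOf_uM]

/-- `r_j` sends `f_j` to `-e_j`. -/
lemma blk_wn_fM (C : QC F K a b) (j : Fin n) : (blk C j (wn : M2 K)).1 *ᵥ fM j = -(eM j : VM n → F) := by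
  rw [blk_mulVec]
  funext r
  rcases r with (r | r) | r
  · by_cases hr : r = j
    · subst hr
      simp [blkFun, fM, eM, Pi.single_apply]
    · simp [blkFun, fM, eM, hr, Pi.single_apply]
  · by_cases hr : r = j
    · subst hr
      simp [blkFun, fM, eM, Pi.single_apply]
    · simp [blkFun, fM, eM, hr, Pi.single_apply]
  · have := zOf_fM C (n := n) j
    simp only [fM] at this
    simp [blkFun, this, eM, Pi.single_apply, fM]

lemma blk_twist (C : QC F K a b) {i j : Fin n} (h : i ≠ j) (g : M2 K) :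
    blk C j wn * blk C i g * (blk C j wn)⁻¹ = blk C i (tau g) := by
  have hI := blk_mem_iso C j (wn : M2 K)
  refine m2_induction (P := fun g => blk C j wn * blk C i g * (blk C j wn)⁻¹ = blk C i (tau g)) ?_ ?_ ?_ ?_ ?_ g
  · simp
  · intro t
    have e1 := (eich_Y C i t).conj hI
    rw [blk_eM_ne C h, blk_wn_uM] at e1
    rw [tau_uu]
    exact e1.unique' (eich_Y C i (- cj t))
  · intro t
    have e1 := (eich_L C i t).conj hI
    rw [blk_fM_ne C h, blk_wn_uM] at e1
    rw [tau_ll]
    exact e1.unique' (eich_L C i (- cj t))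
  · intro a' b' ha hb
    have e : blk C j wn * blk C i (a' * b') * (blk C j wn)⁻¹ =
        (blk C j wn * blk C i a' * (blk C j wn)⁻¹) * (blk C j wn * blk C i b' * (blk C j wn)⁻¹) := by
      rw [map_mul]
      group
    rw [e, ha, hb, map_mul, map_mul]
  · intro a' ha
    have e : blk C j wn * blk C i a'⁻¹ * (blk C j wn)⁻¹ = (blk C j wn * blk C i a' * (blk C j wn)⁻¹)⁻¹ := by
      rw [map_inv]
      group
    rw [e, ha, map_inv, map_inv]

/-- `α / ᾱ`. -/
noncomputable def rhoU (α : Kˣ) : Kˣ := α * (cjU α)⁻¹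

lemma coe_rhoU (α : Kˣ) : ((rhoU α : Kˣ) : K) = (α : K) * cj ((α⁻¹ : Kˣ) : K) := by
  simp only [rhoU, Units.val_mul, coe_cjU_inv]

lemma coe_rhoU_inv (α : Kˣ) : (((rhoU α)⁻¹ : Kˣ) : K) = cj (α : K) * ((α⁻¹ : Kˣ) : K) := by
  simp only [rhoU, mul_inv, inv_inv, Units.val_mul, coe_cjU]
  ring

/-- `dd α` at `j` acts on `K` by `ρ = α / ᾱ`. -/
lemma blk_dd_uM (C : QC F K a b) (j : Fin n) (α : Kˣ) (z : K) :
    (blk C j (dd α)).1 *ᵥ uM C z = (uM C (((rhoU α : Kˣ) : K) * z) : VM n → F) := by
  rw [blk_mulVec, coe_rhoU]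
  funext r
  rcases r with (r | r) | r
  · by_cases hr : r = j
    · subst hr
      simp [blkFun, uM, zOf_uM]
    · simp [blkFun, uM, hr]
  · by_cases hr : r = j
    · subst hr
      simp [blkFun, uM, zOf_uM]
    · simp [blkFun, uM, hr]
  · simp [blkFun, uM, zOf_uM]

lemma blk_dd_conj (C : QC F K a b) {i j : Fin n} (h : i ≠ j) (α : Kˣ) (g : M2 K) :
    blk C j (dd α) * blk C i g * (blk C j (dd α))⁻¹ = blk C i (kp (rhoU α) g) := by
  have hI := blk_mem_iso C j (dd α)
  refine m2_induction (P := fun g => blk C j (dd α) * blk C i g * (blk C j (dd α))⁻¹ = blk C i (kp (rhoU α) g)) ?_ ?_ ?_ ?_ ?_ g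
  · simp
  · intro t
    have e1 := (eich_Y C i t).conj hI
    rw [blk_eM_ne C h, blk_dd_uM] at e1
    rw [kp_uu]
    exact e1.unique' (eich_Y C i _)
  · intro t
    have e1 := (eich_L C i t).conj hI
    rw [blk_fM_ne C h, blk_dd_uM] at e1
    rw [kp_ll]
    refine e1.unique' ?_
    have e3 := eich_L C i (((rhoU α)⁻¹ : Kˣ) * t)
    have e4 : - (cj ((((rhoU α)⁻¹ : Kˣ) : K) * t) : K) = ((rhoU α : Kˣ) : K) * - cj t := by
      rw [coe_rhoU_inv, coe_rhoU, map_mul, map_mul, cj_cj']
      ring
    rwa [e4] at e3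
  · intro a' b' ha hb
    have e : blk C j (dd α) * blk C i (a' * b') * (blk C j (dd α))⁻¹ =
        (blk C j (dd α) * blk C i a' * (blk C j (dd α))⁻¹) * (blk C j (dd α) * blk C i b' * (blk C j (dd α))⁻¹) := by
      rw [map_mul]
      group
    rw [e, ha, hb, map_mul, map_mul]
  · intro a' ha
    have e : blk C j (dd α) * blk C i a'⁻¹ * (blk C j (dd α))⁻¹ = (blk C j (dd α) * blk C i a' * (blk C j (dd α))⁻¹)⁻¹ := by
      rw [map_inv]
      group
    rw [e, ha, map_inv, map_inv]

lemma blk_neg (C : QC F K a b) (j : Fin n) : blk C j (dd (-1 : Kˣ)) = 1 := by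
  apply Units.ext
  change LinearMap.toMatrix' (blkL C j (dd (-1 : Kˣ))) = 1
  have e : blkL C j (dd (-1 : Kˣ)) = LinearMap.id := by
    apply LinearMap.ext
    intro v
    funext r
    rcases r with (r | r) | r
    · by_cases hr : r = j
      · subst hr
        simp [blkL_apply, blkFun, nm_neg, nm_one]
      · simp [blkL_apply, blkFun, hr]
    · by_cases hr : r = j
      · subst hr
        simp [blkL_apply, blkFun, nm_neg, nm_one]
      · simp [blkL_apply, blkFun, hr]
    · simp [blkL_apply, blkFun, co_zOf]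
  rw [e, LinearMap.toMatrix'_id]

end lemmas

section omega

variable {n : ℕ} {F : Type*} {K : Type*} [Field F] [Field K] [Algebra F K] [QCj K] [QF F K] {a b : F}

local notation "QM" => quadFormMinus n F a b

/-- The inclusion of `Ω`. -/
def iOm : Omega F (QM) →* GeneralLinearGroup (VM n) F :=
  (isometryGroup F (QM)).subtype.comp (Omega F (QM)).subtype

lemma iOm_inj : Function.Injective (iOm : Omega F (QM) →* _) :=
  Subtype.val_injective.comp Subtype.val_injective

lemma iOm_range : (iOm : Omega F (QM) →* _).range = omegaGL (QM) := by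
  ext g
  constructor
  · rintro ⟨x, rfl⟩
    exact ⟨x.1, x.2, rfl⟩
  · rintro ⟨x, hx, rfl⟩
    exact ⟨⟨x, hx⟩, rfl⟩

variable [Fintype F]

lemma card_VM_ge (hn : 3 ≤ n) : 7 ≤ Fintype.card (VM n) := by
  simp only [VM, Fintype.card_sum, Fintype.card_fin]
  omega

/-- (T3) -/
lemma uM_zero' (C : QC F K a b) : (uM C (0 : K) : VM n → F) = 0 := by
  funext r
  rcases r with r | r
  · rfl
  · simp [uM]

lemma zOf_eM' (C : QC F K a b) (k : Fin n) : zOf C (eM k : VM n → F) = 0 := by
  have : (fun t => (eM k : VM n → F) (Sum.inr t)) = 0 := by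
    funext t
    simp [eM, Pi.single_apply]
  simp only [zOf, this, map_zero]

lemma zOf_fM' (C : QC F K a b) (k : Fin n) : zOf C (fM k : VM n → F) = 0 := by
  have : (fun t => (fM k : VM n → F) (Sum.inr t)) = 0 := by
    funext t
    simp [fM, Pi.single_apply]
  simp only [zOf, this, map_zero]

lemma pol_eM_fM' (C : QC F K a b) {i j : Fin n} (h : i ≠ j) (c : F) : pol (QM) (eM i) (c • fM j) = 0 := by
  rw [Cfsg.Agent.Lib.Geo.QForm.pol_smul_right (nd_M C), pol_fM]
  simp [eM, Pi.single_apply, h, Ne.symm h]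

lemma pol_eM_uM' (C : QC F K a b) (i : Fin n) (z : K) : pol (QM) (eM i) (uM C z) = 0 := by
  rw [pol_uM, zOf_eM', zero_mul, tr_zero]

lemma pol_fM_uM' (C : QC F K a b) (i : Fin n) (z : K) : pol (QM) (fM i) (uM C z) = 0 := by
  rw [pol_uM, zOf_fM', zero_mul, tr_zero]

lemma pol_eM_eM' (C : QC F K a b) (i j : Fin n) (c : F) : pol (QM) (eM i) (c • eM j) = 0 := by
  rw [Cfsg.Agent.Lib.Geo.QForm.pol_smul_right (nd_M C), pol_eM]
  simp [eM, Pi.single_apply]

lemma levM_mem_omega (C : QC F K a b) (hn : 3 ≤ n) (l : SpecialLinearGroup (Fin n) F) : levM l ∈ omegaGL (QM) := by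
  haveI : Nontrivial (Fin n) := Fin.nontrivial_iff_two_le.mpr (by omega)
  have htop := Cfsg.Agent.Lib.Classical.Transvections.closure_transvections_eq_top (ι := Fin n) (F := F)
  have hle : Subgroup.closure {t : SpecialLinearGroup (Fin n) F | ∃ (i j : Fin n) (hij : i ≠ j) (c : F),
      t = SpecialLinearGroup.transvection hij c} ≤
      (omegaGL (QM)).comap (levM : SpecialLinearGroup (Fin n) F →* _) := by
    rw [Subgroup.closure_le]
    rintro _ ⟨i, j, hij, c, rfl⟩
    exact (eich_T hij c).mem_omega (nd_M C) (card_VM_ge hn) (Q_eM i) (pol_eM_fM' C hij c)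
  exact hle (htop ▸ Subgroup.mem_top l)

lemma blk_mem_omega (C : QC F K a b) (hn : 3 ≤ n) (j : Fin n) (g : M2 K) : blk C j g ∈ omegaGL (QM) := by
  refine m2_induction (P := fun g => blk C j g ∈ omegaGL (QM)) ?_ ?_ ?_ ?_ ?_ g
  · rw [map_one]
    exact one_mem _
  · intro t
    exact (eich_Y C j t).mem_omega (nd_M C) (card_VM_ge hn) (Q_eM j) (pol_eM_uM' C j t)
  · intro t
    exact (eich_L C j t).mem_omega (nd_M C) (card_VM_ge hn) (Q_fM j) (pol_fM_uM' C j _)
  · intro x y hx hy
    rw [map_mul]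
    exact mul_mem hx hy
  · intro x hx
    rw [map_inv]
    exact inv_mem hx

/-- The long root elements of the target, from the Levi transvections by the Weyl element. -/
lemma eich_long (C : QC F K a b) {b' k : Fin n} (h : b' ≠ k) (t : F) :
    Eich (QM) (blk C k wn * levM (TT h (-t)) * (blk C k wn)⁻¹) (eM b') (t • eM k) := by
  have e := (eich_T h (-t)).conj (blk_mem_iso C k wn)
  rw [blk_eM_ne C h] at e
  have e1 : (blk C k wn).1 *ᵥ ((-t) • fM k) = t • (eM k : VM n → F) := by
    have h3 := blk_vec C k (wn : M2 K) (0 : F) (0 : K) (-t)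
    simp only [zero_smul, zero_add, adX_wn, adZ_wn, adY_wn, neg_zero, add_zero, neg_neg, map_zero, uM_zero'] at h3
    exact h3
  rw [e1] at e
  exact e

lemma eich_self (C : QC F K a b) (b' : Fin n) (t : F) : Eich (QM) 1 (eM b') (t • eM b') := by
  intro x
  have hQ := nd_M (n := n) C
  rw [Units.val_one, one_mulVec, Cfsg.Agent.Lib.Geo.QForm.pol_smul_right hQ, hQ.smul, Q_eM, mul_zero, zero_mul,
    zero_smul, sub_zero, smul_smul, mul_comm, add_sub_cancel_right]

lemma eich_zero (C : QC F K a b) (b' : Fin n) : Eich (QM) 1 (eM b') 0 := by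
  have := eich_self C b' (0 : F)
  simpa using this

/-- The Eichler transformations with centre `e_b`. -/
lemma full_eM (C : QC F K a b) {b' : Fin n} (M : Subgroup (GeneralLinearGroup (VM n) F))
    (hY : ∀ t : K, blk C b' (uu t) ∈ M)
    (hT : ∀ (k : Fin n) (h : b' ≠ k) (c : F), levM (TT h c) ∈ M)
    (hr : ∀ (k : Fin n) (h : b' ≠ k) (c : F), blk C k wn * levM (TT h c) * (blk C k wn)⁻¹ ∈ M) :
    Full (QM) M (eM b') := by
  intro v g hv hg
  have hQ := nd_M (n := n) C
  have hvb : v (Sum.inl (Sum.inr b')) = 0 := by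
    rw [Cfsg.Agent.Lib.Geo.QForm.pol_symm hQ, pol_eM] at hv
    exact hv
  have hu : ∀ (c : F) (t : Fin 2), ∃ z : K, (uM C z : VM n → F) = c • (Pi.single (Sum.inr t) 1 : VM n → F) := by
    intro c t
    refine ⟨C.co.symm (c • Pi.single t 1), ?_⟩
    funext r
    rcases r with r | r
    · simp [uM, Pi.single_apply]
    · simp [uM, Pi.single_apply]
  have hs : ∀ x : VM n, ∃ g ∈ M, Eich (QM) g (eM b') (v x • (Pi.single x 1 : VM n → F)) := by
    rintro ((k | k) | t)
    · by_cases hk : b' = k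
      · subst hk
        exact ⟨1, M.one_mem, eich_self C b' _⟩
      · exact ⟨_, hr k hk _, eich_long C hk _⟩
    · by_cases hk : b' = k
      · subst hk
        refine ⟨1, M.one_mem, ?_⟩
        rw [hvb, zero_smul]
        exact eich_zero C b'
      · exact ⟨_, hT k hk _, eich_T hk _⟩
    · obtain ⟨z, hz⟩ := hu (v (Sum.inr t)) t
      rw [← hz]
      exact ⟨_, hY z, eich_Y C b' z⟩
  have hp' : ∀ x : VM n, pol (QM) (eM b') (v x • (Pi.single x 1 : VM n → F)) = 0 := by
    rintro ((k | k) | t)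
    · exact pol_eM_eM' C b' k _
    · by_cases hk : b' = k
      · subst hk
        rw [hvb, zero_smul]
        exact Cfsg.Agent.Lib.Geo.QForm.pol_zero_right hQ _
      · exact pol_eM_fM' C hk _
    · obtain ⟨z, hz⟩ := hu (v (Sum.inr t)) t
      rw [← hz]
      exact pol_eM_uM' C b' z
  have hsum : ∀ s : Finset (VM n), (∃ g ∈ M, Eich (QM) g (eM b') (∑ x ∈ s, v x • (Pi.single x 1 : VM n → F))) ∧
      pol (QM) (eM b') (∑ x ∈ s, v x • (Pi.single x 1 : VM n → F)) = 0 := by
    intro s
    induction s using Finset.induction_on with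
    | empty =>
      rw [Finset.sum_empty]
      exact ⟨⟨1, M.one_mem, eich_zero C b'⟩, Cfsg.Agent.Lib.Geo.QForm.pol_zero_right hQ _⟩
    | insert x s hx ih =>
      obtain ⟨⟨g1, hg1, e1⟩, h1⟩ := ih
      obtain ⟨g2, hg2, e2⟩ := hs x
      rw [Finset.sum_insert hx]
      refine ⟨⟨g2 * g1, M.mul_mem hg2 hg1, e2.mul hQ e1 (Q_eM b') (hp' x) h1⟩, ?_⟩
      rw [Cfsg.Agent.Lib.Geo.QForm.pol_add_right hQ, hp' x, h1, add_zero]
  obtain ⟨⟨g', hg'M, hg'⟩, -⟩ := hsum Finset.univ
  have hv2 : ∑ x, v x • (Pi.single x (1 : F) : VM n → F) = v := by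
    funext r
    rw [Finset.sum_apply, Finset.sum_eq_single r]
    · simp
    · intro x _ hx
      simp [Pi.single_apply, Ne.symm hx]
    · simp
  rw [hv2] at hg'
  rw [Eich.unique' hg hg']
  exact hg'M

/-- The Levi subgroup and one rank one group generate `Ω`. -/
theorem closure_lev_blk (C : QC F K a b) (hn : 3 ≤ n) (b' : Fin n) :
    closure (Set.range (levM : SpecialLinearGroup (Fin n) F →* _) ∪ Set.range (blk C b')) = omegaGL (QM) := by
  have hQ := nd_M (n := n) C
  apply le_antisymm
  · rw [Subgroup.closure_le]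
    rintro _ (⟨l, rfl⟩ | ⟨g, rfl⟩)
    · exact levM_mem_omega C hn l
    · exact blk_mem_omega C hn b' g
  · set M := closure (Set.range (levM : SpecialLinearGroup (Fin n) F →* _) ∪ Set.range (blk C b')) with hM
    have hlev : ∀ l, levM l ∈ M := fun l => Subgroup.subset_closure (Or.inl ⟨l, rfl⟩)
    have hblkb : ∀ g, blk C b' g ∈ M := fun g => Subgroup.subset_closure (Or.inr ⟨g, rfl⟩)
    have hI : M ≤ isometryGroup F (QM) := by
      refine le_trans ?_ (Cfsg.Agent.Lib.Geo.Basic.omegaGL_le_isometryGroup _)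
      rw [hM, Subgroup.closure_le]
      rintro _ (⟨l, rfl⟩ | ⟨g, rfl⟩)
      · exact levM_mem_omega C hn l
      · exact blk_mem_omega C hn b' g
    obtain ⟨a', hab⟩ : ∃ a' : Fin n, a' ≠ b' := by
      by_contra hcon
      push Not at hcon
      have h0 := hcon ⟨0, by omega⟩
      have h1 := hcon ⟨1, by omega⟩
      have := h0.trans h1.symm
      simp [Fin.ext_iff] at this
    have hblk : ∀ (j : Fin n) (g : M2 K), blk C j g ∈ M := by
      intro j g
      have hv := mv_pj (F := F) hab j
      have hmu : Mu (pj a' b' j : SpecialLinearGroup (Fin n) F) b' j (1 : Fˣ) :=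
        ⟨by simpa using hv.col, by simpa using hv.row⟩
      have e := levM_blk C hmu g
      have hk1 : kF (1 : Fˣ) = (1 : Kˣ) := map_one _
      rw [hk1, kp_one] at e
      rw [← e]
      exact mul_mem (mul_mem (hlev _) (hblkb _)) (inv_mem (hlev _))
    have hF : Full (QM) M (eM b') :=
      full_eM C M (fun t => hblkb _) (fun k h c => hlev _)
        (fun k h c => mul_mem (mul_mem (hblk _ _) (hlev _)) (inv_mem (hblk _ _)))
    have hF' : Full (QM) M (fM b') := by
      have h1 := hF.conj (hblkb (wn : M2 K)) (hI (hblkb _))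
      have e1 : (blk C b' (wn : M2 K)).1 *ᵥ eM b' = (-1 : F) • (fM b' : VM n → F) := by
        have h3 := blk_vec C b' (wn : M2 K) (1 : F) (0 : K) (0 : F)
        simp only [one_smul, zero_smul, add_zero, adX_wn, adZ_wn, adY_wn, neg_zero, zero_add, map_zero, uM_zero'] at h3
        exact h3
      rw [e1] at h1
      have h4 := h1.smul hQ (-1 : F)
      simpa [smul_smul] using h4
    refine omega_le_of_full hQ (card_VM_ge hn) (Q_eM b') (Q_fM b') hF hF' ?_
    rw [pol_eM]
    simp [fM, Pi.single_apply]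

end omega

section images

/- The images of the root elements, for data lying over the target. -/

variable {n : ℕ} {F : Type*} {K : Type*} [Field F] [Field K] [Algebra F K] [QCj K] [QF F K] {a b : F} {Γ : Type*} [Group Γ]
  {π : Γ →* GeneralLinearGroup (VM n) F} {D : BData (Fin n) F K Γ} (C : QC F K a b)

local notation "QM" => quadFormMinus n F a b

lemma pi_Mf (h1 : ∀ l, π (D.lam l) = levM l) (hM : ∀ g, π (D.M g) = blk C D.b g) (i : Fin n) (g : M2 K) :
    π (D.Mf i g) = blk C i g := by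
  have hp : Mu (pj D.a D.b i : SpecialLinearGroup (Fin n) F) D.b i 1 := Mu.of_Mv (mv_pj D.hab i) (by simp)
  have e := levM_blk C hp g
  have e1 : kF (1 : Fˣ) = (1 : Kˣ) := map_one _
  rw [e1, kp_one] at e
  rw [D.Mf_apply, map_mul, map_mul, map_inv, h1, hM, e]

lemma pi_rr (h1 : ∀ l, π (D.lam l) = levM l) (hM : ∀ g, π (D.M g) = blk C D.b g) (i : Fin n) :
    π (D.rr i) = blk C i wn :=
  pi_Mf C h1 hM i wn

lemma eich_pi_T (h1 : ∀ l, π (D.lam l) = levM l) {k j : Fin n} (h : k ≠ j) (y : F) :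
    Eich (QM) (π (D.T h y)) (eM k) (y • fM j) := by
  change Eich (QM) (π (D.lam (TT h y))) (eM k) (y • fM j)
  rw [h1]
  exact eich_T h y

lemma eich_pi_Y (h1 : ∀ l, π (D.lam l) = levM l) (hM : ∀ g, π (D.M g) = blk C D.b g) (k : Fin n) (z : K) :
    Eich (QM) (π (D.Y k z)) (eM k) (uM C z) := by
  change Eich (QM) (π (D.Mf k (uu z))) (eM k) (uM C z)
  rw [pi_Mf C h1 hM]
  exact eich_Y C k z

lemma eich_pi_Z (h1 : ∀ l, π (D.lam l) = levM l) (hM : ∀ g, π (D.M g) = blk C D.b g) {k j : Fin n}
    (h : k ≠ j) (x : F) :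
    Eich (QM) (π (D.Z h x)) (eM k) (x • eM j) := by
  have e1 := (eich_pi_T (D := D) (π := π) (a := a) (b := b) h1 h (-x)).conj (blk_mem_iso C j (wn : M2 K))
  rw [blk_eM_ne C h, Matrix.mulVec_smul, blk_wn_fM, smul_neg, ← neg_smul, neg_neg] at e1
  change Eich (QM) (π (D.rr j * D.T h (-x) * (D.rr j)⁻¹)) (eM k) (x • eM j)
  rw [map_mul, map_mul, map_inv, pi_rr C h1 hM]
  exact e1

lemma eich_pi_Ek (h1 : ∀ l, π (D.lam l) = levM l) (hM : ∀ g, π (D.M g) = blk C D.b g) {k j : Fin n}
    (h : k ≠ j) (x : F) (z : K) (y : F) :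
    Eich (QM) (π (D.Ek h x z y)) (eM k) (x • eM j + uM C z + y • fM j) := by
  have hQ := nd_M (n := n) C
  have hxe : pol (QM) (eM k) (x • eM j) = 0 := by
    rw [pol_smul_right hQ, pol_eM]
    simp [eM, Pi.single_apply]
  have hzu : pol (QM) (eM k) (uM C z) = 0 := by
    rw [pol_uM C, zOf_eM, zero_mul, tr_zero]
  have hyf : pol (QM) (eM k) (y • fM j) = 0 := by
    rw [pol_smul_right hQ, pol_fM]
    simp [eM, Pi.single_apply, h, h.symm]
  have hxz : pol (QM) (eM k) (x • eM j + uM C z) = 0 := by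
    rw [pol_add_right hQ, hxe, hzu, add_zero]
  have e1 := (eich_pi_Z (D := D) (π := π) C h1 hM h x).mul hQ (eich_pi_Y (D := D) (π := π) C h1 hM k z)
    (Q_eM k) hxe hzu
  have e2 := e1.mul hQ (eich_pi_T (D := D) (π := π) (a := a) (b := b) h1 h y) (Q_eM k) hxz hyf
  change Eich (QM) (π (D.Z h x * D.Y k z * D.T h y)) (eM k) (x • eM j + uM C z + y • fM j)
  rw [map_mul, map_mul]
  exact e2

end images

end Cfsg.Agent.Lib.MinStem
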