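import Cfsg.Agent.Lib.MinStem.Abs
import Cfsg.Agent.Lib.MinStem.Target
import Cfsg.Agent.Lib.Schur.SpStem.Lift

/-!
# The relations in a central extension (module R)

Setting: `π : Γ →* GL(V)`, central kernel, `D` with `BTheta D`, over the target. No scaling by `F`, so this covers all `q`.
* `rel_twist`, `rel_dd_conj`: `SpStem.conj_lift`, `SL₂(K)` perfect.
* `rel_YT`: `T_kj(y) = ⁅T_kl(y), T_lj(1)⁆`, `comm_of_comm`. `rel_YZ`: conjugate by `r_j`. `rel_YjZ`: `Y_j` and `Z_kj`, conjugate by `r_j`: `L_j = Mf j (ll _)` and `T_kj`, `comm_of_comm`.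
* `rel_ZT`: conjugate `rel_YT` by `Y_j(1)`.
* `rel_YY`: `A = Y_j(t)`, `τ = T_lk(1)`, `k` a third index: `τ` commutes with `A`, `τ Y_k(z) τ⁻¹ = Z_kl(N z) Y_k(z) Y_l(z) δ`, `δ` central (target: `eich_add`); `τ Z_kj(c) τ⁻¹ = Z_lj(c) Z_kj(c)`. Compute `A τ Y_k(z) τ⁻¹ A⁻¹` in two ways: the defect of `Y_j`, `Y_l` is trivial.
* `rel_alt`: from `rel_YY` in both orders.
* `rel_YT1`: `Y_j(t) T_kj(y) Y_j(t)⁻¹ = Z_kj(-N(t) y) Y_k(-t y) T_kj(y)`: the defect is additive in `t` by `rel_YY`, and fixed under `t ↦ ρ t`, `ρ = α / ᾱ ≠ 1`: conjugate by `Mf i (dd α)`, `i ∉ {j, k}`.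
* `rel_act`: `m2_induction`: `uu t` by the above, `wn` by the definition of `Z`, `ll t = wn uu(-t) wn⁻¹`.
-/

set_option autoImplicit false
set_option linter.unusedSectionVars false
set_option linter.unusedVariables false
set_option linter.unusedSimpArgs false

namespace Cfsg.Agent.Lib.MinStem

open Matrix Cfsg Subgroup Cfsg.Agent.Lib.PresOm Cfsg.Agent.Lib.PresSp.M2 Cfsg.Agent.Lib.PresSp.Mono
  Cfsg.Agent.Lib.PresSLn.TwoGen Cfsg.Agent.Lib.GeoOmega.Eichler Cfsg.Agent.Lib.QuadFn Cfsg.Agent.Lib.OmDeg.Plus Cfsg.Geo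
  Cfsg.Agent.Lib.Geo.QForm Cfsg.Agent.Lib.Orth.Levi

section tools

variable {Γ : Type*} [Group Γ]

/-- The commutator of two elements commuting with `y` up to central elements commutes with `y`. -/
lemma comm_of_comm {a b y : Γ} (ha : a * y * a⁻¹ * y⁻¹ ∈ center Γ) (hb : b * y * b⁻¹ * y⁻¹ ∈ center Γ) :
    Commute (a * b * a⁻¹ * b⁻¹) y := by
  set c := a * y * a⁻¹ * y⁻¹ with hc
  set d := b * y * b⁻¹ * y⁻¹ with hd
  have ea : a * y * a⁻¹ = c * y := by rw [hc]; group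
  have eb : b * y * b⁻¹ = d * y := by rw [hd]; group
  have ea' : a⁻¹ * y * a = c⁻¹ * y := by
    have e1 : y = a⁻¹ * (c * y) * a := by rw [← ea]; group
    calc a⁻¹ * y * a = a⁻¹ * (c⁻¹ * (c * y)) * a := by group
      _ = (a⁻¹ * c⁻¹) * (c * y) * a := by group
      _ = (c⁻¹ * a⁻¹) * (c * y) * a := by
        rw [(mem_center_iff.1 (inv_mem ha) a⁻¹).symm]
      _ = c⁻¹ * (a⁻¹ * (c * y) * a) := by group
      _ = c⁻¹ * y := by rw [← e1]
  have eb' : b⁻¹ * y * b = d⁻¹ * y := by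
    have e1 : y = b⁻¹ * (d * y) * b := by rw [← eb]; group
    calc b⁻¹ * y * b = b⁻¹ * (d⁻¹ * (d * y)) * b := by group
      _ = (b⁻¹ * d⁻¹) * (d * y) * b := by group
      _ = (d⁻¹ * b⁻¹) * (d * y) * b := by
        rw [(mem_center_iff.1 (inv_mem hb) b⁻¹).symm]
      _ = d⁻¹ * (b⁻¹ * (d * y) * b) := by group
      _ = d⁻¹ * y := by rw [← e1]
  have key : (a * b * a⁻¹ * b⁻¹) * y * (a * b * a⁻¹ * b⁻¹)⁻¹ = y := by
    have e : (a * b * a⁻¹ * b⁻¹) * y * (a * b * a⁻¹ * b⁻¹)⁻¹ = a * (b * (a⁻¹ * (b⁻¹ * y * b) * a) * b⁻¹) * a⁻¹ := by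
      group
    rw [e, eb']
    have hd' := mem_center_iff.1 (inv_mem hb)
    have hc' := mem_center_iff.1 (inv_mem ha)
    have e2 : a⁻¹ * (d⁻¹ * y) * a = d⁻¹ * (c⁻¹ * y) := by
      calc a⁻¹ * (d⁻¹ * y) * a = (a⁻¹ * d⁻¹) * y * a := by group
        _ = (d⁻¹ * a⁻¹) * y * a := by rw [(hd' a⁻¹).symm]
        _ = d⁻¹ * (a⁻¹ * y * a) := by group
        _ = _ := by rw [ea']
    rw [e2]
    have e3 : b * (d⁻¹ * (c⁻¹ * y)) * b⁻¹ = d⁻¹ * (c⁻¹ * (d * y)) := by
      calc b * (d⁻¹ * (c⁻¹ * y)) * b⁻¹ = (b * d⁻¹) * (c⁻¹ * y) * b⁻¹ := by group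
        _ = (d⁻¹ * b) * (c⁻¹ * y) * b⁻¹ := by rw [hd' b]
        _ = d⁻¹ * ((b * c⁻¹) * y * b⁻¹) := by group
        _ = d⁻¹ * ((c⁻¹ * b) * y * b⁻¹) := by rw [hc' b]
        _ = d⁻¹ * (c⁻¹ * (b * y * b⁻¹)) := by group
        _ = _ := by rw [eb]
    rw [e3]
    have e4 : d⁻¹ * (c⁻¹ * (d * y)) = c⁻¹ * y := by
      calc d⁻¹ * (c⁻¹ * (d * y)) = (d⁻¹ * c⁻¹) * d * y := by group
        _ = (c⁻¹ * d⁻¹) * d * y := by rw [(hc' d⁻¹).symm]
        _ = _ := by group
    rw [e4]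
    have e5 : a * (c⁻¹ * y) * a⁻¹ = c⁻¹ * (a * y * a⁻¹) := by
      calc a * (c⁻¹ * y) * a⁻¹ = (a * c⁻¹) * y * a⁻¹ := by group
        _ = (c⁻¹ * a) * y * a⁻¹ := by rw [hc' a]
        _ = _ := by group
    rw [e5, ea]
    group
  exact (mul_inv_eq_iff_eq_mul.1 key)

/-- Elements over the same element differ by a central element. -/
lemma inv_mul_mem_center {Γ' G' : Type*} [Group Γ'] [Group G'] {π' : Γ' →* G'} (hcen : π'.ker ≤ center Γ') {a b : Γ'}
    (h : π' a = π' b) : a⁻¹ * b ∈ center Γ' := by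
  apply hcen
  rw [MonoidHom.mem_ker, map_mul, map_inv, h, inv_mul_cancel]

/-- A central additive defect fixed under a scaling `ρ ≠ 1` vanishes. -/
lemma defect_eq {A : Type*} [Field A] {f f' : A → Γ} (hc : ∀ t, (f' t)⁻¹ * f t ∈ center Γ)
    (hadd : ∀ t t', (f' (t + t'))⁻¹ * f (t + t') = ((f' t)⁻¹ * f t) * ((f' t')⁻¹ * f t')) {s : Γ} {ρ : A} (hρ : ρ ≠ 1)
    (hs : ∀ t, s * f t * s⁻¹ = f (ρ * t)) (hs' : ∀ t, s * f' t * s⁻¹ = f' (ρ * t)) (t : A) : f t = f' t := by
  have hfix : ∀ t, (f' (ρ * t))⁻¹ * f (ρ * t) = (f' t)⁻¹ * f t := by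
    intro t
    rw [← hs, ← hs']
    have h := mem_center_iff.1 (hc t) s
    calc (s * f' t * s⁻¹)⁻¹ * (s * f t * s⁻¹) = s * ((f' t)⁻¹ * f t) * s⁻¹ := by group
      _ = ((f' t)⁻¹ * f t) * s * s⁻¹ := by rw [h]
      _ = _ := by group
  have h1 : ∀ t, (f' ((1 - ρ) * t))⁻¹ * f ((1 - ρ) * t) = 1 := by
    intro t
    have e := hadd ((1 - ρ) * t) (ρ * t)
    rw [show (1 - ρ) * t + ρ * t = t by ring, hfix t] at e
    exact mul_eq_right.1 e.symm
  have h0 : (1 - ρ) ≠ 0 := sub_ne_zero.2 (Ne.symm hρ)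
  have h2 := h1 (t / (1 - ρ))
  rw [show (1 - ρ) * (t / (1 - ρ)) = t by field_simp] at h2
  exact (inv_mul_eq_one.1 h2).symm

/-- Cancelling in `rel_YY`. -/
lemma cancel_aux {V U P y1 y2 d1 d2 e : Γ} (hVU : Commute V U) (hPU : Commute P U) (hPV : Commute P V)
    (hy : Commute y1 V) (h1 : d1 ∈ center Γ) (h2 : d2 ∈ center Γ) (h3 : e ∈ center Γ)
    (E : V * U * (P * y1 * y2 * e) * d1 = P * (U * y1 * d1) * (V * y2 * d2) * e) : d2 = 1 := by
  have c1 := mem_center_iff.1 h1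
  have c2 := mem_center_iff.1 h2
  have c3 := mem_center_iff.1 h3
  have L : V * U * (P * y1 * y2 * e) * d1 = (P * U * V) * (y1 * y2) * (e * d1) := by
    have : V * U * P = P * U * V := by
      calc V * U * P = U * V * P := by rw [hVU.eq]
        _ = U * (V * P) := by group
        _ = U * (P * V) := by rw [hPV.eq]
        _ = (U * P) * V := by group
        _ = (P * U) * V := by rw [hPU.eq]
    calc V * U * (P * y1 * y2 * e) * d1 = (V * U * P) * (y1 * y2) * (e * d1) := by group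
      _ = _ := by rw [this]
  have R : P * (U * y1 * d1) * (V * y2 * d2) * e = (P * U * V) * (y1 * y2) * (e * d1) * d2 := by
    have e1 : P * (U * y1 * d1) * (V * y2 * d2) * e = P * U * (y1 * (d1 * V)) * y2 * d2 * e := by group
    rw [e1, (c1 V).symm]
    have e2 : P * U * (y1 * (V * d1)) * y2 * d2 * e = P * U * (y1 * V) * d1 * y2 * d2 * e := by group
    rw [e2, hy.eq]
    have e3 : P * U * (V * y1) * d1 * y2 * d2 * e = P * U * V * y1 * (d1 * y2) * d2 * e := by group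
    rw [e3, (c1 y2).symm]
    have e4 : P * U * V * y1 * (y2 * d1) * d2 * e = (P * U * V) * (y1 * y2) * d1 * (d2 * e) := by group
    rw [e4, (c2 e).symm]
    have e5 : (P * U * V) * (y1 * y2) * d1 * (e * d2) = (P * U * V) * (y1 * y2) * (d1 * e) * d2 := by group
    rw [e5, (c1 e).symm]
  rw [L, R] at E
  have := mul_left_cancel (a := (P * U * V) * (y1 * y2) * (e * d1)) (b := 1) (c := d2) (by rw [mul_one]; exact E)
  exact this.symm

end tools

section vectors

variable {n : ℕ} {F : Type*} {K : Type*} [Field F] [Field K] [Algebra F K] [QCj K] [QF F K] {a b : F}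

local notation "QM" => quadFormMinus n F a b

/-- An Eichler transformation fixes the vectors orthogonal to its centre and its parameter. -/
lemma eich_fix {g : GeneralLinearGroup (VM n) F} {p v x : VM n → F} (C : QC F K a b)
    (h : Eich (QM) g p v) (h1 : pol (QM) x v = 0) (h3 : pol (QM) x p = 0) : (g : Matrix (VM n) (VM n) F) *ᵥ x = x := by
  rw [h x, h1, h3]
  simp

lemma T_eM (C : QC F K a b) {i j k : Fin n} (h : i ≠ j) (hkj : k ≠ j) (c : F) : (levM (TT h c)).1 *ᵥ eM k = (eM k : VM n → F) := by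
  have hQ := nd_M (n := n) C
  refine eich_fix C (eich_T h c) ?_ ?_
  · rw [pol_smul_right hQ, pol_fM]
    simp [eM, Pi.single_apply, hkj]
  · rw [pol_eM]
    simp [eM, Pi.single_apply]

lemma T_fM (C : QC F K a b) {i j k : Fin n} (h : i ≠ j) (hki : k ≠ i) (c : F) : (levM (TT h c)).1 *ᵥ fM k = (fM k : VM n → F) := by
  have hQ := nd_M (n := n) C
  refine eich_fix C (eich_T h c) ?_ ?_
  · rw [pol_smul_right hQ, pol_fM]
    simp [fM, Pi.single_apply]
  · rw [pol_eM]
    simp [fM, Pi.single_apply, hki]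

lemma T_eM_same (C : QC F K a b) {i j : Fin n} (h : i ≠ j) (c : F) :
    (levM (TT h c)).1 *ᵥ eM j = (eM j + c • eM i : VM n → F) := by
  have hQ := nd_M (n := n) C
  have e1 : (eM j : VM n → F) (Sum.inl (Sum.inl j)) = 1 := by simp [eM]
  have e2 : (eM j : VM n → F) (Sum.inl (Sum.inr i)) = 0 := by simp [eM]
  rw [eich_T h c (eM j), pol_smul_right hQ, pol_fM, pol_eM, e1, e2]
  simp

lemma pol_eM_uM (C : QC F K a b) (k : Fin n) (z : K) : pol (QM) (eM k) (uM C z) = 0 := by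
  rw [pol_uM C, zOf_eM, zero_mul, tr_zero]

/-- Two isometries with the same effect on the centre and the parameter: a general commutation. -/
lemma comm_of_fix {g h' : GeneralLinearGroup (VM n) F} {p v : VM n → F} (C : QC F K a b) (hg : g ∈ isometryGroup F (QM))
    (h3 : Eich (QM) h' p v) (hp : g.1 *ᵥ p = p) (hb : g.1 *ᵥ v = v) : g * h' * g⁻¹ = h' := by
  have hQ := nd_M (n := n) C
  have := h3.conj hg
  rw [hp, hb] at this
  exact Eich.unique' this h3

/-- Eichler transformations with the same centre commute. -/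
lemma comm_center (C : QC F K a b) {g g' : GeneralLinearGroup (VM n) F} {p v v' : VM n → F} (h : Eich (QM) g p v)
    (h' : Eich (QM) g' p v') (hp : (QM) p = 0) (hv : pol (QM) p v = 0) (hv' : pol (QM) p v' = 0) : g * g' = g' * g := by
  have hQ := nd_M (n := n) C
  have e1 := h.mul hQ h' hp hv hv'
  have e2 := h'.mul hQ h hp hv' hv
  rw [add_comm] at e2
  exact Eich.unique' e1 e2

lemma eich_alt (C : QC F K a b) {g : GeneralLinearGroup (VM n) F} {k j : Fin n} {c : F} (h : Eich (QM) g (eM k) (c • eM j)) :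
    Eich (QM) g (eM j) ((-c) • eM k) := by
  intro x
  have hQ := nd_M (n := n) C
  have e1 := h x
  rw [pol_smul_right hQ, pol_eM, pol_eM, hQ.smul, Q_eM] at e1
  rw [e1, pol_smul_right hQ, pol_eM, pol_eM, hQ.smul, Q_eM]
  simp only [mul_zero, zero_mul, zero_smul, sub_zero]
  funext r
  simp only [Pi.add_apply, Pi.sub_apply, Pi.smul_apply, smul_eq_mul]
  ring

/-- `E(p + p', v) = E(p, Q(v) p') E(p, v) E(p', v)`. -/
lemma eich_add (C : QC F K a b) {g₁ g₂ g₃ : GeneralLinearGroup (VM n) F} {p p' v : VM n → F}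
    (h1 : Eich (QM) g₁ p ((QM) v • p')) (h2 : Eich (QM) g₂ p v) (h3 : Eich (QM) g₃ p' v)
    (hp : (QM) p = 0) (hp' : (QM) p' = 0) (hpp : pol (QM) p p' = 0) (hpv : pol (QM) p v = 0) (hpv' : pol (QM) p' v = 0) :
    Eich (QM) (g₁ * g₂ * g₃) (p + p') v := by
  have hQ := nd_M (n := n) C
  intro x
  have hp'p : pol (QM) p' p = 0 := by rw [pol_symm hQ, hpp]
  have hvp : pol (QM) v p = 0 := by rw [pol_symm hQ, hpv]
  have hvp' : pol (QM) v p' = 0 := by rw [pol_symm hQ, hpv']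
  have hpp0 := pol_singular hQ hp
  have hp'p'0 := pol_singular hQ hp'
  have hvv : pol (QM) v v = 2 * (QM) v := pol_self hQ v
  rw [Units.val_mul, Units.val_mul, ← Matrix.mulVec_mulVec, ← Matrix.mulVec_mulVec]
  set y := (g₃ : Matrix (VM n) (VM n) F) *ᵥ x with hy
  have yv : pol (QM) y v = pol (QM) x v - pol (QM) x p' * (2 * (QM) v) := by
    rw [hy, h3.pol_left hQ, hpv', hvv]
    ring
  have yp : pol (QM) y p = pol (QM) x p := by
    rw [hy, h3.pol_left hQ, hp'p, hvp]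
    ring
  have yp' : pol (QM) y p' = pol (QM) x p' := by
    rw [hy, h3.pol_left hQ, hp'p'0, hvp']
    ring
  set w := (g₂ : Matrix (VM n) (VM n) F) *ᵥ y with hw
  have wp : pol (QM) w p = pol (QM) x p := by
    rw [hw, h2.pol_left hQ, hpp0, hvp, yp]
    ring
  have wp' : pol (QM) w p' = pol (QM) x p' := by
    rw [hw, h2.pol_left hQ, hpp, hvp', yp']
    ring
  have eQ : (QM) ((QM) v • p') = 0 := by
    rw [hQ.smul, hp', mul_zero]
  have ey : y = x + pol (QM) x v • p' - pol (QM) x p' • v - ((QM) v * pol (QM) x p') • p' := h3 x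
  rw [h1 w, pol_smul_right hQ, wp, wp', eQ, hw, h2 y, yv, yp, ey, pol_add_right hQ]
  module

end vectors

section main

variable {n : ℕ} {F : Type*} {K : Type*} [Field F] [Field K] [Algebra F K] [QCj K] [QF F K] {a b : F} {Γ : Type*} [Group Γ]
  {π : Γ →* GeneralLinearGroup (VM n) F} {D : BData (Fin n) F K Γ}

local notation "QM" => quadFormMinus n F a b

lemma third (hn : 3 ≤ n) (k j : Fin n) : ∃ l, k ≠ l ∧ j ≠ l := by
  obtain ⟨l, h3, h4⟩ := Cfsg.Agent.Lib.Classical.Transvections.exists_third_index (ι := Fin n)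
    (by rw [Fintype.card_fin]; exact hn) k j
  exact ⟨l, h3, h4.symm⟩

section theta

variable (Hθ : BTheta D)
include Hθ

lemma T_Mf {i j k : Fin n} (hij : i ≠ j) (hki : k ≠ i) (hkj : k ≠ j) (c : F) (g : M2 K) :
    Commute (D.T hij c) (D.Mf k g) := by
  have h3 : Mu (TT hij c) k k (1 : Fˣ) := Mu.of_Mv (Mv.T_fix hij hki.symm hkj.symm c) (by simp)
  have h4 := Hθ.mu h3 g
  rw [kF_one, kp_one] at h4
  exact mul_inv_eq_iff_eq_mul.1 h4

end theta

variable (C : QC F K a b) (hn : 3 ≤ n) (hK : commutator (M2 K) = ⊤) (hcen : π.ker ≤ center Γ) (Hθ : BTheta D)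
  (h1 : ∀ l, π (D.lam l) = levM l) (hM : ∀ g, π (D.M g) = blk C D.b g)

include C hK hcen Hθ h1 hM

lemma rel_twist {i j : Fin n} (h : i ≠ j) (g : M2 K) : D.rr j * D.Mf i g * (D.rr j)⁻¹ = D.Mf i (tau g) := by
  have := Cfsg.Agent.Lib.Schur.SpStem.conj_lift hcen hK (D.Mf i) ((D.Mf i).comp tau) (D.rr j) (fun k => by
    rw [MonoidHom.comp_apply, pi_rr C h1 hM, pi_Mf C h1 hM, pi_Mf C h1 hM]
    exact blk_twist C h k) g
  exact this

lemma rel_dd_conj {i j : Fin n} (h : i ≠ j) (α : Kˣ) (g : M2 K) :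
    D.Mf j (dd α) * D.Mf i g * (D.Mf j (dd α))⁻¹ = D.Mf i (kp (rhoU α) g) := by
  have := Cfsg.Agent.Lib.Schur.SpStem.conj_lift hcen hK (D.Mf i) ((D.Mf i).comp (kp (rhoU α))) (D.Mf j (dd α)) (fun k => by
    rw [MonoidHom.comp_apply, pi_Mf C h1 hM, pi_Mf C h1 hM, pi_Mf C h1 hM]
    exact blk_dd_conj C h α k) g
  exact this

lemma Z_Mf {i j k : Fin n} (hij : i ≠ j) (hki : k ≠ i) (hkj : k ≠ j) (c : F) (g : M2 K) :
    Commute (D.Z hij c) (D.Mf k g) := by
  have h3 := (T_Mf Hθ hij hki hkj (-c) (tau g)).conj (D.rr j)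
  rw [rel_twist C hK hcen Hθ h1 hM hkj, tau_tau] at h3
  exact h3

lemma r_sq_central (j : Fin n) : D.rr j * D.rr j ∈ center Γ := by
  apply hcen
  rw [MonoidHom.mem_ker, map_mul, pi_rr C h1 hM, ← map_mul, wn_sq, blk_neg]

include hn

lemma rel_YT {k j : Fin n} (h : k ≠ j) (z : K) (y : F) : Commute (D.Y k z) (D.T h y) := by
  obtain ⟨l, hkl, hjl⟩ := third hn k j
  have hlj : l ≠ j := hjl.symm
  have e := T_conj_next (F := F) hkl hlj h y 1
  rw [mul_one] at e
  set A := D.lam (TT hkl y) with hA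
  set B := D.lam (TT hlj (1 : F)) with hB
  have hT : D.T h y = A * B * A⁻¹ * B⁻¹ := by
    have e' := congrArg D.lam e
    simp only [map_mul, map_inv] at e'
    have e2 : A * B * A⁻¹ = D.T h y * B := e'
    rw [e2]
    group
  have hE := eich_pi_Y C h1 hM (π := π) (D := D) k z
  have hcomm : ∀ (c : SpecialLinearGroup (Fin n) F), (levM c).1 *ᵥ eM k = eM k →
      D.lam c * D.Y k z * (D.lam c)⁻¹ * (D.Y k z)⁻¹ ∈ center Γ := by
    intro c hc2
    apply hcen
    rw [MonoidHom.mem_ker, map_mul, map_mul, map_mul, map_inv, map_inv, h1]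
    rw [comm_of_fix C (levM_mem_iso c) hE hc2 (levM_uM C c z)]
    group
  have hA' := hcomm (TT hkl y) ?_
  · have hB' := hcomm (TT hlj (1 : F)) (T_eM C hlj h 1)
    rw [hT]
    exact (comm_of_comm hA' hB').symm
  · exact T_eM C hkl hkl y

lemma rel_YZ {k j : Fin n} (h : k ≠ j) (z : K) (x : F) : Commute (D.Y k z) (D.Z h x) := by
  have h3 := rel_YT C hn hK hcen Hθ h1 hM h (- cj z) (-x)
  have h4 := h3.map (MulAut.conj (D.rr j)).toMonoidHom
  simp only [MulEquiv.toMonoidHom_eq_coe, MonoidHom.coe_coe, MulAut.conj_apply] at h4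
  have e1 : D.rr j * D.Y k (- cj z) * (D.rr j)⁻¹ = D.Y k z := by
    have := rel_twist C hK hcen Hθ h1 hM h (uu (- cj z))
    rw [tau_uu] at this
    simpa [BData.Y] using this
  rw [e1] at h4
  exact h4

/-- `Y_j` and `Z_kj`. -/
lemma rel_YjZ {k j : Fin n} (h : k ≠ j) (t : K) (x : F) : Commute (D.Y j t) (D.Z h x) := by
  obtain ⟨l, hkl, hjl⟩ := third hn k j
  have hlj : l ≠ j := hjl.symm
  have e := T_conj_next (F := F) hkl hlj h (-x) 1
  rw [mul_one] at e
  set A := D.lam (TT hkl (-x)) with hA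
  set B := D.lam (TT hlj (1 : F)) with hB
  have hT : D.T h (-x) = A * B * A⁻¹ * B⁻¹ := by
    have e' := congrArg D.lam e
    simp only [map_mul, map_inv] at e'
    have e2 : A * B * A⁻¹ = D.T h (-x) * B := e'
    rw [e2]
    group
  set L := D.Mf j (ll (-t)) with hL
  have hE : Eich (QM) (π L) (fM j) (uM C (- cj (-t))) := by
    rw [hL, pi_Mf C h1 hM]
    exact eich_L C j (-t)
  have hcomm : ∀ (c : SpecialLinearGroup (Fin n) F), (levM c).1 *ᵥ fM j = fM j →
      D.lam c * L * (D.lam c)⁻¹ * L⁻¹ ∈ center Γ := by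
    intro c hc2
    apply hcen
    rw [MonoidHom.mem_ker, map_mul, map_mul, map_mul, map_inv, map_inv, h1]
    rw [comm_of_fix C (levM_mem_iso c) hE hc2 (levM_uM C c _)]
    group
  have hA' := hcomm (TT hkl (-x)) (T_fM C hkl (Ne.symm h) (-x))
  have hB' := hcomm (TT hlj (1 : F)) (T_fM C hlj hjl 1)
  have hc : Commute (D.T h (-x)) L := by
    rw [hT]
    exact comm_of_comm hA' hB'
  have e1 : D.rr j * L * (D.rr j)⁻¹ = D.Y j t := by
    change D.Mf j wn * D.Mf j (ll (-t)) * (D.Mf j wn)⁻¹ = D.Mf j (uu t)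
    rw [← map_inv, ← map_mul, ← map_mul, wn_ll, neg_neg]
  have h4 := hc.map (MulAut.conj (D.rr j)).toMonoidHom
  simp only [MulEquiv.toMonoidHom_eq_coe, MonoidHom.coe_coe, MulAut.conj_apply] at h4
  rw [e1] at h4
  exact h4.symm

omit hn in
/-- The images under `π` of the conjugates of `Ek`. -/
lemma pi_act {k j : Fin n} (h : k ≠ j) (g : M2 K) (x : F) (z : K) (y : F) :
    π (D.Mf j g * D.Ek h x z y * (D.Mf j g)⁻¹) = π (D.Ek h (adX g x z y) (adZ g x z y) (adY g x z y)) := by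
  have e1 := eich_pi_Ek C h1 hM h x z y
  have e2 := e1.conj (blk_mem_iso C j g)
  rw [blk_eM_ne C h g, blk_vec] at e2
  rw [map_mul, map_mul, map_inv, pi_Mf C h1 hM]
  exact Eich.unique' e2 (eich_pi_Ek C h1 hM h _ _ _)

lemma rel_ZT {k j : Fin n} (h : k ≠ j) (x y : F) : Commute (D.Z h x) (D.T h y) := by
  have hYT := rel_YT C hn hK hcen Hθ h1 hM h
  have hYZ := rel_YZ C hn hK hcen Hθ h1 hM h
  have hY : ∀ c d : K, Commute (D.Y k c) (D.Y k d) := by
    intro c d
    change _ = _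
    rw [← D.Y_add, ← D.Y_add, add_comm]
  have hZ : ∀ c d : F, Commute (D.Z h c) (D.Z h d) := by
    intro c d
    change _ = _
    rw [← D.Z_add, ← D.Z_add, add_comm]
  obtain ⟨z, hzx⟩ := QF.tr_surj (K := K) x
  -- conjugating by `Y_j(1)`
  set s := D.Mf j (uu (1 : K)) with hs
  have c0 : Commute (s * D.Y k z * s⁻¹) (s * D.T h y * s⁻¹) := by
    have := (hYT z y).map (MulAut.conj s).toMonoidHom
    simpa using this
  have e1 := pi_act C hK hcen Hθ h1 hM h (uu (1 : K)) 0 z 0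
  have e2 := pi_act C hK hcen Hθ h1 hM h (uu (1 : K)) 0 0 y
  rw [D.Ek_Y] at e1
  rw [D.Ek_T] at e2
  simp only [adX_uu, adZ_uu, adY_uu, map_one, one_mul, nm_one, mul_zero, map_zero, sub_zero, zero_add, tr_zero, zero_sub] at e1 e2
  have c1 := inv_mul_mem_center hcen e1.symm
  have c2 := inv_mul_mem_center hcen e2.symm
  rw [hzx] at e1 c1
  -- drop the central factors
  set A := D.Ek h x z 0 with hA
  set B := D.Ek h (-y) (-algebraMap F K y) y with hB
  have c3 : Commute A B := by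
    have eA : s * D.Y k z * s⁻¹ = A * (A⁻¹ * (s * D.Y k z * s⁻¹)) := by group
    have eB : s * D.T h y * s⁻¹ = B * (B⁻¹ * (s * D.T h y * s⁻¹)) := by group
    set u := A⁻¹ * (s * D.Y k z * s⁻¹) with hu
    set v := B⁻¹ * (s * D.T h y * s⁻¹) with hv
    have hu' : u ∈ center Γ := c1
    have hv' : v ∈ center Γ := c2
    rw [eA, eB] at c0
    have h5 : A * u * (B * v) = B * v * (A * u) := c0
    have h6 : A * B * (u * v) = B * A * (u * v) := by
      calc A * B * (u * v) = A * (u * B) * v := by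
            rw [← mem_center_iff.1 hu' B]; group
        _ = A * u * (B * v) := by group
        _ = B * v * (A * u) := h5
        _ = B * (v * A) * u := by group
        _ = B * (A * v) * u := by rw [mem_center_iff.1 hv' A]
        _ = B * A * (v * u) := by group
        _ = B * A * (u * v) := by rw [mem_center_iff.1 hv' u]
    exact mul_right_cancel h6
  have eA : A = D.Z h x * D.Y k z := by
    rw [hA]
    simp only [BData.Ek, D.T_zero, mul_one]
  have eB : B = D.Z h (-y) * D.Y k (-algebraMap F K y) * D.T h y := by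
    rfl
  rw [eA, eB] at c3
  set P := D.Z h x
  set Q := D.Y k z
  set R := D.Z h (-y)
  set W := D.Y k (-algebraMap F K y)
  set X := D.T h y
  have hQR : Commute Q (R * W * X) :=
    Commute.mul_right (Commute.mul_right (hYZ _ _) (hY _ _)) (hYT _ _)
  have hPR : Commute P (R * W * X) := by
    have : P = (P * Q) * Q⁻¹ := by group
    rw [this]
    exact c3.mul_left hQR.inv_left
  have hPW : Commute P (R * W) := Commute.mul_right (hZ _ _) (hYZ _ _).symm
  have : X = (R * W)⁻¹ * (R * W * X) := by group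
  rw [this]
  exact hPW.inv_right.mul_right hPR

lemma rel_Ek_add {k j : Fin n} (h : k ≠ j) (x : F) (z : K) (y x' : F) (z' : K) (y' : F) :
    D.Ek h (x + x') (z + z') (y + y') = D.Ek h x z y * D.Ek h x' z' y' := by
  have c1 : D.T h y * D.Z h x' = D.Z h x' * D.T h y := ((rel_ZT C hn hK hcen Hθ h1 hM h x' y).symm).eq
  have c2 : D.T h y * D.Y k z' = D.Y k z' * D.T h y := ((rel_YT C hn hK hcen Hθ h1 hM h z' y).symm).eq
  have c3 : D.Y k z * D.Z h x' = D.Z h x' * D.Y k z := (rel_YZ C hn hK hcen Hθ h1 hM h z x').eq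
  simp only [BData.Ek, D.Z_add, D.Y_add, D.T_add]
  calc D.Z h x * D.Z h x' * (D.Y k z * D.Y k z') * (D.T h y * D.T h y')
      = D.Z h x * (D.Z h x' * D.Y k z) * (D.Y k z' * D.T h y) * D.T h y' := by group
    _ = D.Z h x * (D.Y k z * D.Z h x') * (D.T h y * D.Y k z') * D.T h y' := by rw [c3, c2]
    _ = D.Z h x * D.Y k z * (D.Z h x' * D.T h y) * D.Y k z' * D.T h y' := by group
    _ = D.Z h x * D.Y k z * (D.T h y * D.Z h x') * D.Y k z' * D.T h y' := by rw [c1]
    _ = _ := by group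

omit hn in
lemma pi_YY {k j : Fin n} (h : k ≠ j) (t z : K) :
    π (D.Y j t * D.Y k z * (D.Y j t)⁻¹) = π (D.Z h (tr (cj t * z)) * D.Y k z) := by
  have e1 := pi_act C hK hcen Hθ h1 hM h (uu t) 0 z 0
  rw [D.Ek_Y] at e1
  simp only [adX_uu, adZ_uu, adY_uu, mul_zero, map_zero, sub_zero, zero_add] at e1
  rw [show D.Ek h (tr (cj t * z)) z 0 = D.Z h (tr (cj t * z)) * D.Y k z by simp only [BData.Ek, D.T_zero, mul_one]] at e1
  exact e1

omit hn in
lemma pi_YT {k j : Fin n} (h : k ≠ j) (t : K) (y : F) :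
    π (D.Y j t * D.T h y * (D.Y j t)⁻¹) = π (D.Z h (-(nm t * y)) * D.Y k (-(t * algebraMap F K y)) * D.T h y) := by
  have e1 := pi_act C hK hcen Hθ h1 hM h (uu t) 0 0 y
  rw [D.Ek_T] at e1
  simp only [adX_uu, adZ_uu, adY_uu, mul_zero, tr_zero, zero_add, zero_sub] at e1
  exact e1

/-- The exact relation for `Y_j`, `Y_l`. -/
lemma rel_YY {l j : Fin n} (h : l ≠ j) (t z : K) :
    D.Y j t * D.Y l z * (D.Y j t)⁻¹ = D.Z h (tr (cj t * z)) * D.Y l z := by
  obtain ⟨k, hjk, hlk⟩ := third hn j l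
  have hkj : k ≠ j := hjk.symm
  have hkl : k ≠ l := hlk.symm
  set c : F := tr (cj t * z) with hc
  set A := D.Y j t with hA
  set τ := D.T hlk (1 : F) with hτ
  set yk := D.Y k z with hyk
  set yl := D.Y l z with hyl
  set U := D.Z hkj c with hU
  set V := D.Z h c with hV
  set P := D.Z hkl (nm z) with hP
  have hτA : τ * A = A * τ := (T_Mf Hθ hlk (Ne.symm h) (Ne.symm hkj) 1 (uu t)).eq
  have hτr : τ * D.rr j = D.rr j * τ := (T_Mf Hθ hlk (Ne.symm h) (Ne.symm hkj) 1 wn).eq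
  have hτU : τ * U * τ⁻¹ = V * U := by
    have e := T_conj_next (F := F) hlk hkj h 1 (-c)
    rw [one_mul] at e
    have e' : τ * D.T hkj (-c) * τ⁻¹ = D.T h (-c) * D.T hkj (-c) := by
      have := congrArg D.lam e
      simp only [map_mul, map_inv] at this
      exact this
    have h3 : (D.rr j)⁻¹ * τ⁻¹ = τ⁻¹ * (D.rr j)⁻¹ := by
      rw [← _root_.mul_inv_rev, ← _root_.mul_inv_rev, hτr]
    simp only [hU, hV, BData.Z]
    calc τ * (D.rr j * D.T hkj (-c) * (D.rr j)⁻¹) * τ⁻¹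
        = (τ * D.rr j) * D.T hkj (-c) * ((D.rr j)⁻¹ * τ⁻¹) := by group
      _ = (D.rr j * τ) * D.T hkj (-c) * (τ⁻¹ * (D.rr j)⁻¹) := by rw [hτr, h3]
      _ = D.rr j * (τ * D.T hkj (-c) * τ⁻¹) * (D.rr j)⁻¹ := by group
      _ = _ := by rw [e']; group
  have hAP : A * P * A⁻¹ = P := mul_inv_eq_iff_eq_mul.2 (Z_Mf C hK hcen Hθ h1 hM hkl (Ne.symm hjk |> Ne.symm) (Ne.symm h) _ (uu t)).symm.eq
  -- the target
  set y' := τ * yk * τ⁻¹ with hy'
  have hπy' : π y' = π (P * yk * yl) := by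
    have hQ := nd_M (n := n) C
    have e1 := (eich_pi_Y C h1 hM (π := π) (D := D) k z).conj (levM_mem_iso (TT hlk (1 : F)))
    rw [T_eM_same C hlk 1, levM_uM, one_smul] at e1
    have e2 : Eich (quadFormMinus n F a b) (π P * π yk * π yl) (eM k + eM l) (uM C z) := by
      refine eich_add C ?_ (eich_pi_Y C h1 hM k z) (eich_pi_Y C h1 hM l z) (Q_eM k) (Q_eM l) ?_ ?_ ?_
      · rw [Q_uM C z]
        exact eich_pi_Z C h1 hM hkl (nm z)
      · rw [pol_eM]
        simp [eM, Pi.single_apply]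
      · exact pol_eM_uM C k z
      · exact pol_eM_uM C l z
    have e3 : π y' = levM (TT hlk (1 : F)) * π yk * (levM (TT hlk (1 : F)))⁻¹ := by
      rw [hy', map_mul, map_mul, map_inv]
      rw [hτ, show D.T hlk (1 : F) = D.lam (TT hlk (1 : F)) from rfl, h1]
    rw [e3, map_mul, map_mul]
    exact Eich.unique' e1 e2
  set δ := (P * yk * yl)⁻¹ * y' with hδ
  have hδc : δ ∈ center Γ := inv_mul_mem_center hcen hπy'.symm
  have hy'e : y' = P * yk * yl * δ := by rw [hδ]; group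
  set dk := (U * yk)⁻¹ * (A * yk * A⁻¹) with hdk
  set dl := (V * yl)⁻¹ * (A * yl * A⁻¹) with hdl
  have hdkc : dk ∈ center Γ := inv_mul_mem_center hcen (pi_YY C hK hcen Hθ h1 hM hkj t z).symm
  have hdlc : dl ∈ center Γ := inv_mul_mem_center hcen (pi_YY C hK hcen Hθ h1 hM h t z).symm
  have eAk : A * yk * A⁻¹ = U * yk * dk := by rw [hdk]; group
  have eAl : A * yl * A⁻¹ = V * yl * dl := by rw [hdl]; group
  -- commutations
  have hVU : Commute V U := by
    have := ((T_comm_col h hkj (-c) (-c)).map D.lam).conj (D.rr j)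
    exact this
  have hrU : Commute U (D.rr l) := Z_Mf C hK hcen Hθ h1 hM hkj (Ne.symm hkl) h c wn
  have hTU : Commute (D.T hkl (-(nm z))) U := by
    have h3 : Commute (D.rr j) (D.T hkl (-(nm z))) := (T_Mf Hθ hkl hjk (Ne.symm h) (-(nm z)) wn).symm
    have h4 : Commute (D.T hkl (-(nm z))) (D.T hkj (-c)) := (T_comm_row hkl hkj _ _).map D.lam
    simp only [hU, BData.Z]
    exact (h3.symm.mul_right h4).mul_right h3.symm.inv_right
  have hPU : Commute P U := by
    simp only [hP, BData.Z]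
    exact ((hrU.symm.mul_left hTU).mul_left hrU.symm.inv_left)
  have hPT : Commute P (D.T h (-c)) := by
    have e := T_conj_next (F := F) hlk hkj h (-c) 1
    rw [mul_one] at e
    set A' := D.lam (TT hlk (-c)) with hA'
    set B' := D.lam (TT hkj (1 : F)) with hB'
    have hT : D.T h (-c) = A' * B' * A'⁻¹ * B'⁻¹ := by
      have e' := congrArg D.lam e
      simp only [map_mul, map_inv] at e'
      have e2 : A' * B' * A'⁻¹ = D.T h (-c) * B' := e'
      rw [e2]
      group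
    have hQ := nd_M (n := n) C
    have hZk := eich_pi_Z C h1 hM (π := π) (D := D) hkl (nm z)
    have hZl := eich_alt C hZk
    have h5 : A' * P * A'⁻¹ * P⁻¹ ∈ center Γ := by
      apply hcen
      have h6 : π A' * π P = π P * π A' := by
        rw [hA', h1]
        refine comm_center C (eich_T hlk (-c)) hZl (Q_eM l) ?_ ?_
        · rw [pol_smul_right hQ, pol_fM]
          simp [eM, Pi.single_apply, hlk]
        · rw [pol_smul_right hQ, pol_eM]
          simp [eM, Pi.single_apply]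
      rw [MonoidHom.mem_ker, map_mul, map_mul, map_mul, map_inv, map_inv, h6]
      group
    have h7 : B' * P * B'⁻¹ * P⁻¹ ∈ center Γ := by
      apply hcen
      have h6 : π B' * π P = π P * π B' := by
        rw [hB', h1]
        refine comm_center C (eich_T hkj (1 : F)) hZk (Q_eM k) ?_ ?_
        · rw [pol_smul_right hQ, pol_fM]
          simp [eM, Pi.single_apply, hkj]
        · rw [pol_smul_right hQ, pol_eM]
          simp [eM, Pi.single_apply]
      rw [MonoidHom.mem_ker, map_mul, map_mul, map_mul, map_inv, map_inv, h6]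
      group
    rw [hT]
    exact (comm_of_comm h5 h7).symm
  have hPV : Commute P V := by
    have hPr : Commute P (D.rr j) := Z_Mf C hK hcen Hθ h1 hM hkl hjk (Ne.symm h) _ wn
    simp only [hV, BData.Z]
    exact (hPr.mul_right hPT).mul_right hPr.inv_right
  have hyV : Commute yk V := (Z_Mf C hK hcen Hθ h1 hM h hlk.symm hkj c (uu z)).symm
  -- two computations
  have W1 : A * y' * A⁻¹ = V * U * (P * yk * yl * δ) * dk := by
    have h3 : A⁻¹ * τ⁻¹ = τ⁻¹ * A⁻¹ := by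
      rw [← _root_.mul_inv_rev, ← _root_.mul_inv_rev, hτA]
    calc A * y' * A⁻¹ = (A * τ) * yk * (τ⁻¹ * A⁻¹) := by rw [hy']; group
      _ = (τ * A) * yk * (A⁻¹ * τ⁻¹) := by rw [hτA, h3]
      _ = τ * (A * yk * A⁻¹) * τ⁻¹ := by group
      _ = τ * (U * yk * dk) * τ⁻¹ := by rw [eAk]
      _ = (τ * U * τ⁻¹) * (τ * yk * τ⁻¹) * (τ * dk * τ⁻¹) := by group
      _ = (V * U) * y' * dk := by
          rw [hτU, ← hy', mem_center_iff.1 hdkc τ]
          group
      _ = _ := by rw [hy'e]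
  have W2 : A * y' * A⁻¹ = P * (U * yk * dk) * (V * yl * dl) * δ := by
    have hAδ : A * δ * A⁻¹ = δ := by
      rw [mem_center_iff.1 hδc A]
      group
    calc A * y' * A⁻¹ = (A * P * A⁻¹) * (A * yk * A⁻¹) * (A * yl * A⁻¹) * (A * δ * A⁻¹) := by rw [hy'e]; group
      _ = _ := by rw [hAP, eAk, eAl, hAδ]
  have hd : dl = 1 := cancel_aux hVU hPU hPV hyV hdkc hdlc hδc (W1.symm.trans W2)
  rw [hd, mul_one] at eAl
  exact eAl

lemma rel_alt {k j : Fin n} (h : k ≠ j) (c : F) : D.Z h c = D.Z h.symm (-c) := by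
  obtain ⟨z, hz⟩ := QF.tr_surj (K := K) c
  have e1 := rel_YY C hn hK hcen Hθ h1 hM h (1 : K) z
  have e2 := rel_YY C hn hK hcen Hθ h1 hM h.symm z (1 : K)
  rw [map_one, one_mul, hz] at e1
  rw [mul_one, tr_cj, hz] at e2
  have e3 : D.Z h c = D.Y j 1 * D.Y k z * (D.Y j 1)⁻¹ * (D.Y k z)⁻¹ := by
    rw [e1]
    group
  have e4 : D.Z h.symm c = D.Y k z * D.Y j 1 * (D.Y k z)⁻¹ * (D.Y j 1)⁻¹ := by
    rw [e2]
    group
  rw [D.Z_neg, e3, e4]
  group

/-- The exact relation for `Y_j`, `T_kj`. -/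
lemma rel_YT1 {k j : Fin n} (h : k ≠ j) (t : K) (y : F) :
    D.Y j t * D.T h y * (D.Y j t)⁻¹ = D.Z h (-(nm t * y)) * D.Y k (-(t * algebraMap F K y)) * D.T h y := by
  obtain ⟨i, hji, hki⟩ := third hn j k
  obtain ⟨w, hw⟩ := QCj.cj_ne (K := K)
  have hw0 : w ≠ 0 := by
    rintro rfl
    exact hw (map_zero _)
  set α : Kˣ := Units.mk0 w hw0 with hα
  set ρ : K := ((rhoU α : Kˣ) : K) with hρdef
  have hcw0 : (cj w : K) ≠ 0 := by simpa using hw0
  have h3 : ρ * cj w = w := by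
    simp only [hρdef, rhoU, Units.val_mul, hα]
    have h4 : ((cjU (Units.mk0 w hw0))⁻¹ : Kˣ).1 * cj w = 1 := by
      have : (cjU (Units.mk0 w hw0) : Kˣ).1 = cj w := rfl
      rw [← this]
      exact Units.inv_mul _
    calc (Units.mk0 w hw0 : Kˣ).1 * ((cjU (Units.mk0 w hw0))⁻¹ : Kˣ).1 * cj w
        = w * (((cjU (Units.mk0 w hw0))⁻¹ : Kˣ).1 * cj w) := by
          rw [mul_assoc]
          rfl
      _ = w := by rw [h4, mul_one]
  have hρ : ρ ≠ 1 := by
    intro e
    apply hw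
    rw [e, one_mul] at h3
    exact h3
  have hρn : (nm ρ : F) = 1 := by
    apply alg_inj (K := K)
    rw [alg_nm', map_one]
    have h6 : cj ρ * w = cj w := by
      have := congrArg (cj : K ≃+* K) h3
      rwa [map_mul, cj_cj'] at this
    have h7 : ρ * cj ρ * (w * cj w) = 1 * (w * cj w) := by
      calc ρ * cj ρ * (w * cj w) = (ρ * cj w) * (cj ρ * w) := by ring
        _ = 1 * (w * cj w) := by rw [h3, h6, one_mul]
    exact mul_right_cancel₀ (mul_ne_zero hw0 hcw0) h7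
  set s := D.Mf i (dd α) with hs
  have hsY : ∀ (m : Fin n), i ≠ m → ∀ u : K, s * D.Y m u * s⁻¹ = D.Y m (ρ * u) := by
    intro m hm u
    have := rel_dd_conj C hK hcen Hθ h1 hM (Ne.symm hm) α (uu u)
    rw [kp_uu] at this
    exact this
  have hsT : s * D.T h y * s⁻¹ = D.T h y :=
    mul_inv_eq_iff_eq_mul.2 (T_Mf Hθ h hki.symm hji.symm y (dd α)).symm.eq
  have hsZ : ∀ x : F, s * D.Z h x * s⁻¹ = D.Z h x := fun x =>
    mul_inv_eq_iff_eq_mul.2 (Z_Mf C hK hcen Hθ h1 hM h hki.symm hji.symm x (dd α)).symm.eq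
  refine defect_eq (f := fun t => D.Y j t * D.T h y * (D.Y j t)⁻¹)
    (f' := fun t => D.Z h (-(nm t * y)) * D.Y k (-(t * algebraMap F K y)) * D.T h y) (s := s) (ρ := ρ) ?_ ?_ hρ ?_ ?_ t
  · intro t
    exact inv_mul_mem_center hcen (pi_YT C hK hcen Hθ h1 hM h t y).symm
  · intro t t'
    beta_reduce
    set Fp : K → Γ := fun t => D.Z h (-(nm t * y)) * D.Y k (-(t * algebraMap F K y)) * D.T h y with hFp
    set f : K → Γ := fun t => D.Y j t * D.T h y * (D.Y j t)⁻¹ with hf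
    have hdc : ∀ t, (Fp t)⁻¹ * f t ∈ center Γ := fun t => inv_mul_mem_center hcen (pi_YT C hK hcen Hθ h1 hM h t y).symm
    have ef : ∀ t, f t = Fp t * ((Fp t)⁻¹ * f t) := fun t => by group
    set dt := (Fp t)⁻¹ * f t with hdt
    set dt' := (Fp t') ⁻¹ * f t' with hdt'
    have c1 := mem_center_iff.1 (hdc t')
    have c2 := mem_center_iff.1 (hdc t)
    have e1 : f (t + t') = D.Y j t * f t' * (D.Y j t)⁻¹ := by
      simp only [hf, D.Y_add]
      group
    have e2 : D.Y j t * Fp t' * (D.Y j t)⁻¹ = D.Z h (-(nm t' * y)) *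
        (D.Z h (tr (cj t * (-(t' * algebraMap F K y)))) * D.Y k (-(t' * algebraMap F K y))) * f t := by
      have e3 := rel_YY C hn hK hcen Hθ h1 hM h t (-(t' * algebraMap F K y))
      have e4 : D.Y j t * D.Z h (-(nm t' * y)) * (D.Y j t)⁻¹ = D.Z h (-(nm t' * y)) :=
        mul_inv_eq_iff_eq_mul.2 (rel_YjZ C hn hK hcen Hθ h1 hM h t _).eq
      rw [← e3, hFp, hf]
      calc D.Y j t * (D.Z h (-(nm t' * y)) * D.Y k (-(t' * algebraMap F K y)) * D.T h y) * (D.Y j t)⁻¹
          = (D.Y j t * D.Z h (-(nm t' * y)) * (D.Y j t)⁻¹) * (D.Y j t * D.Y k (-(t' * algebraMap F K y)) * (D.Y j t)⁻¹) *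
            (D.Y j t * D.T h y * (D.Y j t)⁻¹) := by group
        _ = _ := by rw [e4]
    have e5 : f (t + t') = Fp (t + t') * (dt * dt') := by
      have e6 : Fp (t + t') = D.Z h (-(nm t' * y)) * D.Z h (tr (cj t * (-(t' * algebraMap F K y)))) *
          D.Z h (-(nm t * y)) * (D.Y k (-(t' * algebraMap F K y)) * D.Y k (-(t * algebraMap F K y))) * D.T h y := by
        simp only [hFp]
        rw [← D.Z_add, ← D.Z_add, ← D.Y_add]
        congr 3
        · rw [nm_add t t']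
          have e7 : tr (cj t * (-(t' * algebraMap F K y))) = - (tr (t * cj t') * y) := by
            rw [show cj t * (-(t' * algebraMap F K y)) = algebraMap F K (-y) * (cj t * t') by
              rw [map_neg]
              ring]
            rw [tr_smul]
            rw [show cj t * t' = cj (t * cj t') by simp [map_mul], tr_cj]
            ring
          rw [e7]
          ring
        · ring
      rw [e1, ef t', show D.Y j t * (Fp t' * dt') * (D.Y j t)⁻¹ = (D.Y j t * Fp t' * (D.Y j t)⁻¹) * dt' by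
        have c1' : ∀ g, g * dt' = dt' * g := c1
        calc D.Y j t * (Fp t' * dt') * (D.Y j t)⁻¹ = D.Y j t * Fp t' * (dt' * (D.Y j t)⁻¹) := by group
          _ = D.Y j t * Fp t' * ((D.Y j t)⁻¹ * dt') := by rw [c1' (D.Y j t)⁻¹]
          _ = _ := by group]
      rw [e2, ef t, e6]
      have hcomm : D.Y k (-(t' * algebraMap F K y)) * D.Z h (-(nm t * y)) = D.Z h (-(nm t * y)) * D.Y k (-(t' * algebraMap F K y)) :=
        (rel_YZ C hn hK hcen Hθ h1 hM h _ _).eq
      simp only [hFp]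
      set Z1 := D.Z h (-(nm t' * y))
      set Z2 := D.Z h (tr (cj t * (-(t' * algebraMap F K y))))
      set Z3 := D.Z h (-(nm t * y))
      set Y1 := D.Y k (-(t' * algebraMap F K y))
      set Y2 := D.Y k (-(t * algebraMap F K y))
      set X := D.T h y
      calc Z1 * (Z2 * Y1) * (Z3 * Y2 * X * dt) * dt' = Z1 * Z2 * (Y1 * Z3) * Y2 * X * (dt * dt') := by group
        _ = _ := by rw [hcomm]; group
    change (Fp (t + t'))⁻¹ * f (t + t') = dt * dt'
    rw [e5]
    group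
  · intro t
    have e1 := hsY j hji.symm t
    calc s * (D.Y j t * D.T h y * (D.Y j t)⁻¹) * s⁻¹
        = (s * D.Y j t * s⁻¹) * (s * D.T h y * s⁻¹) * (s * D.Y j t * s⁻¹)⁻¹ := by group
      _ = _ := by rw [e1, hsT]
  · intro t
    have e1 := hsY k hki.symm (-(t * algebraMap F K y))
    calc s * (D.Z h (-(nm t * y)) * D.Y k (-(t * algebraMap F K y)) * D.T h y) * s⁻¹
        = (s * D.Z h (-(nm t * y)) * s⁻¹) * (s * D.Y k (-(t * algebraMap F K y)) * s⁻¹) * (s * D.T h y * s⁻¹) := by group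
      _ = _ := by
        rw [hsZ, e1, hsT, nm_mul, hρn, one_mul]
        congr 3
        ring

section act

variable {k j : Fin n} (h : k ≠ j)

omit C hn hK hcen Hθ h1 hM in
/-- The action formula. -/
def ActP (D : BData (Fin n) F K Γ) (h : k ≠ j) (g : M2 K) : Prop :=
  ∀ (x : F) (z : K) (y : F), D.Mf j g * D.Ek h x z y * (D.Mf j g)⁻¹ = D.Ek h (adX g x z y) (adZ g x z y) (adY g x z y)

omit C hn hK hcen Hθ h1 hM in
lemma ActP.mul {g g' : M2 K} (e : ActP D h g) (e' : ActP D h g') : ActP D h (g * g') := by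
  intro x z y
  rw [adX_mul, adZ_mul, adY_mul, ← e, ← e', map_mul]
  group

omit C hn hK hcen Hθ h1 hM in
lemma ActP.inv {g : M2 K} (e : ActP D h g) : ActP D h g⁻¹ := by
  intro x z y
  have e1 := e (adX g⁻¹ x z y) (adZ g⁻¹ x z y) (adY g⁻¹ x z y)
  rw [← adX_mul, ← adZ_mul, ← adY_mul, mul_inv_cancel, adX_one, adZ_one, adY_one] at e1
  rw [← e1, map_inv]
  group

include h

lemma act_uu (t : K) : ActP D h (uu t) := by
  intro x z y
  have e1 := rel_YY C hn hK hcen Hθ h1 hM h t z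
  have e2 := rel_YT1 C hn hK hcen Hθ h1 hM h t y
  have e3 : D.Y j t * D.Z h x * (D.Y j t)⁻¹ = D.Z h x := mul_inv_eq_iff_eq_mul.2 (rel_YjZ C hn hK hcen Hθ h1 hM h t x).eq
  have hc : D.Y k z * D.Z h (-(nm t * y)) = D.Z h (-(nm t * y)) * D.Y k z := (rel_YZ C hn hK hcen Hθ h1 hM h _ _).eq
  change D.Y j t * (D.Z h x * D.Y k z * D.T h y) * (D.Y j t)⁻¹ = _
  simp only [adX_uu, adZ_uu, adY_uu, BData.Ek]
  rw [show x + tr (cj t * z) - nm t * y = x + tr (cj t * z) + -(nm t * y) by ring,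
    show z - t * algebraMap F K y = z + -(t * algebraMap F K y) by ring, D.Z_add, D.Z_add, D.Y_add]
  calc D.Y j t * (D.Z h x * D.Y k z * D.T h y) * (D.Y j t)⁻¹
      = (D.Y j t * D.Z h x * (D.Y j t)⁻¹) * (D.Y j t * D.Y k z * (D.Y j t)⁻¹) * (D.Y j t * D.T h y * (D.Y j t)⁻¹) := by group
    _ = D.Z h x * D.Z h (tr (cj t * z)) * (D.Y k z * D.Z h (-(nm t * y))) * D.Y k (-(t * algebraMap F K y)) * D.T h y := by
        rw [e1, e2, e3]
        group
    _ = _ := by rw [hc]; group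

lemma act_wn : ActP D h (wn : M2 K) := by
  intro x z y
  simp only [adX_wn, adZ_wn, adY_wn, BData.Ek]
  change D.rr j * (D.Z h x * D.Y k z * D.T h y) * (D.rr j)⁻¹ = _
  have e1 : D.rr j * D.Z h x * (D.rr j)⁻¹ = D.T h (-x) := by
    have hc := mem_center_iff.1 (r_sq_central C hK hcen Hθ h1 hM j) (D.T h (-x))
    simp only [BData.Z]
    calc D.rr j * (D.rr j * D.T h (-x) * (D.rr j)⁻¹) * (D.rr j)⁻¹
        = (D.rr j * D.rr j) * D.T h (-x) * (D.rr j * D.rr j)⁻¹ := by group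
      _ = D.T h (-x) * (D.rr j * D.rr j) * (D.rr j * D.rr j)⁻¹ := by rw [hc.symm]
      _ = _ := by group
  have e2 : D.rr j * D.Y k z * (D.rr j)⁻¹ = D.Y k (- cj z) := by
    have := rel_twist C hK hcen Hθ h1 hM h (uu z)
    rw [tau_uu] at this
    exact this
  have e3 : D.rr j * D.T h y * (D.rr j)⁻¹ = D.Z h (-y) := by
    simp only [BData.Z, neg_neg]
  have c1 : Commute (D.T h (-x)) (D.Y k (- cj z)) := (rel_YT C hn hK hcen Hθ h1 hM h _ _).symm
  have c2 : Commute (D.T h (-x)) (D.Z h (-y)) := (rel_ZT C hn hK hcen Hθ h1 hM h _ _).symm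
  have c3 : Commute (D.Y k (- cj z)) (D.Z h (-y)) := rel_YZ C hn hK hcen Hθ h1 hM h _ _
  calc D.rr j * (D.Z h x * D.Y k z * D.T h y) * (D.rr j)⁻¹
      = (D.rr j * D.Z h x * (D.rr j)⁻¹) * (D.rr j * D.Y k z * (D.rr j)⁻¹) * (D.rr j * D.T h y * (D.rr j)⁻¹) := by group
    _ = D.T h (-x) * D.Y k (- cj z) * D.Z h (-y) := by rw [e1, e2, e3]
    _ = D.T h (-x) * (D.Y k (- cj z) * D.Z h (-y)) := by group
    _ = D.T h (-x) * (D.Z h (-y) * D.Y k (- cj z)) := by rw [c3.eq]
    _ = (D.T h (-x) * D.Z h (-y)) * D.Y k (- cj z) := by group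
    _ = (D.Z h (-y) * D.T h (-x)) * D.Y k (- cj z) := by rw [c2.eq]
    _ = D.Z h (-y) * (D.T h (-x) * D.Y k (- cj z)) := by group
    _ = D.Z h (-y) * (D.Y k (- cj z) * D.T h (-x)) := by rw [c1.eq]
    _ = _ := by group

lemma rel_act (g : M2 K) : ActP D h g := by
  refine m2_induction (P := fun g => ActP D h g) ?_ ?_ ?_ ?_ ?_ g
  · intro x z y
    rw [map_one, adX_one, adZ_one, adY_one]
    group
  · intro t
    exact act_uu C hn hK hcen Hθ h1 hM h t
  · intro t
    have e := wn_uu (-t)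
    rw [neg_neg] at e
    rw [← e]
    have w1 := act_wn C hn hK hcen Hθ h1 hM h
    exact (w1.mul h (act_uu C hn hK hcen Hθ h1 hM h (-t))).mul h (w1.inv h)
  · intro g g' e e'
    exact e.mul h e'
  · intro g e
    exact e.inv h

end act

/-- All the relations. `K` has at least four elements. -/
theorem bhyp0_of_lift : BHyp0 D :=
  { Hθ with
    twist := rel_twist C hK hcen Hθ h1 hM
    comm_YT := rel_YT C hn hK hcen Hθ h1 hM
    comm_ZT := rel_ZT C hn hK hcen Hθ h1 hM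
    act := fun h g x z y => rel_act C hn hK hcen Hθ h1 hM h g x z y
    alt := rel_alt C hn hK hcen Hθ h1 hM }

end main

end Cfsg.Agent.Lib.MinStem
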