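import Cfsg.Agent.Lib.MinStem.Lift
import Cfsg.Agent.Lib.MinStem.Rel
import Cfsg.Agent.Lib.MinStem.Inj

/-!
# The stem bound (module B)

Copy of `OddStem/Bound.lean` (read it): `D` from `exists_theta_data`, `bhyp0_of_lift`. `z = D.M (dd (-1))`, `π z = blk b (dd (-1)) = 1` (`blk_neg`), `z ∈ center`, `z * z = 1`.
`S = closure (range lam ∪ range M)`, `Q = S ⧸ zpowers z`, `D'` the data in `Q`, `BHyp D'`, `φ : Q → GL` induced by `π`, `BHyp.injectiveM`. `π(S) = Ω`: `closure_lev_blk`. `commutator Γ ≤ S`. So `ker σ = zpowers z`.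
Characteristic two: `dd (-1) = dd 1 = 1`, `z = 1`.
-/

set_option autoImplicit false

namespace Cfsg.Agent.Lib.MinStem

open Matrix Cfsg Subgroup Cfsg.Agent.Lib.PresOm Cfsg.Agent.Lib.PresSp.M2 Cfsg.Agent.Lib.PresSp.Mono
  Cfsg.Agent.Lib.PresSLn.TwoGen

universe u

/-- The relations pull back along an injective homomorphism. -/
lemma BHyp0.of_injective {ι : Type*} [Fintype ι] [DecidableEq ι] {F K : Type*} [Field F] [Field K] [Algebra F K] [QCj K]
    [QF F K] {Γ Γ' : Type*} [Group Γ] [Group Γ'] {D : BData ι F K Γ'} (f : Γ' →* Γ) (hf : Function.Injective f)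
    (H : BHyp0 (D.map f)) : BHyp0 D := by
  have hc : ∀ {x y : Γ'}, Commute (f x) (f y) → Commute x y := fun {x y} h => hf (by
    rw [map_mul, map_mul]
    exact h)
  refine { theta := ?_, tw := ?_, twist := ?_, comm_YT := ?_, comm_ZT := ?_, act := ?_, alt := ?_ }
  · intro l h1 h2 g
    exact hc (H.theta l h1 h2 g)
  · intro ζ g
    apply hf
    have := H.tw ζ g
    simp only [map_mul, map_inv]
    exact this
  · intro i j h g
    have := H.twist h g
    rw [D.map_rr, D.map_Mf, D.map_Mf, ← map_inv, ← map_mul, ← map_mul] at this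
    exact hf this
  · intro k j h z y
    have := H.comm_YT h z y
    rw [D.map_Y, D.map_T] at this
    exact hc this
  · intro k j h x y
    have := H.comm_ZT h x y
    rw [D.map_Z, D.map_T] at this
    exact hc this
  · intro k j h g x z y
    have := H.act h g x z y
    rw [D.map_Mf, D.map_Ek, D.map_Ek, ← map_inv, ← map_mul, ← map_mul] at this
    exact hf this
  · intro k j h c
    have := H.alt h c
    rw [D.map_Z, D.map_Z] at this
    exact hf this

variable {n : ℕ} {F : Type u} {K : Type u} [Field F] [Fintype F] [Field K] [Fintype K] [Algebra F K] [QCj K] [QF F K]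
  {a b : F}

/-- The kernel of a stem extension of `Ω⁻_{2n+2}(F)` has order at most two, and is trivial in characteristic two. -/
theorem min_stem_bound (C : QC F K a b) {Γ : Type u} [Group Γ] [Finite Γ] (hn : 3 ≤ n)
    {σ : Γ →* Omega F (quadFormMinus n F a b)} (hσ : IsStemExtension σ) :
    ∃ z : Γ, z * z = 1 ∧ σ.ker = zpowers z ∧ ((2 : F) = 0 → z = 1) := by
  classical
  obtain ⟨hsurj, hcen, hcomm⟩ := hσ
  obtain ⟨D, Hθ, hl, hM⟩ := exists_theta_data_all C hn hsurj hcen
  set π := (iOm : Omega F (quadFormMinus n F a b) →* _).comp σ with hπ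
  have hπ1 : ∀ x, π x = 1 ↔ σ x = 1 := by
    intro x
    constructor
    · intro h
      exact iOm_inj (by simpa [hπ] using h)
    · intro h
      simp [hπ, h]
  have hcenπ : π.ker ≤ center Γ := fun x hx => hcen ((hπ1 x).1 hx)
  have hKc : 4 ≤ Fintype.card K := by
    rw [card_K C]
    have h2 : 2 ≤ Fintype.card F := Fintype.one_lt_card
    nlinarith
  have hKp : commutator (M2 K) = ⊤ := Cfsg.Agent.Lib.Schur.SpStem.sl2_perfect hKc
  have H0 : BHyp0 D := bhyp0_of_lift C hn hKp hcenπ Hθ hl hM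
  set z : Γ := D.M (dd (-1)) with hzdef
  have hπz : π z = 1 := by
    have := hM (dd (-1))
    rw [hzdef]
    exact this.trans (blk_neg C D.b)
  have hzc : z ∈ center Γ := hcenπ hπz
  have hzz : z * z = 1 := by
    rw [hzdef, ← map_mul]
    have : (dd (-1 : Kˣ) : M2 K) * dd (-1) = 1 := by
      rw [← dd_mul, neg_mul_neg, one_mul, dd_one]
    rw [this, map_one]
  refine ⟨z, hzz, ?_, ?_⟩
  swap
  · intro h2
    have hK2 : (2 : K) = 0 := by
      have := congrArg (algebraMap F K) h2
      rwa [map_ofNat, map_zero] at this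
    have hneg : (-1 : Kˣ) = 1 := by
      apply Units.ext
      rw [Units.val_neg, Units.val_one]
      linear_combination (-1 : K) * hK2
    rw [hzdef, hneg, dd_one, map_one]
  set S : Subgroup Γ := closure (Set.range D.lam ∪ Set.range D.M) with hS
  have hlS : ∀ l, D.lam l ∈ S := fun l => subset_closure (Or.inl ⟨l, rfl⟩)
  have hMS : ∀ g, D.M g ∈ S := fun g => subset_closure (Or.inr ⟨g, rfl⟩)
  have hzS : z ∈ S := hMS _
  have hN : (zpowers z).Normal := by
    refine ⟨fun x hx g => ?_⟩
    have hxc : x ∈ center Γ := by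
      have : zpowers z ≤ center Γ := by rw [zpowers_le]; exact hzc
      exact this hx
    rw [mem_center_iff.1 hxc g]
    simpa using hx
  let ZS : Subgroup S := (zpowers z).subgroupOf S
  have hZS : ZS.Normal := hN.subgroupOf S
  let Q := S ⧸ ZS
  let mk : S →* Q := QuotientGroup.mk' ZS
  let DS : BData (Fin n) F K S := ⟨D.lam.codRestrict S hlS, D.M.codRestrict S hMS, D.a, D.b, D.hab⟩
  have hDS : DS.map S.subtype = D := rfl
  have HS : BHyp0 DS := BHyp0.of_injective S.subtype Subtype.val_injective (by rw [hDS]; exact H0)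
  let DQ : BData (Fin n) F K Q := DS.map mk
  have HQ : BHyp DQ :=
    { HS.map mk with
      neg := by
        change mk ⟨z, hzS⟩ = 1
        rw [QuotientGroup.mk'_apply, QuotientGroup.eq_one_iff]
        exact Subgroup.mem_subgroupOf.2 (mem_zpowers z) }
  -- the map to the target
  have hker : ∀ x ∈ ZS, (π.comp S.subtype) x = 1 := by
    intro x hx
    have hx' : (x : Γ) ∈ zpowers z := Subgroup.mem_subgroupOf.1 hx
    obtain ⟨n, hn⟩ := mem_zpowers_iff.1 hx'
    change π (x : Γ) = 1
    rw [← hn, map_zpow, hπz, _root_.one_zpow]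
  let φ : Q →* GeneralLinearGroup (VM n) F := QuotientGroup.lift ZS (π.comp S.subtype) hker
  have hφ : ∀ x : S, φ (mk x) = π x := fun x => rfl
  have hφ1 : ∀ l, φ (DQ.lam l) = levM l := fun l => hl l
  have hφ2 : ∀ g, φ (DQ.M g) = blk C DQ.b g := fun g => hM g
  have hgen : closure (Set.range DQ.lam ∪ Set.range DQ.M) = ⊤ := by
    rw [eq_top_iff]
    rintro q -
    obtain ⟨x, rfl⟩ := QuotientGroup.mk'_surjective ZS q
    change mk x ∈ _
    obtain ⟨x, hx⟩ := x
    refine closure_induction (p := fun y hy => mk ⟨y, hy⟩ ∈ closure (Set.range DQ.lam ∪ Set.range DQ.M)) ?_ ?_ ?_ ?_ hx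
    · rintro y (⟨l, rfl⟩ | ⟨g, rfl⟩)
      · exact subset_closure (Or.inl ⟨l, rfl⟩)
      · exact subset_closure (Or.inr ⟨g, rfl⟩)
    · exact one_mem _
    · intro y y' hy hy' h1 h2
      exact mul_mem h1 h2
    · intro y hy h1
      exact inv_mem h1
  have hinj := BHyp.injectiveM HQ C φ hφ1 hφ2 hgen
  -- `S` covers `Ω`
  have hmap : ∀ g : Γ, ∃ q : S, σ (S.subtype q) = σ g := by
    intro g
    have h1 : iOm (σ g) ∈ closure (Set.range (levM : SpecialLinearGroup (Fin n) F →* _) ∪ Set.range (blk C D.b)) := by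
      rw [closure_lev_blk C hn D.b, ← iOm_range]
      exact ⟨_, rfl⟩
    have h3 : closure (Set.range (levM : SpecialLinearGroup (Fin n) F →* _) ∪ Set.range (blk C D.b)) ≤ S.map π := by
      rw [closure_le]
      rintro _ (⟨l, rfl⟩ | ⟨g', rfl⟩)
      · exact ⟨D.lam l, hlS l, hl l⟩
      · exact ⟨D.M g', hMS g', hM g'⟩
    obtain ⟨y, hy, hy2⟩ := h3 h1
    exact ⟨⟨y, hy⟩, iOm_inj hy2⟩
  have hcS : commutator Γ ≤ S.subtype.range :=
    Cfsg.Agent.Lib.Schur.SLnStem.commutator_le_range_of_central hcen S.subtype hmap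
  apply le_antisymm
  · intro x hx
    have hx2 : x ∈ S.subtype.range := hcS (hcomm hx)
    obtain ⟨y, rfl⟩ := hx2
    have h1 : φ (mk y) = 1 := by
      rw [hφ]
      exact (hπ1 _).2 hx
    have h3 := hinj (h1.trans (map_one φ).symm)
    rw [QuotientGroup.mk'_apply, QuotientGroup.eq_one_iff] at h3
    exact Subgroup.mem_subgroupOf.1 h3
  · rw [zpowers_le]
    exact (hπ1 z).1 hπz

end Cfsg.Agent.Lib.MinStem
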