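import Cfsg.Agent.Lib.MinStem.Clo

/-!
# The double coset decomposition (module D)

Port of `PresU/ODec.lean` (and `nR_comm_of`, `nR_erase`, `PR` from `PresU/Dec.lean`).
Port of `OddStem/Dec.lean` (no condition on the characteristic).
* `conj_nR`: `j ≠ k`, `j ∉ R ∨ k ∈ R`. Let `n = nR R`. If `k ∉ R`, then `j ∉ R`, `n` commutes with `T_jk` (`comm_rr_T`). If `k ∈ R`, `j ∉ R`: `n = r_k n₀` (`nR_erase`), `n₀` commutes with `Z_jk` (`comm_rr_Z`), so
  `n⁻¹ T n = n₀⁻¹ r_k⁻¹ T r_k n₀ = Z_jk(-c)` (`rr_inv`, `rr_T_same`), in `Pt` (`Z_mem_Pt`). If `j, k ∈ R`: `n = r_k r_j n₀` (`R` has no repetition), `r_j⁻¹ Z_jk(-c) r_j = r_j Z_kj(c) r_j⁻¹ = T_kj(-c)` (`alt`, `rr_Z_same`).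
* `Mf_nR`: `i ∉ R`: by `bruhat`: `g = uu x * dd u * uu y`: then `Mf i g ∈ Pt`. `g = uu x * dd u * wn * uu y`: `Mf i g * n = (Y i x * Mf i (dd u)) * r_i * n * (n⁻¹ Y i y n)`, and `n⁻¹ Y i y n = Y i (± y)` (`rr_Y`), so it is `p₁ * nR (i :: R) * p₂`. `i ∈ R`: `nR_erase`, replace `g` by `g * wn`.
* `M_lam_nR`, `decompO` as in `ODec` (`H.mu`/`tw` replaces `tw_all`, `del` is `kp`; `theta` as is). Put `g' = kp c⁻¹ g`-style: `M g * lam (tt hab c)⁻¹ = lam (tt hab c)⁻¹ * M g'` by `tw`.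
-/

set_option autoImplicit false
set_option linter.unusedSectionVars false
set_option linter.unusedSimpArgs false

namespace Cfsg.Agent.Lib.MinStem

open Matrix Subgroup Cfsg.Agent.Lib.PresOm Cfsg.Agent.Lib.PresSp.M2 Cfsg.Agent.Lib.PresSp.Mono
  Cfsg.Agent.Lib.PresSLn.TwoGen

variable {ι : Type*} [Fintype ι] [DecidableEq ι] {F : Type*} {K : Type*} [Field F] [Field K] [Algebra F K] [QCj K] [QF F K]
  {Γ : Type*} [Group Γ]

/-- The product of the Weyl elements at the indices in a list. -/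
def BData.nR (D : BData ι F K Γ) : List ι → Γ
  | [] => 1
  | i :: R => D.rr i * BData.nR D R

namespace BData

variable (D : BData ι F K Γ)

lemma nR_nil : D.nR [] = 1 := rfl

lemma nR_cons (i : ι) (R : List ι) : D.nR (i :: R) = D.rr i * D.nR R := rfl

lemma nR_comm_of {x : Γ} {R : List ι} (h : ∀ i ∈ R, Commute x (D.rr i)) : Commute x (D.nR R) := by
  induction R with
  | nil => exact Commute.one_right _
  | cons i R ih =>
    rw [nR_cons]
    exact (h i (by simp)).mul_right (ih fun j hj => h j (by simp [hj]))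

/-- The stabiliser of the parabolic under conjugation by a product of Weyl elements. -/
def PR (R : List ι) : Subgroup (SpecialLinearGroup ι F) where
  carrier := {l | (D.nR R)⁻¹ * D.lam l * D.nR R ∈ D.Pt}
  mul_mem' := by
    intro x y hx hy
    have e : (D.nR R)⁻¹ * D.lam (x * y) * D.nR R =
        ((D.nR R)⁻¹ * D.lam x * D.nR R) * ((D.nR R)⁻¹ * D.lam y * D.nR R) := by
      rw [map_mul]
      group
    show (D.nR R)⁻¹ * D.lam (x * y) * D.nR R ∈ D.Pt
    rw [e]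
    exact mul_mem hx hy
  one_mem' := by
    show (D.nR R)⁻¹ * D.lam 1 * D.nR R ∈ D.Pt
    simp [one_mem]
  inv_mem' := by
    intro x hx
    have e : (D.nR R)⁻¹ * D.lam x⁻¹ * D.nR R = ((D.nR R)⁻¹ * D.lam x * D.nR R)⁻¹ := by
      rw [map_inv]
      group
    show (D.nR R)⁻¹ * D.lam x⁻¹ * D.nR R ∈ D.Pt
    rw [e]
    exact inv_mem hx

end BData

namespace BHyp

variable {D : BData ι F K Γ} (H : BHyp D)
include H

lemma nR_erase {j : ι} {R : List ι} (hj : j ∈ R) : D.nR R = D.rr j * D.nR (R.erase j) := by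
  induction R with
  | nil => simp at hj
  | cons i R ih =>
    by_cases h : i = j
    · subst h
      rw [List.erase_cons_head, BData.nR_cons]
    · have hj' : j ∈ R := by
        rcases List.mem_cons.1 hj with h' | h'
        · exact absurd h'.symm h
        · exact h'
      rw [List.erase_cons_tail (by simpa using h), BData.nR_cons, BData.nR_cons, ih hj', ← mul_assoc, ← mul_assoc,
        (H.rr_comm h).eq]

/-- Moving a short root element across a product of Weyl elements. -/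
lemma nR_Y {i : ι} {R : List ι} (hi : i ∉ R) (z : K) : ∃ z', (D.nR R)⁻¹ * D.Y i z * D.nR R = D.Y i z' := by
  induction R generalizing z with
  | nil => exact ⟨z, by simp [BData.nR_nil]⟩
  | cons m R ih =>
    have him : i ≠ m := fun h => hi (by simp [h])
    have hiR : i ∉ R := fun h => hi (by simp [h])
    obtain ⟨z', hz'⟩ := ih hiR (- cj z)
    refine ⟨z', ?_⟩
    have h1 : (D.rr m)⁻¹ * D.Y i z * D.rr m = D.Y i (- cj z) := by
      have := H.rr_Y him z
      rw [H.rr_inv m] at this ⊢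
      exact this
    rw [BData.nR_cons]
    calc (D.rr m * D.nR R)⁻¹ * D.Y i z * (D.rr m * D.nR R)
        = (D.nR R)⁻¹ * ((D.rr m)⁻¹ * D.Y i z * D.rr m) * D.nR R := by group
      _ = _ := by rw [h1, hz']

lemma conj_nR {j k : ι} (hjk : j ≠ k) {R : List ι} (hR : R.Nodup) (h : j ∉ R ∨ k ∈ R) (c : F) :
    (D.nR R)⁻¹ * D.lam (TT hjk c) * D.nR R ∈ D.Pt := by
  have hT : ∀ {i l : ι} (hil : i ≠ l) (d : F) {S : List ι}, i ∉ S → l ∉ S →
      Commute (D.T hil d) (D.nR S) := by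
    intro i l hil d S hi hl
    refine D.nR_comm_of fun m hm => (H.comm_rr_T hil ?_ ?_ d).symm
    · rintro rfl
      exact hi hm
    · rintro rfl
      exact hl hm
  have e1 : (D.rr k)⁻¹ * D.T hjk c * D.rr k = D.Z hjk (-c) := by
    have := H.rr_T_same hjk c
    rw [H.rr_inv k] at this ⊢
    exact this
  change (D.nR R)⁻¹ * D.T hjk c * D.nR R ∈ D.Pt
  by_cases hk : k ∈ R
  · by_cases hj : j ∈ R
    · -- both in `R`
      have h1 : k ∈ R.erase j := (List.mem_erase_of_ne (Ne.symm hjk)).2 hk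
      have hd : (R.erase j).Nodup := hR.erase j
      have hj2 : j ∉ (R.erase j).erase k := fun hh => hR.not_mem_erase (List.mem_of_mem_erase hh)
      have hk2 : k ∉ (R.erase j).erase k := hd.not_mem_erase
      have e0 : D.nR R = D.rr k * D.rr j * D.nR ((R.erase j).erase k) := by
        rw [H.nR_erase hj, H.nR_erase h1, ← mul_assoc, (H.rr_comm hjk).eq]
      have e2 : (D.rr j)⁻¹ * D.Z hjk (-c) * D.rr j = D.T hjk.symm (-c) := by
        have h3 := H.rr_Z_same hjk.symm c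
        rw [H.rr_inv j] at h3 ⊢
        rw [H.alt hjk (-c), neg_neg]
        exact h3
      have e3 := (hT hjk.symm (-c) hk2 hj2).symm.inv_left.eq
      have e4 : (D.rr k * D.rr j * D.nR ((R.erase j).erase k))⁻¹ * D.T hjk c *
          (D.rr k * D.rr j * D.nR ((R.erase j).erase k)) =
          (D.nR ((R.erase j).erase k))⁻¹ * ((D.rr j)⁻¹ * ((D.rr k)⁻¹ * D.T hjk c * D.rr k) * D.rr j) *
            D.nR ((R.erase j).erase k) := by group
      rw [e0, e4, e1, e2, e3, inv_mul_cancel_right]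
      exact D.lam_mem_Pt _
    · -- only `k` in `R`
      have hj2 : j ∉ R.erase k := fun hh => hj (List.mem_of_mem_erase hh)
      have hk2 : k ∉ R.erase k := hR.not_mem_erase
      have e0 := H.nR_erase hk
      have e3 : Commute (D.Z hjk (-c)) (D.nR (R.erase k)) := by
        refine D.nR_comm_of fun m hm => (H.comm_rr_Z hjk ?_ ?_ _).symm
        · rintro rfl
          exact hj2 hm
        · rintro rfl
          exact hk2 hm
      have e4 : (D.rr k * D.nR (R.erase k))⁻¹ * D.T hjk c * (D.rr k * D.nR (R.erase k)) =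
          (D.nR (R.erase k))⁻¹ * ((D.rr k)⁻¹ * D.T hjk c * D.rr k) * D.nR (R.erase k) := by
        group
      rw [e0, e4, e1, e3.symm.inv_left.eq, inv_mul_cancel_right]
      exact H.Z_mem_Pt _ _
  · have hj : j ∉ R := by
      rcases h with h | h
      · exact h
      · exact absurd h hk
    rw [(hT hjk c hj hk).symm.inv_left.eq, inv_mul_cancel_right]
    exact D.lam_mem_Pt _

/-- The Bruhat decomposition for a rank one group and a product of Weyl elements. -/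
lemma Mf_nR (i : ι) (g : M2 K) {R : List ι} (hR : R.Nodup) :
    ∃ R' : List ι, R'.Nodup ∧ ∃ p₁ ∈ D.Pt, ∃ p₂ ∈ D.Pt, D.Mf i g * D.nR R = p₁ * D.nR R' * p₂ := by
  have key : ∀ (g : M2 K) {R : List ι}, R.Nodup → i ∉ R →
      ∃ R' : List ι, R'.Nodup ∧ ∃ p₁ ∈ D.Pt, ∃ p₂ ∈ D.Pt, D.Mf i g * D.nR R = p₁ * D.nR R' * p₂ := by
    intro g R hR hj
    rcases bruhat g with ⟨x, y, u, rfl⟩ | ⟨x, y, u, rfl⟩
    · refine ⟨R, hR, D.Mf i (uu x * dd u * uu y), ?_, 1, one_mem _, by rw [mul_one]⟩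
      rw [map_mul, map_mul]
      exact mul_mem (mul_mem (D.Y_mem_Pt i x) (D.Td_mem_Pt i u)) (D.Y_mem_Pt i y)
    · obtain ⟨z', hz'⟩ := H.nR_Y hj y
      refine ⟨i :: R, List.nodup_cons.2 ⟨hj, hR⟩, D.Mf i (uu x * dd u), ?_, D.Y i z', D.Y_mem_Pt i z', ?_⟩
      · rw [map_mul]
        exact mul_mem (D.Y_mem_Pt i x) (D.Td_mem_Pt i u)
      · rw [BData.nR_cons, ← hz', map_mul, map_mul]
        have e1 : D.Mf i wn = D.rr i := rfl
        have e2 : D.Mf i (uu y) = D.Y i y := rfl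
        rw [e1, e2]
        group
  by_cases hj : i ∈ R
  · have := key (g * wn) (hR.erase i) hR.not_mem_erase
    have e1 : D.Mf i wn = D.rr i := rfl
    rwa [map_mul, mul_assoc, e1, ← H.nR_erase hj] at this
  · exact key g hR hj

/-- The key step of the decomposition. -/
lemma M_lam_nR (g : M2 K) (l : SpecialLinearGroup ι F) {R : List ι} (hR : R.Nodup) :
    ∃ R' : List ι, R'.Nodup ∧ ∃ p₁ ∈ D.Pt, ∃ p₂ ∈ D.Pt, D.M g * D.lam l * D.nR R = p₁ * D.nR R' * p₂ := by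
  -- the row
  set r : ι → F := Pi.single D.b 1 ᵥ* l.1 with hr
  have hr0 : r ≠ 0 := by
    intro h0
    have h1 : r ᵥ* (l⁻¹).1 = Pi.single D.b 1 := by
      rw [hr, vecMul_vecMul, mul_inv_coe, vecMul_one]
    rw [h0, zero_vecMul] at h1
    have := congrFun h1 D.b
    simp at this
  obtain ⟨i, hj0, hjR⟩ : ∃ i, r i ≠ 0 ∧ ∀ k', r k' ≠ 0 → i ∉ R ∨ k' ∈ R := by
    by_cases hh : ∃ i, i ∉ R ∧ r i ≠ 0
    · obtain ⟨i, h1, h2⟩ := hh
      exact ⟨i, h2, fun k' _ => Or.inl h1⟩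
    · obtain ⟨i, hj⟩ := Function.ne_iff.1 hr0
      refine ⟨i, hj, fun k' hk => Or.inr ?_⟩
      by_contra hkR
      exact hh ⟨k', hkR, hk⟩
  set c : Fˣ := Units.mk0 (r i) hj0 with hc
  have hcv : (c : F) = r i := rfl
  set r' : ι → F := (r i)⁻¹ • r with hr'
  have hr'j : r' i = 1 := by
    simp only [hr', Pi.smul_apply, smul_eq_mul]
    exact inv_mul_cancel₀ hj0
  obtain ⟨l', hl'P, hl'⟩ := exists_row (j := i) r' hr'j (D.PR R) (by
    intro k' hk
    by_cases hrk : r k' = 0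
    · have : r' k' = 0 := by simp [hr', hrk]
      rw [this]
      have e1 : SpecialLinearGroup.transvection hk (0 : F) = 1 := TT_zero hk
      rw [e1]
      exact one_mem _
    · exact H.conj_nR hk hR (hjR k' hrk) _)
  -- the row of `l l'⁻¹`
  have row1 : Pi.single D.b 1 ᵥ* (l * l'⁻¹).1 = (r i) • Pi.single i 1 := by
    have e1 : r = (r i) • (Pi.single i 1 ᵥ* l'.1) := by
      rw [hl', hr', smul_smul, mul_inv_cancel₀ hj0, one_smul]
    rw [coeM, ← vecMul_vecMul, ← hr]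
    calc r ᵥ* (l'⁻¹).1 = ((r i) • (Pi.single i 1 ᵥ* l'.1)) ᵥ* (l'⁻¹).1 := by rw [← e1]
      _ = _ := by rw [smul_vecMul, vecMul_vecMul, mul_inv_coe, vecMul_one]
  have hpj := mv_pj (F := F) D.hab i
  have row2 : Pi.single D.b 1 ᵥ* (l * l'⁻¹ * pj D.a D.b i).1 = (r i) • Pi.single D.b 1 := by
    rw [coeM, ← vecMul_vecMul, row1, smul_vecMul, hpj.row]
  have row3 : Pi.single D.b 1 ᵥ* (l * l'⁻¹ * pj D.a D.b i * tt D.hab c).1 = Pi.single D.b 1 := by
    rw [coeM, ← vecMul_vecMul, row2, smul_vecMul, coe_tt]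
    ext m
    rw [Pi.smul_apply, smul_eq_mul, single_one_vecMul]
    by_cases hm : m = D.b
    · subst hm
      simp [td, D.hab.symm, ← hcv]
    · simp [hm, Ne.symm hm, diagonal_apply_ne]
  set a₂ := l * l'⁻¹ * pj D.a D.b i * tt D.hab c with ha₂
  set cc : ι → F := a₂.1 *ᵥ Pi.single D.b 1 with hcc
  have hccb : cc D.b = 1 := by
    have h1 : cc D.b = a₂.1 D.b D.b := by
      rw [hcc, mulVec_single_one]
      rfl
    have h2 := congrFun row3 D.b
    rw [single_one_vecMul] at h2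
    simpa [h1] using h2
  let P₂ : Subgroup (SpecialLinearGroup ι F) := D.Nt.comap D.lam
  obtain ⟨v, hvP, hv1, hv2⟩ := exists_col (b := D.b) cc hccb P₂ (fun k' hk => D.T_mem_Nt hk _)
  set th := v⁻¹ * a₂ with hθ
  have hθ1 : th.1 *ᵥ Pi.single D.b 1 = Pi.single D.b 1 := by
    rw [hθ, coeM, ← mulVec_mulVec, ← hcc, ← hv1, mulVec_mulVec, inv_mul_coe, one_mulVec]
  have hv3 : Pi.single D.b 1 ᵥ* (v⁻¹).1 = Pi.single D.b 1 := by
    nth_rewrite 1 [← hv2]
    rw [vecMul_vecMul, mul_inv_coe, vecMul_one]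
  have hθ2 : Pi.single D.b 1 ᵥ* th.1 = Pi.single D.b 1 := by
    rw [hθ, coeM, ← vecMul_vecMul, hv3, row3]
  have hl : l = v * th * (tt D.hab c)⁻¹ * (pj D.a D.b i)⁻¹ * l' := by
    rw [hθ, ha₂]
    group
  -- moving `M g` to the right
  have hth := H.theta th hθ1 hθ2
  have hnv : D.M g * D.lam v * (D.M g)⁻¹ ∈ D.Pt := H.Nt_le_Pt (H.conj_M_Nt g hvP)
  set g' := kp (kF c⁻¹) g with hg'
  have hS1 : D.M g * D.lam (tt D.hab c)⁻¹ = D.lam (tt D.hab c)⁻¹ * D.M g' := by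
    rw [hg', ← H.tw c g, map_inv]
    group
  have hS2 : D.M g' * D.lam (pj D.a D.b i)⁻¹ = D.lam (pj D.a D.b i)⁻¹ * D.Mf i g' := by
    rw [D.Mf_apply, map_inv]
    group
  obtain ⟨R', hR', p₁, hp₁, p₂, hp₂, e⟩ := H.Mf_nR i g' hR
  have hl'2 : (D.nR R)⁻¹ * D.lam l' * D.nR R ∈ D.Pt := hl'P
  have hr2 : D.lam l' * D.nR R = D.nR R * ((D.nR R)⁻¹ * D.lam l' * D.nR R) := by
    group
  refine ⟨R', hR', (D.M g * D.lam v * (D.M g)⁻¹) * D.lam th * D.lam (tt D.hab c)⁻¹ * D.lam (pj D.a D.b i)⁻¹ * p₁, ?_,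
    p₂ * ((D.nR R)⁻¹ * D.lam l' * D.nR R), mul_mem hp₂ hl'2, ?_⟩
  · exact mul_mem (mul_mem (mul_mem (mul_mem hnv (D.lam_mem_Pt _)) (D.lam_mem_Pt _)) (D.lam_mem_Pt _)) hp₁
  · set nn := D.nR R with hnn
    set MM := D.M g * D.lam v * (D.M g)⁻¹ with hM
    set C := nn⁻¹ * D.lam l' * nn with hC
    calc D.M g * D.lam l * nn
        = MM * (D.M g * D.lam th) * D.lam (tt D.hab c)⁻¹ * D.lam (pj D.a D.b i)⁻¹ * D.lam l' * nn := by
          nth_rewrite 1 [hl]
          simp only [hM, map_mul]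
          group
      _ = MM * D.lam th * (D.M g * D.lam (tt D.hab c)⁻¹) * D.lam (pj D.a D.b i)⁻¹ * D.lam l' * nn := by
          rw [(hth g).symm.eq]
          group
      _ = MM * D.lam th * D.lam (tt D.hab c)⁻¹ * (D.M g' * D.lam (pj D.a D.b i)⁻¹) * D.lam l' * nn := by
          rw [hS1]
          group
      _ = MM * D.lam th * D.lam (tt D.hab c)⁻¹ * D.lam (pj D.a D.b i)⁻¹ * (D.Mf i g' * (D.lam l' * nn)) := by
          rw [hS2]
          group
      _ = MM * D.lam th * D.lam (tt D.hab c)⁻¹ * D.lam (pj D.a D.b i)⁻¹ * (D.Mf i g' * nn * C) := by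
          rw [hr2, mul_assoc (D.Mf i g')]
      _ = MM * D.lam th * D.lam (tt D.hab c)⁻¹ * D.lam (pj D.a D.b i)⁻¹ * (p₁ * D.nR R' * p₂ * C) := by
          rw [e]
      _ = _ := by group

/-- The decomposition into double cosets of the parabolic. -/
theorem decompO (hgen : closure (Set.range D.lam ∪ Set.range D.M) = ⊤) (x : Γ) :
    ∃ R : List ι, R.Nodup ∧ ∃ p₁ ∈ D.Pt, ∃ p₂ ∈ D.Pt, x = p₁ * D.nR R * p₂ := by
  have step : ∀ x ∈ (Set.range D.lam ∪ Set.range D.M : Set Γ), ∀ y : Γ,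
      (∃ R : List ι, R.Nodup ∧ ∃ p₁ ∈ D.Pt, ∃ p₂ ∈ D.Pt, y = p₁ * D.nR R * p₂) →
      ∃ R : List ι, R.Nodup ∧ ∃ p₁ ∈ D.Pt, ∃ p₂ ∈ D.Pt, x * y = p₁ * D.nR R * p₂ := by
    rintro x hx y ⟨R, hR, p₁, hp₁, p₂, hp₂, rfl⟩
    rcases hx with ⟨l, rfl⟩ | ⟨g, rfl⟩
    · exact ⟨R, hR, D.lam l * p₁, mul_mem (D.lam_mem_Pt l) hp₁, p₂, hp₂, by group⟩
    · obtain ⟨p, hp, g', l, e1⟩ := H.M_Pt g hp₁
      obtain ⟨R', hR', p', hp', p'', hp'', e2⟩ := H.M_lam_nR g' l hR
      refine ⟨R', hR', p * p', mul_mem hp hp', p'' * p₂, mul_mem hp'' hp₂, ?_⟩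
      calc D.M g * (p₁ * D.nR R * p₂)
          = (D.M g * p₁) * D.nR R * p₂ := by group
        _ = p * (D.M g' * D.lam l * D.nR R) * p₂ := by rw [e1]; group
        _ = _ := by rw [e2]; group
  have hx : x ∈ closure (Set.range D.lam ∪ Set.range D.M : Set Γ) := by
    rw [hgen]
    trivial
  induction hx using Subgroup.closure_induction_left with
  | one => exact ⟨[], List.nodup_nil, 1, one_mem _, 1, one_mem _, by simp [BData.nR_nil]⟩
  | mul_left x hx y _ ih => exact step x hx y ih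
  | inv_mul_cancel x hx y _ ih =>
    refine step x⁻¹ ?_ y ih
    rcases hx with ⟨l, rfl⟩ | ⟨g, rfl⟩
    · exact Or.inl ⟨l⁻¹, map_inv _ _⟩
    · exact Or.inr ⟨g⁻¹, map_inv _ _⟩

end BHyp

end Cfsg.Agent.Lib.MinStem
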