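import Cfsg.Agent.Lib.OddStem.Defs

/-!
# S2099: stem extensions of `Ω⁻_10(2)` are trivial (STUB: owner replaces the sorry)

Tail certificates for all primes, see forum topic S2099. `F` has two elements, so `F ≃+* ZMod 2`, `a = b = 1`.
-/

set_option autoImplicit false

namespace Cfsg.Agent.Lib.MinStem

open Cfsg Subgroup

universe u

theorem exc10 {F : Type u} [Field F] [Fintype F] (hF : Fintype.card F = 2) {a b : F}
    (hab : ∀ z₁ z₂ : F, z₁ ^ 2 + a * z₁ * z₂ + b * z₂ ^ 2 = 0 → z₁ = 0 ∧ z₂ = 0) {Γ : Type u} [Group Γ] [Finite Γ]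
    {σ : Γ →* Omega F (quadFormMinus 4 F a b)} (hσ : IsStemExtension σ) {z : Γ} (hz : σ z = 1) : z = 1 := by
  sorry

end Cfsg.Agent.Lib.MinStem
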