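import Cfsg.Agent.Lib.OddStem.Defs
import Cfsg.Agent.Lib.Schur.Local
import Cfsg.Agent.Lib.Schur.PcPerm
import Cfsg.Agent.Lib.Schur.SpStem.Trans
import Cfsg.Agent.Lib.Classical.QuadEichBridge
import Cfsg.Agent.Lib.Elusive.OmegaMem
import Cfsg.Agent.Lib.PermRepO.Transfer
import Cfsg.Agent.Lib.MinStem.Cert.O8m2p2
import Cfsg.Agent.Lib.MinStem.Cert.O8m2p3

/-!
# S2099: stem extensions of `Ω⁻_8(2)` are trivial

A kernel-checked computation of stable elements on the 256 vectors: `Ω` is recognised among the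
isometries by the parity of the rank of `x - 1`, read off the number of fixed vectors.
-/

set_option autoImplicit false
set_option maxRecDepth 100000
set_option linter.unusedSectionVars false
set_option linter.unusedVariables false

namespace Cfsg.Agent.Lib.MinStem.Exc8Aux

open scoped Matrix
open Cfsg Subgroup Matrix Module
open Cfsg.Agent.Lib.Schur.Stem Cfsg.Agent.Lib.Schur.Local Cfsg.Agent.Lib.Schur.PcPerm
open _root_.Cfsg.Agent.Lib.PermComp

/-- The prime field. -/
abbrev K : Type := ZMod 2

/-- The index set. -/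
abbrev Idx : Type := (Fin 3 ⊕ Fin 3) ⊕ Fin 2

/-- The vectors. -/
abbrev V : Type := Idx → K

/-- The form. -/
abbrev Qf : V → K := Cfsg.quadFormMinus 3 K 1 1

/-- The isometry group. -/
abbrev O : Type := ↥(Cfsg.isometryGroup K Qf)

/-- The number of a vector. -/
def enc (v : V) : ℕ :=
  1 * (v (.inl (.inl 0))).val + 2 * (v (.inl (.inl 1))).val + 4 * (v (.inl (.inl 2))).val +
    8 * (v (.inl (.inr 0))).val + 16 * (v (.inl (.inr 1))).val + 32 * (v (.inl (.inr 2))).val +
    64 * (v (.inr 0)).val + 128 * (v (.inr 1)).val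

/-- The power of two at an index. -/
def pw : Idx → ℕ
  | .inl (.inl j) => 2 ^ j.val
  | .inl (.inr j) => 2 ^ (3 + j.val)
  | .inr j => 2 ^ (6 + j.val)

/-- The vector of a number. -/
def dec (i : ℕ) : V := fun x => ((i / pw x % 2 : ℕ) : K)

theorem enc_lt (v : V) : enc v < 256 := by
  have h : ∀ a : K, a.val ≤ 1 := by decide
  have h0 := h (v (.inl (.inl 0)))
  have h1 := h (v (.inl (.inl 1)))
  have h2 := h (v (.inl (.inl 2)))
  have h3 := h (v (.inl (.inr 0)))
  have h4 := h (v (.inl (.inr 1)))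
  have h5 := h (v (.inl (.inr 2)))
  have h6 := h (v (.inr 0))
  have h7 := h (v (.inr 1))
  unfold enc
  omega

theorem enc_dec : ∀ i : Fin 256, enc (dec i.1) = i.1 := by
  decide +kernel

theorem card_V : Fintype.card V = 256 := by
  simp [ZMod.card]

/-- The numbering of the vectors. -/
noncomputable def e : V ≃ Fin 256 :=
  Equiv.ofBijective (fun v => ⟨enc v, enc_lt v⟩)
    ((Fintype.bijective_iff_surjective_and_card _).2
      ⟨fun i => ⟨dec i.1, Fin.ext (enc_dec i)⟩, by rw [card_V]; simp⟩)

theorem e_coe (v : V) : ((e v : Fin 256) : ℕ) = enc v := rfl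

theorem dec_enc (v : V) : dec (enc v) = v := by
  have h : e (dec (enc v)) = e v := Fin.ext (by rw [e_coe]; exact enc_dec ⟨enc v, enc_lt v⟩)
  exact e.injective h

theorem enc_inj {v w : V} (h : enc v = enc w) : v = w := by
  rw [← dec_enc v, ← dec_enc w, h]

/-- The action on the vectors. -/
def rho : O →* Equiv.Perm V where
  toFun A :=
    { toFun := fun v => (A.1 : Matrix Idx Idx K) *ᵥ v
      invFun := fun v => ((A⁻¹).1 : Matrix Idx Idx K) *ᵥ v
      left_inv := fun v => by
        show ((A⁻¹).1 : Matrix Idx Idx K) *ᵥ ((A.1 : Matrix Idx Idx K) *ᵥ v) = v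
        rw [Matrix.mulVec_mulVec]
        have : ((A⁻¹).1 : Matrix Idx Idx K) * (A.1 : Matrix Idx Idx K) = 1 :=
          congrArg (fun x : O => (x.1 : Matrix Idx Idx K)) (inv_mul_cancel A)
        rw [this, Matrix.one_mulVec]
      right_inv := fun v => by
        show (A.1 : Matrix Idx Idx K) *ᵥ (((A⁻¹).1 : Matrix Idx Idx K) *ᵥ v) = v
        rw [Matrix.mulVec_mulVec]
        have : (A.1 : Matrix Idx Idx K) * ((A⁻¹).1 : Matrix Idx Idx K) = 1 :=
          congrArg (fun x : O => (x.1 : Matrix Idx Idx K)) (mul_inv_cancel A)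
        rw [this, Matrix.one_mulVec] }
  map_one' := by
    ext v
    simp
  map_mul' A B := by
    ext v
    simp [Matrix.mulVec_mulVec]

theorem rho_apply (A : O) (v : V) : rho A v = (A.1 : Matrix Idx Idx K) *ᵥ v := rfl

theorem rho_inj : Function.Injective rho := by
  intro A B h
  apply Subtype.ext
  apply Units.ext
  apply Matrix.mulVec_injective
  funext v
  exact congrArg (fun f : Equiv.Perm V => f v) h

/-- The matrix of a code: its columns are the images of the basis vectors. -/
def Mc (c : ℕ) : Matrix Idx Idx K := Matrix.of fun i j => dec (Core.app 8 255 c (pw j)) i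

/-- The number of fixed points of a code. -/
def fixCount (c : ℕ) : ℕ := (List.range 256).countP fun i => Nat.beq (Core.app 8 255 c i) i

/-- The check that a code is the action of an element of `Ω`. -/
def checkCode (c : ℕ) : Bool :=
  ((List.range 256).all fun i => Nat.beq (Core.app 8 255 c i) (enc (Mc c *ᵥ dec i))) &&
    ((List.range 256).all fun i => decide (Qf (dec (Core.app 8 255 c i)) = Qf (dec i))) &&
    ((List.range 256).all fun i => (List.range i).all fun j =>
      !(Nat.beq (Core.app 8 255 c i) (Core.app 8 255 c j))) &&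
    decide (fixCount c ∈ [1, 4, 16, 64, 256])

/-- The quadratic form. -/
noncomputable abbrev QQ : QuadraticForm K (Idx → K) := Cfsg.Agent.Lib.Orth.Forms.minusForm 3 K 1 1

theorem hab : ∀ z₁ z₂ : K, z₁ ^ 2 + 1 * z₁ * z₂ + 1 * z₂ ^ 2 = 0 → z₁ = 0 ∧ z₂ = 0 := by decide

theorem nondeg : (QuadraticMap.polarBilin QQ).Nondegenerate :=
  Cfsg.Agent.Lib.Orth.Forms.minusForm_nondeg 3 hab

theorem card_ker (A : Matrix Idx Idx K) : Nat.card (LinearMap.ker A.mulVecLin) = 2 ^ (8 - A.rank) := by
  have h1 := LinearMap.finrank_range_add_finrank_ker A.mulVecLin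
  have h2 : finrank K (Idx → K) = 8 := by
    rw [Module.finrank_fintype_fun_eq_card]; simp
  have h3 : A.rank = finrank K (LinearMap.range A.mulVecLin) := rfl
  have h4 : finrank K (LinearMap.ker A.mulVecLin) = 8 - A.rank := by omega
  rw [Module.natCard_eq_pow_finrank (K := K), h4]
  simp [ZMod.card]

theorem count_eq (c : ℕ) (A : Matrix Idx Idx K) (hA : ∀ v, Core.app 8 255 c (enc v) = enc ((A + 1) *ᵥ v)) :
    Nat.card (LinearMap.ker A.mulVecLin) = fixCount c := by
  classical
  have hmem : ∀ v : V, v ∈ LinearMap.ker A.mulVecLin ↔ Core.app 8 255 c (enc v) = enc v := by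
    intro v
    rw [LinearMap.mem_ker, Matrix.mulVecLin_apply, hA]
    constructor
    · intro h
      rw [Matrix.add_mulVec, h, Matrix.one_mulVec, zero_add]
    · intro h
      have h2 := enc_inj h
      rw [Matrix.add_mulVec, Matrix.one_mulVec] at h2
      exact add_eq_right.1 h2
  have h1 : Nat.card (LinearMap.ker A.mulVecLin) =
      (Finset.univ.filter fun v : V => Core.app 8 255 c (enc v) = enc v).card := by
    refine Nat.subtype_card _ ?_
    intro v
    simp [hmem]
  rw [h1, fixCount, List.countP_eq_length_filter,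
    ← List.toFinset_card_of_nodup (List.nodup_range.filter _), List.toFinset_filter, List.toFinset_range]
  refine Finset.card_bij (fun v _ => enc v) ?_ ?_ ?_
  · intro v hv
    have hv' := (Finset.mem_filter.1 hv).2
    simp only [Finset.mem_filter, Finset.mem_range]
    refine ⟨enc_lt v, ?_⟩
    rw [hv']
    simp
  · intro v _ w _ h
    exact enc_inj h
  · intro i hi
    simp only [Finset.mem_filter, Finset.mem_range] at hi
    have hi2 := enc_dec ⟨i, hi.1⟩
    simp only at hi2
    refine ⟨dec i, ?_, hi2⟩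
    simp only [Finset.mem_filter, Finset.mem_univ, true_and]
    rw [hi2]
    exact Nat.eq_of_beq_eq_true hi.2

theorem even_of (r : ℕ) (hr : r ≤ 8) (h : 2 ^ (8 - r) ∈ [1, 4, 16, 64, 256]) : Even r := by
  interval_cases r <;> first | decide | (exfalso; revert h; decide)

/-- The permutation group. -/
noncomputable abbrev G : Subgroup (Equiv.Perm V) := (rho.comp (Cfsg.Omega K Qf).subtype).range

theorem rep_of_check {c : ℕ} (h : checkCode c = true) : ∃ g ∈ G, Core.Rep 8 255 e c g := by
  simp only [checkCode, Bool.and_eq_true, decide_eq_true_eq, List.all_eq_true, List.mem_range,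
    Bool.not_eq_true', Bool.decide_eq_true] at h
  obtain ⟨⟨⟨h1, h2⟩, h3⟩, h4⟩ := h
  have hA : ∀ v : V, Core.app 8 255 c (enc v) = enc (Mc c *ᵥ v) := by
    intro v
    have := Nat.eq_of_beq_eq_true (h1 (enc v) (enc_lt v))
    rwa [dec_enc] at this
  have hinj : Function.Injective (Mc c).mulVec := by
    intro v w hvw
    have h5 : Core.app 8 255 c (enc v) = Core.app 8 255 c (enc w) := by
      rw [hA, hA]
      exact congrArg enc hvw
    by_contra hne
    have hne' : enc v ≠ enc w := fun h => hne (enc_inj h)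
    rcases lt_or_gt_of_ne hne' with hl | hl
    · have := h3 (enc w) (enc_lt w) (enc v) hl
      rw [h5] at this
      simp at this
    · have := h3 (enc v) (enc_lt v) (enc w) hl
      rw [h5] at this
      simp at this
  have hu : IsUnit (Mc c) := (Matrix.mulVec_injective_iff_isUnit).1 hinj
  let x : GL Idx K := hu.unit
  have hxv : (x : Matrix Idx Idx K) = Mc c := hu.unit_spec
  have hiso : x ∈ Cfsg.isometryGroup K Qf := by
    rw [Cfsg.Agent.Lib.Orth.Bridge.mem_isometryGroup_iff]
    intro v
    rw [hxv]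
    have := h2 (enc v) (enc_lt v)
    rw [hA, dec_enc, dec_enc] at this
    exact this
  have hiso' : x ∈ Cfsg.isometryGroup K ⇑QQ := hiso
  have he : Even ((x : Matrix Idx Idx K) - 1).rank := by
    have h6 := card_ker ((x : Matrix Idx Idx K) - 1)
    have h7 := count_eq c ((x : Matrix Idx Idx K) - 1) (by
      intro v
      rw [hA, hxv, sub_add_cancel])
    rw [h7] at h6
    rw [h6] at h4
    refine even_of _ ?_ h4
    have := Matrix.rank_le_card_width ((x : Matrix Idx Idx K) - 1)
    simpa using this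
  have hom := Cfsg.Agent.Lib.Elusive.OmegaMem.mem_omega_of_even_rank QQ nondeg (Or.inr (by simp)) x hiso' he
  obtain ⟨hx2, hx3⟩ := (Cfsg.Agent.Lib.Elusive.OmegaMem.mem_omegaGL_iff _ x).1 hom
  refine ⟨rho ⟨x, hiso⟩, ⟨⟨⟨x, hiso⟩, hx3⟩, rfl⟩, fun a => ?_⟩
  rw [e_coe, e_coe, rho_apply]
  show _ = enc ((x : Matrix Idx Idx K) *ᵥ a)
  rw [hxv]
  exact hA a

/-- All the codes of the certificates. -/
def allCodes : List ℕ :=
  Cert.O8m2p2.codes ++ Cert.O8m2p2.conj ++ Cert.O8m2p3.codes ++ Cert.O8m2p3.conj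

theorem mem_all : allCodes.all checkCode = true := by decide +kernel

theorem mem' {x : ℕ} (h : x ∈ allCodes) : ∃ g ∈ G, Core.Rep 8 255 e x g :=
  rep_of_check (List.all_eq_true.1 mem_all x h)

theorem rho_O_inj : Function.Injective (rho.comp (Cfsg.Omega K Qf).subtype) :=
  rho_inj.comp (Subgroup.subtype_injective _)

/-- `Ω` is the permutation group. -/
noncomputable def equivOmega : Cfsg.Omega K Qf ≃* G := MonoidHom.ofInjective rho_O_inj

theorem card_center_Omega : Nat.card (Subgroup.center (Cfsg.Omega K Qf)) = 1 :=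
  Cfsg.Agent.Lib.Classical.QuadEichBridge.card_center_of_two QQ nondeg (by simp) (by decide)

theorem card_POmega : Nat.card (Cfsg.POmega K Qf) = 197406720 := by
  have h := Cfsg.Agent.Lib.Classical.QuadEichBridge.card_POmega_minus (F := K) (q := 2)
    (by simp [ZMod.card]) 4 le_rfl 1 1 hab
  norm_num [Finset.prod_range_succ] at h
  exact h

theorem card_Omega : Nat.card (Cfsg.Omega K Qf) = 197406720 := by
  have h := Subgroup.card_eq_card_quotient_mul_card_subgroup (Subgroup.center (Cfsg.Omega K Qf))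
  have h2 : Nat.card (↥(Cfsg.Omega K Qf) ⧸ Subgroup.center (Cfsg.Omega K Qf)) = 197406720 := card_POmega
  rw [h2, card_center_Omega] at h
  simpa using h

theorem card_G : Nat.card G = 197406720 := by
  rw [← card_Omega]
  exact (Nat.card_congr equivOmega.toEquiv).symm

theorem not_sq_dvd {p : ℕ} (hp : p.Prime) (h2 : p ≠ 2) (h3 : p ≠ 3) : ¬ p ^ 2 ∣ 197406720 := by
  intro h
  have hc : Nat.Coprime (p ^ 2) (2 ^ 12 * 3 ^ 4) := by
    apply Nat.Coprime.pow_left
    apply Nat.Coprime.mul_right
    · exact Nat.Coprime.pow_right _ ((Nat.coprime_primes hp Nat.prime_two).2 h2)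
    · exact Nat.Coprime.pow_right _ ((Nat.coprime_primes hp Nat.prime_three).2 h3)
  have h4 : p ^ 2 ∣ 595 := by
    have : 197406720 = (2 ^ 12 * 3 ^ 4) * 595 := by norm_num
    rw [this] at h
    exact hc.dvd_of_dvd_mul_left h
  have h5' := Nat.le_of_dvd (by norm_num) h4
  have h6 : p ≤ 24 := by nlinarith
  interval_cases p
  all_goals first | omega | (norm_num at hp; done) | (norm_num at h4; done)

universe u

theorem bound (Γ : Type u) [Group Γ] [Finite Γ] (σ : Γ →* G) (hσ : IsStemExtension σ) :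
    Nat.card σ.ker ∣ 1 := by
  refine card_ker_dvd_of_sylow hσ 1 (by norm_num) ?_
  intro p _ P
  by_cases hp2 : p = 2
  · subst hp2
    exact card_ker_dvd (n := 256) (w := 8) (mask := 255) (idc := Cert.O8m2p2.cidc) (e := e) (p := 2) G
      Cert.O8m2p2.C Cert.O8m2p2.check_ok Cert.O8m2p2.codes Cert.O8m2p2.conj Cert.O8m2p2.base Cert.O8m2p2.ord
      Cert.O8m2p2.chk_ok
      (fun x hx => mem' (by simp only [allCodes, List.mem_append]; exact Or.inl (Or.inl (Or.inl hx))))
      (fun x hx => mem' (by simp only [allCodes, List.mem_append]; exact Or.inl (Or.inl (Or.inr hx))))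
      rfl hσ (m := 48195) (by rw [card_G]; decide +kernel) (by norm_num) P
  by_cases hp3 : p = 3
  · subst hp3
    exact card_ker_dvd (n := 256) (w := 8) (mask := 255) (idc := Cert.O8m2p3.cidc) (e := e) (p := 3) G
      Cert.O8m2p3.C Cert.O8m2p3.check_ok Cert.O8m2p3.codes Cert.O8m2p3.conj Cert.O8m2p3.base Cert.O8m2p3.ord
      Cert.O8m2p3.chk_ok
      (fun x hx => mem' (by simp only [allCodes, List.mem_append]; exact Or.inl (Or.inr hx)))
      (fun x hx => mem' (by simp only [allCodes, List.mem_append]; exact Or.inr hx))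
      rfl hσ (m := 2437120) (by rw [card_G]; decide +kernel) (by norm_num) P
  · refine card_ker_sylow_of_not_sq_dvd hσ ?_ P
    rw [card_G]
    exact not_sq_dvd Fact.out hp2 hp3

theorem form_map {F : Type*} [Field F] (f : F ≃+* K) (v : (Fin 3 ⊕ Fin 3) ⊕ Fin 2 → F) :
    Qf (Cfsg.Agent.Lib.PermRepO.Transfer.mapV (f : F →+* K) v) = f (Cfsg.quadFormMinus 3 F 1 1 v) := by
  simp [Cfsg.quadFormMinus, Cfsg.Agent.Lib.PermRepO.Transfer.mapV, map_sum, map_mul, map_add, map_pow]

theorem field_two {F : Type*} [Field F] (f : F ≃+* K) (x : F) : x = 0 ∨ x = 1 := by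
  have h : ∀ y : K, y = 0 ∨ y = 1 := by decide
  rcases h (f x) with h1 | h1
  · left; exact f.injective (by rw [h1, map_zero])
  · right; exact f.injective (by rw [h1, map_one])

/-- The stem extensions are trivial. -/
theorem main {F : Type u} [Field F] [Fintype F] (hF : Fintype.card F = 2) {a b : F}
    (hab' : ∀ z₁ z₂ : F, z₁ ^ 2 + a * z₁ * z₂ + b * z₂ ^ 2 = 0 → z₁ = 0 ∧ z₂ = 0) {Γ : Type u} [Group Γ] [Finite Γ]
    {σ : Γ →* Cfsg.Omega F (Cfsg.quadFormMinus 3 F a b)} (hσ : IsStemExtension σ) {z : Γ} (hz : σ z = 1) : z = 1 := by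
  let f : F ≃+* K := FiniteField.ringEquivOfCardEq (by rw [hF, ZMod.card])
  have h11 : (1 : F) + 1 = 0 := f.injective (by rw [map_add, map_one, map_zero]; decide)
  have hb : b = 1 := by
    rcases field_two f b with h | h
    · exfalso
      have := (hab' 0 1 (by simp [h])).2
      exact one_ne_zero this
    · exact h
  have ha : a = 1 := by
    rcases field_two f a with h | h
    · exfalso
      have := (hab' 1 1 (by rw [h, hb]; simp [h11])).2
      exact one_ne_zero this
    · exact h
  subst ha hb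
  let I := Cfsg.Agent.Lib.PermRepO.Transfer.isoCongr f (Cfsg.quadFormMinus 3 F 1 1) Qf (form_map f)
  let J : Cfsg.Omega F (Cfsg.quadFormMinus 3 F 1 1) ≃* Cfsg.Omega K Qf :=
    { toFun := fun s => ⟨I s.1, (Cfsg.Agent.Lib.Orth.Bridge.mem_commutator_equiv I s.1).1 s.2⟩
      invFun := fun s => ⟨I.symm s.1, (Cfsg.Agent.Lib.Orth.Bridge.mem_commutator_equiv I _).2 (by simp)⟩
      left_inv := fun s => by
        apply Subtype.ext
        simp
      right_inv := fun s => by
        apply Subtype.ext
        simp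
      map_mul' := fun s t => by
        apply Subtype.ext
        simp }
  let E : Cfsg.Omega F (Cfsg.quadFormMinus 3 F 1 1) ≃* G := J.trans equivOmega
  have hτ := Cfsg.Agent.Lib.Schur.SpStem.stem_comp hσ E
  have h1 := bound Γ _ hτ
  have h2 : Nat.card (E.toMonoidHom.comp σ).ker = 1 := Nat.dvd_one.1 h1
  have h3 : Subsingleton (E.toMonoidHom.comp σ).ker := (Nat.card_eq_one_iff_unique.mp h2).1
  have h4 : z ∈ (E.toMonoidHom.comp σ).ker := by
    rw [MonoidHom.mem_ker, MonoidHom.comp_apply, hz, map_one]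
  exact congrArg Subtype.val (Subsingleton.elim (⟨z, h4⟩ : (E.toMonoidHom.comp σ).ker) 1)

end Cfsg.Agent.Lib.MinStem.Exc8Aux

namespace Cfsg.Agent.Lib.MinStem

open Cfsg Subgroup

universe u

theorem exc8 {F : Type u} [Field F] [Fintype F] (hF : Fintype.card F = 2) {a b : F}
    (hab : ∀ z₁ z₂ : F, z₁ ^ 2 + a * z₁ * z₂ + b * z₂ ^ 2 = 0 → z₁ = 0 ∧ z₂ = 0) {Γ : Type u} [Group Γ] [Finite Γ]
    {σ : Γ →* Omega F (quadFormMinus 3 F a b)} (hσ : IsStemExtension σ) {z : Γ} (hz : σ z = 1) : z = 1 :=
  Exc8Aux.main hF hab hσ hz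

end Cfsg.Agent.Lib.MinStem
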