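import Cfsg.Agent.Lib.MinStem.Target
import Cfsg.Agent.Lib.Schur.SLnStem2

/-!
# S2099: the Levi section in a central extension of `Ω⁻_{2n+2}(F)`

`T_ij(c) = E(e_i, c f_j)`. With `Y_i(z) = E(e_i, z)`, `P_j(w) = E(f_j, w)`, `z, w` in the anisotropic part:
`⁅Y_i(z), P_j(w)⁆ = T_ij(-pol(w, z))`, and `T_kl` commutes in `G` with `Y_i(z)` if `i ≠ l` and with `P_j(w)` if `j ≠ k`.
So every lift of `T_kl(b)` commutes with every lift of `T_ij(a)` if `j ≠ k`, `i ≠ l` (`comm_lift_T`, `lc_pi`): no exception in `n`, `q`.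
With `SLnStem.exists_rel` and `StSLn.inj_all` this gives the section over the Levi subgroup in characteristic two
(`exists_lam_char2`), including `(n, q) = (3, 2), (3, 4), (4, 2)`: the balancing condition
`⁅T_ik(a), T_kj(b)⁆ = ⁅T_ik(ab), T_kj(1)⁆` follows by conjugating with a lift of the torus element `e_k ↦ v² e_k, f_k ↦ v⁻² f_k`, `v² = b⁻¹`.
-/

set_option autoImplicit false
set_option linter.unusedSectionVars false
set_option linter.unusedVariables false
set_option linter.unusedSimpArgs false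

namespace Cfsg.Agent.Lib.MinStem.ExcLam

open Matrix Cfsg Subgroup Cfsg.Geo
open Cfsg.Agent.Lib.PresOm Cfsg.Agent.Lib.PresSp.M2 Cfsg.Agent.Lib.PresSp.Mono Cfsg.Agent.Lib.PresSLn.TwoGen
  Cfsg.Agent.Lib.GeoOmega.Eichler Cfsg.Agent.Lib.QuadFn Cfsg.Agent.Lib.Geo.Basic Cfsg.Agent.Lib.Geo.QForm
  Cfsg.Agent.Lib.MinStem
open Cfsg.Agent.Lib.Classical.StSLn (Rel Xc pG x_mem Xc_le inj_all)
open scoped commutatorElement

universe u

section generic

variable {ι : Type*} [Fintype ι] [DecidableEq ι] {F : Type*} [Field F] [Fintype F] {Γ G : Type*} [Group Γ] [Group G]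
  {σ : Γ →* G}

/-- A Levi section from the lifted Steinberg relations. -/
theorem section_of_LC (hcen : σ.ker ≤ center Γ) (hs : Function.Surjective σ) (hn : 3 ≤ Fintype.card ι)
    (ρ : SpecialLinearGroup ι F →* G) (hρ : Function.Injective ρ)
    (hC : Cfsg.Agent.Lib.Schur.SLnStem.LC σ (fun i j a => ρ (Cfsg.Agent.Lib.Schur.SLnStem.tt i j a)))
    (hPQ : ∀ (L : G → Γ), (∀ g, σ (L g) = g) → ∀ i k j, i ≠ k → k ≠ j → i ≠ j → ∀ a b : F,
      ⁅L (ρ (Cfsg.Agent.Lib.Schur.SLnStem.tt i k a)), L (ρ (Cfsg.Agent.Lib.Schur.SLnStem.tt k j b))⁆ =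
        ⁅L (ρ (Cfsg.Agent.Lib.Schur.SLnStem.tt i k (a * b))), L (ρ (Cfsg.Agent.Lib.Schur.SLnStem.tt k j 1))⁆) :
    ∃ lam : SpecialLinearGroup ι F →* Γ, ∀ l, σ (lam l) = ρ l := by
  classical
  let t : ι → ι → F → G := fun i j a => ρ (Cfsg.Agent.Lib.Schur.SLnStem.tt i j a)
  have tR : Rel t := by
    refine ⟨?_, ?_, ?_⟩
    · intro i j h a b
      simp only [t]
      rw [Cfsg.Agent.Lib.Schur.SLnStem.tt_add h, map_mul]
    · intro i j k l hij hkl hjk hil a b
      simp only [t]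
      rw [← map_mul, ← map_mul, Cfsg.Agent.Lib.Schur.SLnStem.tt_comm hij hkl hjk hil]
    · intro i j l hij hjl hil a b
      have := (Cfsg.Agent.Lib.Schur.SLnStem.tt_rel (ι := ι) (F := F)).comm2 i j l hij hjl hil a b
      simp only [t]
      rw [← this]
      simp only [map_mul, map_inv]
  let L : G → Γ := Function.surjInv hs
  have hL : ∀ g, σ (L g) = g := Function.surjInv_eq hs
  have h3 : ∀ i j : ι, ∃ k, k ≠ i ∧ k ≠ j := by
    intro i j
    obtain ⟨k, h1, h2⟩ := Cfsg.Agent.Lib.Classical.Transvections.exists_third_index hn i j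
    exact ⟨k, h1.symm, h2⟩
  have hPQ' : ∀ i k j m, i ≠ k → k ≠ j → i ≠ j → i ≠ m → m ≠ j → ∀ a b : F,
      ⁅L (t i k a), L (t k j b)⁆ = ⁅L (t i m (a * b)), L (t m j 1)⁆ := by
    intro i k j m hik hkj hij him hmj a b
    by_cases hkm : k = m
    · subst hkm
      exact hPQ L hL i k j hik hkj hij a b
    · exact Cfsg.Agent.Lib.Schur.SLnStem.hPQ_of_ne hcen tR hC L hL hik hkj hij him hmj hkm a b
  obtain ⟨x, hR, hx⟩ := Cfsg.Agent.Lib.Schur.SLnStem.exists_rel hcen hs tR h3 hC L hL hPQ'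
  let H : Subgroup Γ := (ρ.range).comap σ
  let e := MonoidHom.ofInjective hρ
  let φ : H →* SpecialLinearGroup ι F := e.symm.toMonoidHom.comp (σ.subgroupComap _)
  have hφ : ∀ y : H, ρ (φ y) = σ y := by
    intro y
    have h1 := e.apply_symm_apply (σ.subgroupComap _ y)
    exact congrArg Subtype.val h1
  have hxH : ∀ i j a, i ≠ j → x i j a ∈ H := by
    intro i j a hij
    rw [Subgroup.mem_comap, hx i j a hij]
    exact ⟨_, rfl⟩
  let x' : ι → ι → F → H := fun i j a => if h : i ≠ j then ⟨x i j a, hxH i j a h⟩ else 1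
  have hx' : ∀ i j a (h : i ≠ j), ((x' i j a : H) : Γ) = x i j a := by
    intro i j a h
    simp only [x', dif_pos h]
  have hR' : Rel x' := by
    refine ⟨?_, ?_, ?_⟩
    · intro i j h t u
      apply Subtype.ext
      rw [Subgroup.coe_mul, hx' _ _ _ h, hx' _ _ _ h, hx' _ _ _ h]
      exact hR.add i j h t u
    · intro i j k l hij hkl hjk hil t u
      apply Subtype.ext
      rw [Subgroup.coe_mul, Subgroup.coe_mul, hx' _ _ _ hij, hx' _ _ _ hkl]
      exact hR.comm i j k l hij hkl hjk hil t u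
    · intro i j l hij hjl hil t u
      apply Subtype.ext
      rw [Subgroup.coe_mul, Subgroup.coe_mul, Subgroup.coe_mul, Subgroup.coe_inv, Subgroup.coe_inv,
        hx' _ _ _ hij, hx' _ _ _ hjl, hx' _ _ _ hil]
      exact hR.comm2 i j l hij hjl hil t u
  have hφx : ∀ i j (h : i ≠ j) t, φ (x' i j t) = Cfsg.Agent.Lib.Schur.SLnStem.tt i j t := by
    intro i j h t
    apply hρ
    rw [hφ, hx' _ _ _ h, hx i j t h]
  have hinj := inj_all φ hR' (fun i j hij t => by rw [hφx i j hij t, Cfsg.Agent.Lib.Schur.SLnStem.tt_coe hij]) h3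
    Finset.univ
  let φ' : Xc x' (pG Finset.univ) →* SpecialLinearGroup ι F := φ.comp (Xc x' (pG Finset.univ)).subtype
  have hbij : Function.Bijective φ' := by
    constructor
    · rw [injective_iff_map_eq_one]
      rintro ⟨y, hy⟩ hy1
      exact Subtype.ext (hinj y hy hy1)
    · have hNon : Nontrivial ι := Fintype.one_lt_card_iff_nontrivial.1 (by omega)
      rw [← MonoidHom.range_eq_top, eq_top_iff,
        ← Cfsg.Agent.Lib.Classical.Transvections.closure_transvections_eq_top (F := F), Subgroup.closure_le]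
      rintro _ ⟨i, j, hij, a, rfl⟩
      refine ⟨⟨x' i j a, x_mem hij ⟨Finset.mem_univ _, Finset.mem_univ _⟩ a⟩, ?_⟩
      change φ (x' i j a) = _
      rw [hφx i j hij a, Cfsg.Agent.Lib.Schur.SLnStem.tt_of_ne hij]
  let E := MulEquiv.ofBijective φ' hbij
  refine ⟨H.subtype.comp ((Xc x' (pG Finset.univ)).subtype.comp E.symm.toMonoidHom), fun l => ?_⟩
  have h1 : φ' (E.symm l) = l := E.apply_symm_apply l
  calc σ ((H.subtype.comp ((Xc x' (pG Finset.univ)).subtype.comp E.symm.toMonoidHom)) l)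
      = σ (((E.symm l : Xc x' (pG Finset.univ)) : H) : Γ) := rfl
    _ = ρ (φ ((E.symm l : Xc x' (pG Finset.univ)) : H)) := (hφ _).symm
    _ = ρ l := by
      congr 1

end generic

section minus

variable {n : ℕ} {F : Type*} {K : Type*} [Field F] [Field K] [Algebra F K] [QCj K] [QF F K] {a b : F}

local notation "QM" => quadFormMinus n F a b

variable [Fintype F]

lemma zOf_uM' (C : QC F K a b) (z : K) : zOf C (uM C z : VM n → F) = z := by
  simp only [zOf]
  have : (fun t => (uM C z : VM n → F) (Sum.inr t)) = C.co z := by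
    funext t
    rfl
  rw [this, LinearEquiv.symm_apply_apply]

/-- The Levi root elements fix the vectors with two vanishing coordinates. -/
lemma T_fix (C : QC F K a b) {k l : Fin n} (hkl : k ≠ l) (c : F) {x : VM n → F} (h1 : x (Sum.inl (Sum.inl l)) = 0)
    (h2 : x (Sum.inl (Sum.inr k)) = 0) : (levM (TT hkl c)).1 *ᵥ x = x := by
  rw [eich_T hkl c x, pol_smul_right (nd_M C), pol_fM, pol_eM, h1, h2]
  simp

lemma conj_of_fix {g h : GeneralLinearGroup (VM n) F} {p v : VM n → F} (hg : Eich (QM) g p v)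
    (hh : h ∈ isometryGroup F (QM)) (h1 : h.1 *ᵥ p = p) (h2 : h.1 *ᵥ v = v) : h * g = g * h := by
  have h3 := hg.conj hh
  rw [h1, h2] at h3
  have h4 := Eich.unique' h3 hg
  exact mul_inv_eq_iff_eq_mul.1 h4

/-- `⁅E(e_i, z), E(f_j, w)⁆ = T_ij(- Tr (w z̄))`. -/
lemma comm_YP (C : QC F K a b) {i j : Fin n} (h : i ≠ j) (z w : K) {g₁ g₂ : GeneralLinearGroup (VM n) F}
    (h₁ : Eich (QM) g₁ (eM i) (uM C z)) (h₂ : Eich (QM) g₂ (fM j) (uM C w)) :
    g₁ * g₂ * g₁⁻¹ * g₂⁻¹ = levM (TT h (- tr (w * cj z))) := by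
  have hQ := nd_M (n := n) C
  have iso₁ : g₁ ∈ isometryGroup F (QM) := h₁.mem_isometry hQ (Q_eM i) (pol_eM_uM' C i z)
  set c : F := tr (w * cj z) with hc
  have h3 := h₂.conj iso₁
  have e1 : g₁.1 *ᵥ fM j = (fM j : VM n → F) := by
    rw [h₁ (fM j), pol_uM, zOf_fM', pol_eM]
    simp [fM, Pi.single_apply, tr_zero (F := F) (K := K), h]
  have e2 : g₁.1 *ᵥ uM C w = uM C w + c • (eM i : VM n → F) := by
    rw [h₁ (uM C w), pol_uM, zOf_uM', pol_eM]
    have : (uM C w : VM n → F) (Sum.inl (Sum.inr i)) = 0 := rfl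
    rw [this]
    simp [hc]
  rw [e1, e2, add_comm] at h3
  have h4 : Eich (QM) (levM (TT h (-c))) (fM j) (c • (eM i : VM n → F)) := by
    intro x
    rw [eich_T h (-c) x, pol_smul_right hQ, pol_smul_right hQ, hQ.smul, hQ.smul, Q_fM, Q_eM]
    simp only [mul_zero, zero_mul, zero_smul, sub_zero]
    module
  have hf1 : pol (QM) (fM j) (c • (eM i : VM n → F)) = 0 := by
    rw [pol_smul_right hQ, pol_eM]
    simp [fM, Pi.single_apply, Ne.symm h]
  have h5 := h4.mul hQ h₂ (Q_fM j) hf1 (pol_fM_uM' C j w)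
  have h6 := Eich.unique' h3 h5
  rw [h6]
  group

/-- A lift of an isometry fixing `e_i`, `f_j` and the anisotropic part commutes with every lift of `T_ij(c)`. -/
theorem comm_lift_T (C : QC F K a b) (hn : 3 ≤ n) {Γ : Type*} [Group Γ] {π : Γ →* GeneralLinearGroup (VM n) F}
    (hcen : π.ker ≤ center Γ) (hr : omegaGL (QM) ≤ π.range) {i j : Fin n} (hij : i ≠ j) (c : F) {A B : Γ}
    (hA : π A = levM (TT hij c)) (hB : π B ∈ isometryGroup F (QM)) (he : (π B).1 *ᵥ eM i = (eM i : VM n → F))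
    (hf : (π B).1 *ᵥ fM j = (fM j : VM n → F)) (hu : ∀ z : K, (π B).1 *ᵥ uM C z = (uM C z : VM n → F)) : A * B = B * A := by
  classical
  obtain ⟨w, hw⟩ := QF.tr_surj (K := K) (- c)
  have h₁ : Eich (QM) (blk C i (uu (1 : K))) (eM i) (uM C (1 : K)) := eich_Y C i 1
  have h₂ : Eich (QM) (blk C j (ll (- cj w))) (fM j) (uM C w) := by
    have := eich_L (n := n) C j (- cj w)
    simpa using this
  obtain ⟨Y, hY⟩ := hr (blk_mem_omega C hn i (uu (1 : K)))
  obtain ⟨P, hP⟩ := hr (blk_mem_omega C hn j (ll (- cj w)))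
  have hc : π ⁅Y, P⁆ = π A := by
    rw [Cfsg.Agent.Lib.Schur.SLnStem.map_comm, hY, hP, comm_YP C hij 1 w h₁ h₂, hA]
    congr 3
    simp [hw]
  have h2 : B * ⁅Y, P⁆ = ⁅Y, P⁆ * B := by
    apply Cfsg.Agent.Lib.Schur.SLnStem.comm_comm hcen
    · rw [hY]
      exact conj_of_fix h₁ hB he (hu 1)
    · rw [hP]
      exact conj_of_fix h₂ hB hf (hu w)
  have h3 : ⁅A, B⁆ = ⁅⁅Y, P⁆, B⁆ := Cfsg.Agent.Lib.Schur.SLnStem.comm_eq hcen hc.symm rfl
  have h4 : ⁅⁅Y, P⁆, B⁆ = 1 := commutatorElement_eq_one_iff_mul_comm.2 h2.symm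
  rw [h4] at h3
  exact commutatorElement_eq_one_iff_mul_comm.1 h3

/-- The condition `LC`: lifts of `T_ij` and `T_kl` commute if `j ≠ k`, `i ≠ l`. -/
theorem lc_pi (C : QC F K a b) (hn : 3 ≤ n) {Γ : Type*} [Group Γ] {π : Γ →* GeneralLinearGroup (VM n) F}
    (hcen : π.ker ≤ center Γ) (hr : omegaGL (QM) ≤ π.range) {i j k l : Fin n} (hij : i ≠ j) (hkl : k ≠ l) (hjk : j ≠ k)
    (hil : i ≠ l) (c d : F) {A B : Γ} (hA : π A = levM (TT hij c)) (hB : π B = levM (TT hkl d)) : A * B = B * A := by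
  refine comm_lift_T C hn hcen hr hij c hA (by rw [hB]; exact levM_mem_iso _) ?_ ?_ ?_
  · rw [hB]
    apply T_fix C hkl d
    · simp [eM, Pi.single_apply, hil]
    · simp [eM, Pi.single_apply]
  · rw [hB]
    apply T_fix C hkl d
    · simp [fM, Pi.single_apply]
    · simp [fM, Pi.single_apply, hjk]
  · intro z
    rw [hB]
    exact T_fix C hkl d rfl rfl

/-- The torus element at `k` attached to `v ∈ Fˣ`. -/
noncomputable def hv (C : QC F K a b) (k : Fin n) (v : Fˣ) : GeneralLinearGroup (VM n) F := blk C k (dd (kF v))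

lemma hv_eM (C : QC F K a b) (k : Fin n) (v : Fˣ) : (hv C k v).1 *ᵥ eM k = ((v : F) ^ 2) • (eM k : VM n → F) := by
  have h := blk_vec (n := n) C k (dd (kF v)) (1 : F) (0 : K) (0 : F)
  have e0 : (uM C (0 : K) : VM n → F) = 0 := uM_zero' C
  simp only [one_smul, e0, add_zero, zero_smul] at h
  rw [hv, h]
  simp [coe_kF, nm_alg, nm_zero (F := F) (K := K), e0]

lemma hv_fM (C : QC F K a b) (k : Fin n) (v : Fˣ) :
    (hv C k v).1 *ᵥ fM k = (((v⁻¹ : Fˣ) : F) ^ 2) • (fM k : VM n → F) := by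
  have h := blk_vec (n := n) C k (dd (kF v)) (0 : F) (0 : K) (1 : F)
  have e0 : (uM C (0 : K) : VM n → F) = 0 := uM_zero' C
  simp only [one_smul, e0, add_zero, zero_smul, zero_add] at h
  rw [hv, h]
  simp only [adX_dd, adZ_dd, adY_dd, coe_kF_inv, nm_alg, mul_zero, mul_one, map_zero, e0, zero_smul, add_zero, zero_add]

lemma hv_uM (C : QC F K a b) (k : Fin n) (v : Fˣ) (z : K) : (hv C k v).1 *ᵥ uM C z = (uM C z : VM n → F) := by
  have h := blk_vec (n := n) C k (dd (kF v)) (0 : F) z (0 : F)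
  simp only [zero_smul, zero_add, add_zero] at h
  rw [hv, h]
  have h1 : adZ (dd (kF v)) (0 : F) z (0 : F) = z := by
    rw [adZ_dd, coe_kF_inv, coe_kF, cj_alg', ← map_mul]
    simp
  rw [h1]
  simp

lemma hv_iso (C : QC F K a b) (k : Fin n) (v : Fˣ) : hv C k v ∈ isometryGroup F (QM) := blk_mem_iso C k _

/-- The conjugate of `T_ik(α)` by the torus element at `k`. -/
lemma hv_T_left (C : QC F K a b) {i k : Fin n} (hik : i ≠ k) (v : Fˣ) (α : F) :
    hv C k v * levM (TT hik α) * (hv C k v)⁻¹ = levM (TT hik (α * ((v⁻¹ : Fˣ) : F) ^ 2)) := by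
  have h := (eich_T hik α).conj (hv_iso C k v)
  have e1 : (hv C k v).1 *ᵥ eM i = (eM i : VM n → F) := blk_eM_ne C hik _
  rw [e1, Matrix.mulVec_smul, hv_fM, smul_smul] at h
  exact Eich.unique' h (eich_T hik _)

/-- The conjugate of `T_kj(β)` by the torus element at `k`. -/
lemma hv_T_right (C : QC F K a b) {k j : Fin n} (hkj : k ≠ j) (v : Fˣ) (β : F) :
    hv C k v * levM (TT hkj β) * (hv C k v)⁻¹ = levM (TT hkj ((v : F) ^ 2 * β)) := by
  have h := (eich_T hkj β).conj (hv_iso C k v)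
  have e1 : (hv C k v).1 *ᵥ fM j = (fM j : VM n → F) := blk_fM_ne C (Ne.symm hkj) _
  rw [hv_eM, Matrix.mulVec_smul, e1] at h
  have h2 := Eich.smul (nd_M C) _ h
  rw [smul_smul] at h2
  exact Eich.unique' h2 (eich_T hkj _)

/-- The Levi section in characteristic two. No exceptions: `(n, q) = (3, 2), (3, 4), (4, 2)` are included. -/
theorem exists_lam_char2 (C : QC F K a b) (h2 : (2 : F) = 0) (hn : 3 ≤ n) {Γ : Type*} [Group Γ] {σ : Γ →* Omega F (QM)}
    (hs : Function.Surjective σ) (hcen : σ.ker ≤ center Γ) :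
    ∃ lam : SpecialLinearGroup (Fin n) F →* Γ, ∀ l, iOm (σ (lam l)) = levM l := by
  classical
  let e := MonoidHom.ofInjective (iOm_inj (n := n) (F := F) (a := a) (b := b))
  let ρ : SpecialLinearGroup (Fin n) F →* Omega F (QM) :=
    e.symm.toMonoidHom.comp ((levM : SpecialLinearGroup (Fin n) F →* _).codRestrict (iOm (n := n) (F := F) (a := a) (b := b)).range
      (fun l => by rw [iOm_range]; exact levM_mem_omega C hn l))
  have hρ : ∀ l, iOm (ρ l) = levM l := by
    intro l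
    have h1 := e.apply_symm_apply ((levM : SpecialLinearGroup (Fin n) F →* _).codRestrict (iOm (n := n) (F := F) (a := a) (b := b)).range
      (fun l => by rw [iOm_range]; exact levM_mem_omega C hn l) l)
    exact congrArg Subtype.val h1
  have hρi : Function.Injective ρ := by
    intro l l' h
    have h1 : (levM l : GeneralLinearGroup (VM n) F) = levM l' := by
      rw [← hρ, ← hρ, h]
    have h2 := congrArg Units.val h1
    rw [coe_levM, coe_levM] at h2
    have h3 := (Matrix.fromBlocks_inj.1 h2).1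
    exact Subtype.ext (Matrix.fromBlocks_inj.1 h3).1
  let π : Γ →* GeneralLinearGroup (VM n) F := iOm.comp σ
  have hπ : ∀ x, π x = iOm (σ x) := fun _ => rfl
  have hker : π.ker ≤ center Γ := by
    intro x hx
    apply hcen
    rw [MonoidHom.mem_ker]
    apply iOm_inj (n := n) (F := F) (a := a) (b := b)
    rw [map_one]
    exact hx
  have hr : omegaGL (QM) ≤ π.range := by
    rw [← iOm_range]
    rintro _ ⟨y, rfl⟩
    obtain ⟨x, rfl⟩ := hs y
    exact ⟨x, rfl⟩
  have hρt : ∀ {i j : Fin n} (h : i ≠ j) (c : F), iOm (ρ (Cfsg.Agent.Lib.Schur.SLnStem.tt i j c)) = levM (TT h c) := by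
    intro i j h c
    rw [hρ, Cfsg.Agent.Lib.Schur.SLnStem.tt_of_ne h]
  have hC : Cfsg.Agent.Lib.Schur.SLnStem.LC σ (fun i j c => ρ (Cfsg.Agent.Lib.Schur.SLnStem.tt i j c)) := by
    intro i j k l hij hkl hjk hil c d A B hA hB
    refine lc_pi C hn hker hr hij hkl hjk hil c d ?_ ?_
    · rw [hπ, hA, hρt]
    · rw [hπ, hB, hρt]
  have hcen' : ∀ {x y : Γ}, σ x = 1 → ⁅x, y⁆ = 1 := by
    intro x y hx
    have := mem_center_iff.1 (hcen hx) y
    exact commutatorElement_eq_one_iff_mul_comm.2 this.symm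
  have hcen'' : ∀ {x y : Γ}, σ x = 1 → ⁅y, x⁆ = 1 := by
    intro x y hx
    have := mem_center_iff.1 (hcen hx) y
    exact commutatorElement_eq_one_iff_mul_comm.2 this
  have htt0 : ∀ {i j : Fin n} (h : i ≠ j), ρ (Cfsg.Agent.Lib.Schur.SLnStem.tt i j (0 : F)) = 1 := by
    intro i j h
    have h1 := Cfsg.Agent.Lib.Schur.SLnStem.tt_add (F := F) h 0 0
    rw [add_zero] at h1
    have h2 : Cfsg.Agent.Lib.Schur.SLnStem.tt i j (0 : F) = 1 := mul_eq_left.1 h1.symm
    rw [h2, map_one]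
  obtain ⟨lam, hlam⟩ := section_of_LC (ι := Fin n) (F := F) hcen hs (by simpa using hn) ρ hρi hC (by
    intro L hL i k j hik hkj hij α β
    by_cases hβ : β = 0
    · subst hβ
      rw [mul_zero, htt0 hik, htt0 hkj]
      rw [hcen'' (y := L (ρ (Cfsg.Agent.Lib.Schur.SLnStem.tt i k α))) (by rw [hL]), hcen' (y := L (ρ (Cfsg.Agent.Lib.Schur.SLnStem.tt k j 1))) (by rw [hL])]
    · -- the torus element
      have hsq : ∃ v : Fˣ, (v : F) ^ 2 = β⁻¹ := by
        have hc : ringChar F = 2 := by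
          have := CharTwo.of_one_ne_zero_of_two_eq_zero (R := F) one_ne_zero h2
          exact ringChar.eq F 2
        obtain ⟨r, hr'⟩ := FiniteField.isSquare_of_char_two hc β⁻¹
        have hr0 : r ≠ 0 := by
          rintro rfl
          rw [mul_zero] at hr'
          exact inv_ne_zero hβ hr'
        exact ⟨Units.mk0 r hr0, by simp [hr', sq]⟩
      obtain ⟨v, hv2⟩ := hsq
      obtain ⟨H, hH⟩ := hr (blk_mem_omega C hn k (dd (kF v)))
      have hH' : π H = hv C k v := hH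
      set X := ⁅L (ρ (Cfsg.Agent.Lib.Schur.SLnStem.tt i k α)), L (ρ (Cfsg.Agent.Lib.Schur.SLnStem.tt k j β))⁆ with hX
      set a₁ := L (ρ (Cfsg.Agent.Lib.Schur.SLnStem.tt i k α)) with ha₁
      set b₁ := L (ρ (Cfsg.Agent.Lib.Schur.SLnStem.tt k j β)) with hb₁
      have hπa : π a₁ = levM (TT hik α) := by rw [hπ, ha₁, hL, hρt]
      have hπb : π b₁ = levM (TT hkj β) := by rw [hπ, hb₁, hL, hρt]
      -- `X` lifts `T_ij(αβ)`
      have hπX : π X = levM (TT hij (α * β)) := by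
        rw [hX, Cfsg.Agent.Lib.Schur.SLnStem.map_comm, hπa, hπb]
        have h3 := (Cfsg.Agent.Lib.Schur.SLnStem.tt_rel (ι := Fin n) (F := F)).comm2 i k j hik hkj hij α β
        rw [Cfsg.Agent.Lib.Schur.SLnStem.tt_of_ne hik, Cfsg.Agent.Lib.Schur.SLnStem.tt_of_ne hkj,
          Cfsg.Agent.Lib.Schur.SLnStem.tt_of_ne hij] at h3
        have h4 := congrArg (levM : SpecialLinearGroup (Fin n) F →* GeneralLinearGroup (VM n) F) h3
        simp only [map_mul, map_inv] at h4
        exact h4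
      have hcomm : X * H = H * X := by
        refine comm_lift_T C hn hker hr hij (α * β) hπX ?_ ?_ ?_ ?_
        · rw [hH']
          exact hv_iso C k v
        · rw [hH']
          exact blk_eM_ne C hik _
        · rw [hH']
          exact blk_fM_ne C (Ne.symm hkj) _
        · intro z
          rw [hH']
          exact hv_uM C k v z
      have hv3 : ((v⁻¹ : Fˣ) : F) ^ 2 = β := by
        rw [Units.val_inv_eq_inv_val, inv_pow, hv2, inv_inv]
      have e1 : σ (H * a₁ * H⁻¹) = σ (L (ρ (Cfsg.Agent.Lib.Schur.SLnStem.tt i k (α * β)))) := by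
        apply iOm_inj (n := n) (F := F) (a := a) (b := b)
        rw [hL, hρt hik]
        change π (H * a₁ * H⁻¹) = _
        rw [map_mul, map_mul, map_inv, hH', hπa, hv_T_left C hik, hv3]
      have e2 : σ (H * b₁ * H⁻¹) = σ (L (ρ (Cfsg.Agent.Lib.Schur.SLnStem.tt k j 1))) := by
        apply iOm_inj (n := n) (F := F) (a := a) (b := b)
        rw [hL, hρt hkj]
        change π (H * b₁ * H⁻¹) = _
        rw [map_mul, map_mul, map_inv, hH', hπb, hv_T_right C hkj, hv2, inv_mul_cancel₀ hβ]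
      have e3 : H * X * H⁻¹ = ⁅H * a₁ * H⁻¹, H * b₁ * H⁻¹⁆ := by
        rw [hX]
        simp only [commutatorElement_def]
        group
      have e4 : H * X * H⁻¹ = X := by
        rw [← hcomm]
        group
      rw [← e4, e3]
      exact Cfsg.Agent.Lib.Schur.SLnStem.comm_eq hcen e1 e2)
  exact ⟨lam, fun l => by rw [hlam, hρ]⟩

end minus

end Cfsg.Agent.Lib.MinStem.ExcLam
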