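import Cfsg.Agent.Lib.MinStem.QF
import Mathlib.RingTheory.AdjoinRoot
import Mathlib.Algebra.Polynomial.SpecificDegree

/-!
# S2099: module Q, the existence of the quadratic extension with a prescribed norm form.
-/

set_option autoImplicit false
set_option linter.style.haveILetI false
set_option linter.unusedSectionVars false

namespace Cfsg.Agent.Lib.MinStem.QE

open Polynomial Cfsg.Agent.Lib.MinStem

universe u

variable {F : Type u} [Field F]

/-- The minimal polynomial. -/
noncomputable def pol (a b : F) : F[X] := X ^ 2 - C a * X + C b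

lemma pol_natDegree (a b : F) : (pol a b).natDegree = 2 := by
  unfold pol
  compute_degree!

lemma pol_monic (a b : F) : (pol a b).Monic := by
  unfold pol
  monicity!

lemma pol_irred {a b : F} (hab : ∀ z₁ z₂ : F, z₁^2 + a*z₁*z₂ + b*z₂^2 = 0 → z₁ = 0 ∧ z₂ = 0) :
    Irreducible (pol a b) := by
  have hd := pol_natDegree a b
  apply Polynomial.irreducible_of_degree_le_three_of_not_isRoot
  · rw [hd]; simp
  · intro r hr
    have h : r ^ 2 - a * r + b = 0 := by
      have := hr
      simpa [pol, IsRoot] using this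
    have := hab r (-1) (by linear_combination h)
    exact (neg_ne_zero.mpr one_ne_zero) this.2

variable (a b : F)

local notation "K" => AdjoinRoot (pol a b)

/-- The root. -/
noncomputable abbrev th : AdjoinRoot (pol a b) := AdjoinRoot.root (pol a b)

lemma th_sq : (th a b) ^ 2 = algebraMap F (AdjoinRoot (pol a b)) a * th a b
    - algebraMap F (AdjoinRoot (pol a b)) b := by
  have h : eval₂ (AdjoinRoot.of (pol a b)) (AdjoinRoot.root (pol a b)) (X ^ 2 - C a * X + C b) = 0 :=
    AdjoinRoot.eval₂_root (pol a b)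
  simp only [eval₂_add, eval₂_sub, eval₂_mul, eval₂_pow, eval₂_X, eval₂_C] at h
  have e : ∀ t : F, algebraMap F (AdjoinRoot (pol a b)) t = AdjoinRoot.of (pol a b) t := fun _ => rfl
  rw [e, e]
  linear_combination h

/-- Linear map `(c₁, c₂) ↦ c₁ + c₂ θ`. -/
noncomputable def toK : (Fin 2 → F) →ₗ[F] AdjoinRoot (pol a b) where
  toFun c := algebraMap F _ (c 0) + algebraMap F _ (c 1) * th a b
  map_add' x y := by
    simp only [Pi.add_apply, map_add]
    ring
  map_smul' r x := by
    simp only [Pi.smul_apply, smul_eq_mul, map_mul, RingHom.id_apply, Algebra.smul_def]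
    ring

lemma toK_apply (c : Fin 2 → F) : toK a b c = algebraMap F _ (c 0) + algebraMap F _ (c 1) * th a b := rfl

lemma toK_inj : Function.Injective (toK a b) := by
  rw [← LinearMap.ker_eq_bot, LinearMap.ker_eq_bot']
  intro c hc
  rw [toK_apply] at hc
  have e : (C (c 0) + C (c 1) * X : F[X]) ∈ Ideal.span {pol a b} := by
    rw [← Ideal.Quotient.eq_zero_iff_mem]
    exact (by simpa [AdjoinRoot.mk_eq_mk, AdjoinRoot.algebraMap_eq] using hc :
      AdjoinRoot.mk (pol a b) (C (c 0) + C (c 1) * X) = 0)
  rw [Ideal.mem_span_singleton] at e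
  by_cases hz : (C (c 0) + C (c 1) * X : F[X]) = 0
  · have h0 : c 0 = 0 := by
      have := congrArg (fun p : F[X] => p.coeff 0) hz
      simpa using this
    have h1 : c 1 = 0 := by
      have := congrArg (fun p : F[X] => p.coeff 1) hz
      simpa using this
    ext i
    fin_cases i
    · exact h0
    · exact h1
  · have hle := Polynomial.natDegree_le_of_dvd e hz
    rw [pol_natDegree] at hle
    have : (C (c 0) + C (c 1) * X : F[X]).natDegree ≤ 1 := by compute_degree
    omega

lemma finrank_K : Module.finrank F (AdjoinRoot (pol a b)) = 2 := by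
  rw [(AdjoinRoot.powerBasis' (pol_monic a b)).finrank]
  exact pol_natDegree a b

/-- The coordinates. -/
noncomputable def coK : AdjoinRoot (pol a b) ≃ₗ[F] (Fin 2 → F) :=
  haveI : FiniteDimensional F (AdjoinRoot (pol a b)) :=
    Module.finite_of_finrank_pos (by rw [finrank_K]; omega)
  (LinearEquiv.ofBijective (toK a b) ⟨toK_inj a b,
    (LinearMap.injective_iff_surjective_of_finrank_eq_finrank (by
      rw [finrank_K]; simp)).mp (toK_inj a b)⟩).symm

lemma coK_spec (z : AdjoinRoot (pol a b)) :
    algebraMap F _ (coK a b z 0) + algebraMap F _ (coK a b z 1) * th a b = z := by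
  haveI : FiniteDimensional F (AdjoinRoot (pol a b)) :=
    Module.finite_of_finrank_pos (by rw [finrank_K]; omega)
  rw [← toK_apply]
  exact (LinearEquiv.ofBijective (toK a b) ⟨toK_inj a b,
    (LinearMap.injective_iff_surjective_of_finrank_eq_finrank (by
      rw [finrank_K]; simp)).mp (toK_inj a b)⟩).apply_symm_apply z

lemma coK_toK (c : Fin 2 → F) : coK a b (toK a b c) = c := by
  haveI : FiniteDimensional F (AdjoinRoot (pol a b)) :=
    Module.finite_of_finrank_pos (by rw [finrank_K]; omega)
  exact (LinearEquiv.ofBijective (toK a b) ⟨toK_inj a b,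
    (LinearMap.injective_iff_surjective_of_finrank_eq_finrank (by
      rw [finrank_K]; simp)).mp (toK_inj a b)⟩).symm_apply_apply c

lemma cj_eval : (pol a b).eval₂ ((Algebra.ofId F (AdjoinRoot (pol a b)) : F →ₐ[F] _) : F →+* _)
    ((algebraMap F (AdjoinRoot (pol a b)) a) - th a b) = 0 := by
  have e : ∀ t : F, ((Algebra.ofId F (AdjoinRoot (pol a b)) : F →ₐ[F] _) : F →+* _) t
      = algebraMap F (AdjoinRoot (pol a b)) t := fun _ => rfl
  change eval₂ ((Algebra.ofId F (AdjoinRoot (pol a b)) : F →ₐ[F] _) : F →+* _)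
    ((algebraMap F (AdjoinRoot (pol a b)) a) - th a b) (X ^ 2 - C a * X + C b) = 0
  simp only [eval₂_add, eval₂_sub, eval₂_mul, eval₂_pow, eval₂_X, eval₂_C, e]
  linear_combination th_sq a b

/-- The conjugation, as an algebra map. -/
noncomputable def cjA : AdjoinRoot (pol a b) →ₐ[F] AdjoinRoot (pol a b) :=
  AdjoinRoot.liftAlgHom (pol a b) (Algebra.ofId F (AdjoinRoot (pol a b))) _ (cj_eval a b)

lemma cjA_th : cjA a b (th a b) = algebraMap F _ a - th a b :=
  AdjoinRoot.liftAlgHom_root _ _ _ _

lemma cjA_alg (t : F) : cjA a b (algebraMap F _ t) = algebraMap F _ t := (cjA a b).commutes t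

lemma cjA_cjA (z : AdjoinRoot (pol a b)) : cjA a b (cjA a b z) = z := by
  have h : (cjA a b).comp (cjA a b) = AlgHom.id F _ := by
    apply AdjoinRoot.algHom_ext
    simp only [AlgHom.comp_apply, AlgHom.id_apply]
    rw [cjA_th, map_sub, cjA_alg, cjA_th]
    ring
  exact DFunLike.congr_fun h z

/-- The conjugation, as a ring equivalence. -/
noncomputable def cjE : AdjoinRoot (pol a b) ≃+* AdjoinRoot (pol a b) :=
  { cjA a b with
    invFun := cjA a b
    left_inv := cjA_cjA a b
    right_inv := cjA_cjA a b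
    map_mul' := map_mul (cjA a b)
    map_add' := map_add (cjA a b) }

lemma cjE_apply (z : AdjoinRoot (pol a b)) : cjE a b z = cjA a b z := rfl

/-- Norm. -/
noncomputable def nmK (z : AdjoinRoot (pol a b)) : F :=
  coK a b z 0 ^ 2 + a * coK a b z 0 * coK a b z 1 + b * coK a b z 1 ^ 2

/-- Trace. -/
noncomputable def trK (z : AdjoinRoot (pol a b)) : F := 2 * coK a b z 0 + a * coK a b z 1

lemma cj_mul_spec (z : AdjoinRoot (pol a b)) : algebraMap F _ (nmK a b z) = z * cjA a b z := by
  conv_rhs => rw [← coK_spec a b z]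
  simp only [map_add, map_mul, cjA_alg, cjA_th, nmK, map_pow]
  linear_combination (algebraMap F (AdjoinRoot (pol a b)) (coK a b z 1)) ^ 2 * th_sq a b

lemma cj_add_spec (z : AdjoinRoot (pol a b)) : algebraMap F _ (trK a b z) = z + cjA a b z := by
  conv_rhs => rw [← coK_spec a b z]
  simp only [map_add, map_mul, cjA_alg, cjA_th, trK, map_ofNat]
  ring

section final

variable {a b}
variable [Fintype F] (hab : ∀ z₁ z₂ : F, z₁^2 + a*z₁*z₂ + b*z₂^2 = 0 → z₁ = 0 ∧ z₂ = 0)
include hab

lemma not_both (ha : a = 0) (h2 : (2 : F) = 0) : False := by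
  have hr : ringChar F = 2 := CharP.ringChar_of_prime_eq_zero Nat.prime_two (by exact_mod_cast h2)
  obtain ⟨w, hw⟩ := FiniteField.isSquare_of_char_two hr b
  have := hab w 1 (by
    subst ha
    rw [hw]
    linear_combination (w * w) * h2)
  exact one_ne_zero this.2

lemma cj_th_ne : cjA a b (th a b) ≠ th a b := by
  rw [cjA_th]
  intro h
  have hz : toK a b ![a, -2] = 0 := by
    rw [toK_apply]
    simp only [Matrix.cons_val_zero, Matrix.cons_val_one, map_neg, map_ofNat]
    linear_combination h
  have h0 := toK_inj a b (hz.trans (map_zero _).symm)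
  have h1 : a = 0 := by simpa using congrFun h0 0
  have h2 : (2 : F) = 0 := by simpa using congrFun h0 1
  exact not_both hab h1 h2

lemma trK_surj (x : F) : ∃ z, trK a b z = x := by
  by_cases ha : a = 0
  · have h2 : (2 : F) ≠ 0 := fun h2 => not_both hab ha h2
    refine ⟨toK a b ![x / 2, 0], ?_⟩
    unfold trK
    rw [coK_toK]
    simp only [Matrix.cons_val_zero, Matrix.cons_val_one, ha]
    field_simp
    ring
  · refine ⟨toK a b ![0, x / a], ?_⟩
    unfold trK
    rw [coK_toK]
    simp only [Matrix.cons_val_zero, Matrix.cons_val_one]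
    field_simp
    ring

end final

end Cfsg.Agent.Lib.MinStem.QE

namespace Cfsg.Agent.Lib.MinStem

open Cfsg.Agent.Lib.MinStem.QE

universe u

/-- Module Q: the quadratic extension with norm form `z₁² + a z₁ z₂ + b z₂²`. -/
theorem exists_QC {F : Type u} [Field F] [Fintype F] {a b : F}
    (hab : ∀ z₁ z₂ : F, z₁^2 + a*z₁*z₂ + b*z₂^2 = 0 → z₁ = 0 ∧ z₂ = 0) :
    ∃ (K : Type u) (_ : Field K) (_ : Fintype K) (_ : Algebra F K) (_ : QCj K) (_ : QF F K),
      Fintype.card K = Fintype.card F ^ 2 ∧ Nonempty (QC F K a b) := by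
  haveI : Fact (Irreducible (pol a b)) := ⟨pol_irred hab⟩
  letI qcj : QCj (AdjoinRoot (pol a b)) :=
    { cj := cjE a b
      cj_cj := cjA_cjA a b
      cj_ne := ⟨th a b, cj_th_ne hab⟩ }
  letI qf : QF F (AdjoinRoot (pol a b)) :=
    { nm := nmK a b
      tr := trK a b
      cj_alg := cjA_alg a b
      alg_nm := cj_mul_spec a b
      alg_tr := cj_add_spec a b
      tr_surj := trK_surj hab }
  letI ft : Fintype (AdjoinRoot (pol a b)) := Fintype.ofEquiv (Fin 2 → F) (coK a b).symm.toEquiv
  refine ⟨AdjoinRoot (pol a b), inferInstance, ft, inferInstance, qcj, qf, ?_, ⟨⟨coK a b, fun z => rfl⟩⟩⟩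
  rw [Fintype.card_congr (coK a b).toEquiv, Fintype.card_fun]
  simp

end Cfsg.Agent.Lib.MinStem
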