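import Cfsg.Agent.Lib.MinStem.Lower
import Cfsg.Agent.Lib.OmStem.Final
import Cfsg.Agent.Lib.Classical.QuadEichBridge
import Cfsg.Agent.S0791

/-!
# S2099 module Wrap

From the bound on the stem extensions of `Ω⁻` (`main_of_bound`, hypothesis `hB`) and the cover of `Lower.lean` to the multiplier of `PΩ⁻`.
Even `q`: the centre is trivial, all stem extensions are trivial.
Odd `q`: `π₂ : C → Ω⁻ → PΩ⁻` is a stem extension, with kernel of order `2 * |Z(Ω⁻)|`.
`-1 ∈ Ω⁻` iff `q^l % 4 = 3` (S0791), then `l` is odd, the lifts of `-1` do not square to `1`, the kernel is cyclic of order 4.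
-/

set_option autoImplicit false

namespace Cfsg.Agent.Lib.MinStem

open Matrix Cfsg Subgroup

open scoped commutatorElement

universe u

section general

variable {C G : Type u} [Group C] [Group G]

lemma eq_of_mem_zpowers' {H : Type*} [Group H] {w x : H} (hw : w * w = 1) (hx : x ∈ zpowers w) :
    x = 1 ∨ x = w := by
  obtain ⟨k, rfl⟩ := hx
  have h2 : w ^ (2 : ℤ) = 1 := by
    rw [zpow_two, hw]
  have hk : k = 2 * (k / 2) + k % 2 := (Int.mul_ediv_add_emod k 2).symm
  change w ^ k = 1 ∨ w ^ k = w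
  rcases Int.emod_two_eq_zero_or_one k with h | h
  · left
    rw [hk, h, _root_.zpow_add, _root_.zpow_mul, h2]; simp
  · right
    rw [hk, h, _root_.zpow_add, _root_.zpow_mul, h2]; simp

/-- If the stem extensions of `G` have kernels of order at most 2, a stem extension of `G` with kernel of order 2 has no proper stem extension. -/
theorem stem_triv_of_bound (π : C →* G) (hπ : IsStemExtension π) (hC : commutator C = ⊤) (hcard : Nat.card π.ker = 2)
    (hB : ∀ {Γ : Type u} [Group Γ] [Finite Γ] {σ : Γ →* G}, IsStemExtension σ → ∃ z : Γ, z * z = 1 ∧ σ.ker = zpowers z)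
    {Γ : Type u} [Group Γ] [Finite Γ] {τ : Γ →* C} (hτ : IsStemExtension τ) (z : Γ) (hz : τ z = 1) : z = 1 := by
  have hΓ : commutator Γ = ⊤ := eq_top_iff.2 fun g _ =>
    Cfsg.Agent.Lib.Schur.SLnStem.mem_commutator_of_perfect' hτ hC g
  set σ : Γ →* G := π.comp τ with hσ
  have hs : Function.Surjective σ := hπ.1.comp hτ.1
  -- the kernel is central, by the three subgroups lemma
  have hcen : σ.ker ≤ center Γ := by
    have h1 : ⁅⁅σ.ker, (⊤ : Subgroup Γ)⁆, (⊤ : Subgroup Γ)⁆ = ⊥ := by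
      rw [eq_bot_iff, Subgroup.commutator_le]
      intro c hc g _
      have hc' : c ∈ τ.ker := by
        have hle : ⁅σ.ker, (⊤ : Subgroup Γ)⁆ ≤ τ.ker := by
          rw [Subgroup.commutator_le]
          intro k hk g _
          rw [MonoidHom.mem_ker, map_commutatorElement]
          have hk' : τ k ∈ π.ker := hk
          have := Subgroup.mem_center_iff.1 (hπ.2.1 hk') (τ g)
          rw [commutatorElement_eq_one_iff_mul_comm]
          exact this.symm
        exact hle hc
      have := Subgroup.mem_center_iff.1 (hτ.2.1 hc') g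
      rw [Subgroup.mem_bot, commutatorElement_eq_one_iff_mul_comm]
      exact this.symm
    have h2' : ⁅⁅(⊤ : Subgroup Γ), σ.ker⁆, (⊤ : Subgroup Γ)⁆ = ⊥ := by
      rw [Subgroup.commutator_comm (⊤ : Subgroup Γ) σ.ker]
      exact h1
    have h3 := Subgroup.commutator_commutator_eq_bot_of_rotate (H₁ := (⊤ : Subgroup Γ)) (H₂ := (⊤ : Subgroup Γ))
      (H₃ := σ.ker) h2' h1
    have h4 : ⁅(⊤ : Subgroup Γ), (⊤ : Subgroup Γ)⁆ = ⊤ := hΓ
    rw [h4] at h3
    intro k hk
    rw [Subgroup.mem_center_iff]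
    intro g
    have h5 : ⁅g, k⁆ ∈ ⁅(⊤ : Subgroup Γ), σ.ker⁆ := Subgroup.commutator_mem_commutator trivial hk
    rw [h3, Subgroup.mem_bot, commutatorElement_eq_one_iff_mul_comm] at h5
    exact h5
  have hst : IsStemExtension σ := ⟨hs, hcen, by rw [hΓ]; exact le_top⟩
  obtain ⟨w, hww, hker⟩ := hB hst
  obtain ⟨y, hy1⟩ : ∃ y : π.ker, y ≠ 1 := by
    obtain ⟨a, b, hab, -⟩ := Nat.card_eq_two_iff.1 hcard
    by_cases h : a = 1
    · exact ⟨b, fun h' => hab (h.trans h'.symm)⟩
    · exact ⟨a, h⟩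
  have hy1' : (y : C) ≠ 1 := fun h => hy1 (Subtype.ext h)
  obtain ⟨x, hx⟩ := hτ.1 (y : C)
  have hxk : x ∈ zpowers w := by
    rw [← hker, MonoidHom.mem_ker, hσ, MonoidHom.comp_apply, hx]
    exact y.2
  have hzk : z ∈ zpowers w := by
    rw [← hker, MonoidHom.mem_ker, hσ, MonoidHom.comp_apply, hz, map_one]
  have hxw : x = w := by
    rcases eq_of_mem_zpowers' hww hxk with h | h
    · exfalso
      rw [h, map_one] at hx
      exact hy1' hx.symm
    · exact h
  rcases eq_of_mem_zpowers' hww hzk with h | h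
  · exact h
  · exfalso
    rw [h, ← hxw, hx] at hz
    exact hy1' hz

end general

variable {F : Type u} [Field F] [Fintype F]

theorem main_of_bound {q : ℕ} (hF : Fintype.card F = q) (l : ℕ) (hl : 4 ≤ l) (a b : F)
    (hab : ∀ z₁ z₂ : F, z₁ ^ 2 + a * z₁ * z₂ + b * z₂ ^ 2 = 0 → z₁ = 0 ∧ z₂ = 0)
    (hB : ∀ {Γ : Type u} [Group Γ] [Finite Γ] {σ : Γ →* Omega F (quadFormMinus (l - 1) F a b)}, IsStemExtension σ →
      ∃ z : Γ, z * z = 1 ∧ σ.ker = zpowers z ∧ ((2 : F) = 0 → z = 1)) :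
    Cfsg.HasCyclicSchurMultiplier (Cfsg.POmega F (Cfsg.quadFormMinus (l - 1) F a b)) (Nat.gcd 4 (q ^ l + 1)) := by
  classical
  have hnd := Cfsg.Agent.Lib.Orth.Forms.minusForm_nondeg (F := F) (l - 1) hab
  have h5 : 5 ≤ Fintype.card ((Fin (l - 1) ⊕ Fin (l - 1)) ⊕ Fin 2) := by
    simp
    omega
  have hperf : commutator (Omega F (quadFormMinus (l - 1) F a b)) = ⊤ :=
    Cfsg.Agent.Lib.LocalBal.OmMain.perfect_omega (F := F) (ι := (Fin (l - 1) ⊕ Fin (l - 1)) ⊕ Fin 2)
      (Q := Cfsg.Agent.Lib.Orth.Forms.minusForm (l - 1) F a b) hnd (by simp; omega)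
  haveI hfin : Finite (Omega F (quadFormMinus (l - 1) F a b)) := by
    unfold Omega
    infer_instance
  let mk : Omega F (quadFormMinus (l - 1) F a b) →* POmega F (quadFormMinus (l - 1) F a b) :=
    QuotientGroup.mk' (center (Omega F (quadFormMinus (l - 1) F a b)))
  have hmk : Function.Surjective mk := QuotientGroup.mk'_surjective _
  have hmker : ∀ x, mk x = 1 ↔ x ∈ center (Omega F (quadFormMinus (l - 1) F a b)) := by
    intro x
    change (QuotientGroup.mk' _) x = 1 ↔ _
    rw [QuotientGroup.mk'_apply, QuotientGroup.eq_one_iff]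
  by_cases h2 : (2 : F) = 0
  · obtain ⟨h3, h4⟩ := Cfsg.Agent.Lib.OmStem.even_pow_aux hF h2 (by omega : l ≠ 0)
    have hg : Nat.gcd 4 (q ^ l + 1) = 1 := by
      rw [Nat.gcd_rec]
      have : (q ^ l + 1) % 4 = 1 ∨ (q ^ l + 1) % 4 = 3 := by omega
      rcases this with h | h <;> rw [h] <;> norm_num
    rw [hg]
    have hcen : Nat.card (center (Omega F (quadFormMinus (l - 1) F a b))) = 1 :=
      Cfsg.Agent.Lib.Classical.QuadEichBridge.card_center_of_two (Cfsg.Agent.Lib.Orth.Forms.minusForm (l - 1) F a b)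
        hnd h5 h2
    have hker : mk.ker = center (Omega F (quadFormMinus (l - 1) F a b)) := by
      ext x
      rw [MonoidHom.mem_ker, hmker]
    have hc : Nat.card mk.ker = 1 := by
      rw [hker, hcen]
    have hstem : IsStemExtension mk := by
      refine ⟨hmk, ?_, ?_⟩
      · rw [hker]
      · rw [hperf]
        exact le_top
    have : Subsingleton mk.ker := (Nat.card_eq_one_iff_unique.1 hc).1
    refine Cfsg.Agent.Lib.Schur.SLnStem.hasCyclic_of_cover mk hstem ?_ hperf inferInstance hc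
    intro Γ _ _ σ hσ z hz
    obtain ⟨w, -, hker', h1⟩ := hB hσ
    have : z ∈ zpowers w := by
      rw [← hker']
      exact hz
    rw [h1 h2] at this
    simpa using this
  · have hqo := Cfsg.Agent.Lib.OmStem.odd_card_of_two hF h2
    have hm1 : (q ^ l) % 2 = 1 := Nat.odd_iff.1 hqo.pow
    obtain ⟨C, iC, fC, π, hπ, hcard, hneg⟩ := exists_cover hF hqo (l - 1) (by omega) a b hab
    have hCp : commutator C = ⊤ := eq_top_iff.2 fun g _ =>
      Cfsg.Agent.Lib.Schur.SLnStem.mem_commutator_of_perfect' hπ hperf g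
    let π₂ : C →* POmega F (quadFormMinus (l - 1) F a b) := mk.comp π
    have hmem : ∀ x : C, x ∈ π₂.ker ↔ π x ∈ center (Omega F (quadFormMinus (l - 1) F a b)) := by
      intro x
      rw [MonoidHom.mem_ker, ← hmker]
      rfl
    have hker_eq : π₂.ker = (center (Omega F (quadFormMinus (l - 1) F a b))).comap π := by
      ext x
      rw [hmem, Subgroup.mem_comap]
    have hst : IsStemExtension π₂ := by
      refine ⟨hmk.comp hπ.1, ?_, ?_⟩
      · intro x hx
        exact Cfsg.Agent.Lib.OmStem.mem_center_of_map_mem_center π hπ.2.1 hCp ((hmem x).1 hx)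
      · rw [hCp]
        exact le_top
    have hk : Nat.card π₂.ker = 2 * Nat.card (center (Omega F (quadFormMinus (l - 1) F a b))) := by
      rw [hker_eq, Cfsg.Agent.Lib.OmStem.card_comap_of_surjective _ hπ.1, hcard]
    have htriv : ∀ (Γ : Type u) [Group Γ] [Finite Γ] (σ : Γ →* C), IsStemExtension σ → ∀ z, σ z = 1 → z = 1 :=
      fun Γ _ _ σ hσ z hz => stem_triv_of_bound π hπ hCp hcard
        (fun hs => by
          obtain ⟨z, h1, h2, -⟩ := hB hs
          exact ⟨z, h1, h2⟩) hσ z hz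
    by_cases hneg' : ∃ g : isometryGroup F (quadFormMinus (l - 1) F a b), g ∈ Omega F (quadFormMinus (l - 1) F a b) ∧
        ((g : GeneralLinearGroup ((Fin (l - 1) ⊕ Fin (l - 1)) ⊕ Fin 2) F) :
          Matrix ((Fin (l - 1) ⊕ Fin (l - 1)) ⊕ Fin 2) ((Fin (l - 1) ⊕ Fin (l - 1)) ⊕ Fin 2) F) = -1
    · have h4 := (Cfsg.Agent.S0791.result hF hqo l (by omega) a b hab).1 hneg'
      have hg : Nat.gcd 4 (q ^ l + 1) = 4 := Nat.gcd_eq_left (by omega)
      rw [hg]
      have hcen : Nat.card (center (Omega F (quadFormMinus (l - 1) F a b))) = 2 :=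
        Cfsg.Agent.Lib.Classical.QuadEichBridge.card_center_of_neg (Cfsg.Agent.Lib.Orth.Forms.minusForm (l - 1) F a b)
          hnd h5 h2 hneg'
      have hk4 : Nat.card π₂.ker = 4 := by
        rw [hk, hcen]
      obtain ⟨g, hgm, hg1⟩ := hneg'
      let g₀ : Omega F (quadFormMinus (l - 1) F a b) := ⟨g, hgm⟩
      obtain ⟨B, hB'⟩ := hπ.1 g₀
      have hcg : g₀ ∈ center (Omega F (quadFormMinus (l - 1) F a b)) := by
        rw [mem_center_iff]
        intro x
        apply Subtype.ext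
        apply Subtype.ext
        apply Units.ext
        change ((x : isometryGroup F (quadFormMinus (l - 1) F a b)) : GeneralLinearGroup ((Fin (l - 1) ⊕ Fin (l - 1)) ⊕ Fin 2) F).1 * ((g : GeneralLinearGroup ((Fin (l - 1) ⊕ Fin (l - 1)) ⊕ Fin 2) F) :
          Matrix ((Fin (l - 1) ⊕ Fin (l - 1)) ⊕ Fin 2) ((Fin (l - 1) ⊕ Fin (l - 1)) ⊕ Fin 2) F) = ((g : GeneralLinearGroup ((Fin (l - 1) ⊕ Fin (l - 1)) ⊕ Fin 2) F) :
          Matrix ((Fin (l - 1) ⊕ Fin (l - 1)) ⊕ Fin 2) ((Fin (l - 1) ⊕ Fin (l - 1)) ⊕ Fin 2) F) * ((x : isometryGroup F (quadFormMinus (l - 1) F a b)) : GeneralLinearGroup ((Fin (l - 1) ⊕ Fin (l - 1)) ⊕ Fin 2) F).1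
        rw [hg1]
        simp
      have hBk : B ∈ π₂.ker := (hmem B).2 (by rw [hB']; exact hcg)
      have heven : Even (l - 1) := by
        rcases Nat.even_or_odd l with h | h
        · exfalso
          obtain ⟨k, rfl⟩ := h
          have h6 : (q ^ k) % 2 = 1 := Nat.odd_iff.1 hqo.pow
          have h7 : (q ^ k) % 4 = 1 ∨ (q ^ k) % 4 = 3 := by omega
          rw [pow_add, Nat.mul_mod] at h4
          rcases h7 with h7 | h7 <;> rw [h7] at h4 <;> norm_num at h4
        · obtain ⟨k, rfl⟩ := h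
          exact ⟨k, by omega⟩
      have hsq := hneg heven B (by rw [hB']; exact hg1)
      have hcyc : IsCyclic π₂.ker := Cfsg.Agent.Lib.OmStem.isCyclic_of_card_four hk4 ⟨B, hBk⟩ (fun h => hsq (congrArg Subtype.val h))
      exact Cfsg.Agent.Lib.Schur.SLnStem.hasCyclic_of_cover π₂ hst htriv hCp hcyc hk4
    · have h4 : ¬ (q ^ l % 4 = 3) := fun h => hneg' ((Cfsg.Agent.S0791.result hF hqo l (by omega) a b hab).2 h)
      have hg : Nat.gcd 4 (q ^ l + 1) = 2 := by
        rw [Nat.gcd_rec]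
        have : (q ^ l + 1) % 4 = 2 := by omega
        rw [this]
        norm_num
      rw [hg]
      have hcen : Nat.card (center (Omega F (quadFormMinus (l - 1) F a b))) = 1 :=
        Cfsg.Agent.Lib.Classical.QuadEichBridge.card_center_of_not_neg (Cfsg.Agent.Lib.Orth.Forms.minusForm (l - 1) F a b)
          hnd h5 hneg'
      have hk2 : Nat.card π₂.ker = 2 := by
        rw [hk, hcen]
      have : Fact (Nat.Prime 2) := ⟨Nat.prime_two⟩
      exact Cfsg.Agent.Lib.Schur.SLnStem.hasCyclic_of_cover π₂ hst htriv hCp (isCyclic_of_prime_card hk2) hk2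

end Cfsg.Agent.Lib.MinStem
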