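import Cfsg.Agent.Lib.MinStem.Bound
import Cfsg.Agent.Lib.MinStem.Wrap
import Cfsg.Agent.Lib.MinStem.QE
import Cfsg.Agent.Lib.Schur.Univ.Basic
import Cfsg.Agent.Lib.Classical.OmegaPGO
import Cfsg.Agent.S0791

/-!
# The multiplier of `PΩ⁻_{2l}(q)` (module G)

Copy of `OmStem/Final.main_odd_rank`. `l = n + 1`, `n = l - 1`. `K` from `exists_QC`.
Even `q`: `gcd 4 (q^l + 1) = 1`, `Ω` has trivial centre (`QuadEichBridge.card_center_of_two`), all stem extensions are trivial (`min_stem_bound`): `SLnStem.hasCyclic_of_cover` with the quotient map `Ω → PΩ`.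
Odd `q`: `U → Ω → PΩ`, `exists_cover_min`, stem trivial from `min_stem_bound`, `S0791.result`: `-1 ∈ Ω` iff `q^l % 4 = 3`.
`-1 ∉ Ω`: centre trivial, kernel of order 2, `gcd 4 (q^l + 1) = 2`. `-1 ∈ Ω`: `l` odd (`q^even ≡ 1 mod 4`), centre of order 2, kernel of order 4 and has an element `B` with `B² ≠ 1`: cyclic, `gcd = 4`.
-/

set_option autoImplicit false

namespace Cfsg.Agent.Lib.MinStem

open Matrix Cfsg Subgroup

universe u

variable {F : Type u} [Field F] [Fintype F]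

theorem main_minus {q : ℕ} (hF : Fintype.card F = q) (l : ℕ) (hl : 4 ≤ l) (a b : F)
    (hab : ∀ z₁ z₂ : F, z₁ ^ 2 + a * z₁ * z₂ + b * z₂ ^ 2 = 0 → z₁ = 0 ∧ z₂ = 0) :
    Cfsg.HasCyclicSchurMultiplier (Cfsg.POmega F (Cfsg.quadFormMinus (l - 1) F a b)) (Nat.gcd 4 (q ^ l + 1)) := by
  obtain ⟨K, iK, fK, iA, iC, iQ, -, ⟨C⟩⟩ := exists_QC hab
  refine main_of_bound hF l hl a b hab ?_
  intro Γ _ _ σ hσ
  exact min_stem_bound C (by omega) hσ

end Cfsg.Agent.Lib.MinStem
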