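import Cfsg.Agent.Lib.MinStem.Target
import Cfsg.Agent.Lib.OmStem.Bound
import Cfsg.Agent.Lib.OddStem.Emb
import Cfsg.Agent.Lib.OddStem.Rel
import Cfsg.Agent.Lib.Schur.SpStem.Lift
import Cfsg.Agent.Lib.LocalBal.OmMain

/-!
# `q = 2`, `n ≥ 5`: the lifts of the short root elements commute (module H2)

Setting `π = iOm ∘ σ`. `Ω⁺_{2n}(F)` embeds in `Ω⁻_{2n+2}(F)` (identity on `H^n`, fixing `K`), is perfect and stem-trivial, so it has a section `s`.
Elements of the section which commute in the target have commuting lifts. See the proof of `hU_two`.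
-/

set_option autoImplicit false
set_option linter.unusedSectionVars false
set_option linter.unusedSimpArgs false
set_option linter.unusedVariables false

namespace Cfsg.Agent.Lib.MinStem

open Matrix Cfsg Subgroup Cfsg.Agent.Lib.PresSp.M2 Cfsg.Agent.Lib.PresOm Cfsg.Agent.Lib.PresSLn.TwoGen
  Cfsg.Agent.Lib.GeoOmega.Eichler Cfsg.Agent.Lib.QuadFn Cfsg.Agent.Lib.OmDeg.Plus Cfsg.Geo
  Cfsg.Agent.Lib.Geo.QForm

universe u

namespace HUTwoAux

section abstractg

variable {Γ : Type*} [Group Γ]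

lemma comm_central {a b c d : Γ} (hc : c ∈ center Γ) (hd : d ∈ center Γ) :
    (c * a) * (d * b) * (c * a)⁻¹ * (d * b)⁻¹ = a * b * a⁻¹ * b⁻¹ := by
  have hc1 : ∀ y, y * c = c * y := fun y => mem_center_iff.1 hc y
  have hd1 : ∀ y, y * d = d * y := fun y => mem_center_iff.1 hd y
  have e1 : (c * a) * (d * b) = (a * b * a⁻¹ * b⁻¹) * ((d * b) * (c * a)) := by
    calc (c * a) * (d * b) = (c * a * d) * b := by group
      _ = (d * (c * a)) * b := by rw [hd1]
      _ = d * (c * (a * b)) := by group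
      _ = d * ((a * b) * c) := by rw [hc1 (a * b)]
      _ = (d * (a * b * a⁻¹ * b⁻¹)) * (b * a) * c := by group
      _ = ((a * b * a⁻¹ * b⁻¹) * d) * (b * a) * c := by rw [hd1]
      _ = (a * b * a⁻¹ * b⁻¹) * (d * (b * (a * c))) := by group
      _ = (a * b * a⁻¹ * b⁻¹) * (d * (b * (c * a))) := by rw [hc1 a]
      _ = (a * b * a⁻¹ * b⁻¹) * ((d * b) * (c * a)) := by group
  rw [e1]
  group

lemma abstract_end {A B P τ ζ R c₁ c₂ : Γ} (hc₁ : c₁ ∈ center Γ) (hc₂ : c₂ ∈ center Γ)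
    (hτA : τ * A * τ⁻¹ = c₂ * A) (hτP : τ * P * τ⁻¹ = c₁ * (ζ * (B * P))) (hAζ : A * ζ = ζ * A)
    (hBR : B * R = R * B) (hζR : ζ * R = R * ζ) (hτR : τ * R = R * τ) (hR : R = A * P * A⁻¹ * P⁻¹)
    (hAB : A * B * A⁻¹ * B⁻¹ ∈ center Γ) : A * B = B * A := by
  set d := A * B * A⁻¹ * B⁻¹ with hd
  have e1 : τ * R * τ⁻¹ = R := by rw [hτR, mul_inv_cancel_right]
  have e2 : τ * R * τ⁻¹ = (τ * A * τ⁻¹) * (τ * P * τ⁻¹) * (τ * A * τ⁻¹)⁻¹ * (τ * P * τ⁻¹)⁻¹ := by
    rw [hR]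
    group
  rw [hτA, hτP, comm_central hc₂ hc₁] at e2
  have e4 : A * (ζ * (B * P)) * A⁻¹ * (ζ * (B * P))⁻¹ = ζ * (d * (B * R * B⁻¹)) * ζ⁻¹ := by
    have e5 : A * (ζ * (B * P)) * A⁻¹ * (ζ * (B * P))⁻¹ = (A * ζ) * B * P * A⁻¹ * P⁻¹ * B⁻¹ * ζ⁻¹ := by group
    rw [e5, hAζ, hd, hR]
    group
  rw [e4, hBR, mul_inv_cancel_right] at e2
  have e6 : ζ * (d * R) * ζ⁻¹ = d * R := by
    have h3 : ζ * d = d * ζ := (mem_center_iff.1 hAB ζ)
    calc ζ * (d * R) * ζ⁻¹ = (ζ * d) * R * ζ⁻¹ := by group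
      _ = d * (ζ * R) * ζ⁻¹ := by rw [h3]; group
      _ = d * R := by rw [hζR]; group
  rw [e6, e1] at e2
  have h1 : d = 1 := by
    have : R = d * R := e2
    exact (mul_eq_right.1 this.symm)
  have h2 : A * B * A⁻¹ * B⁻¹ = 1 := h1
  rw [mul_inv_eq_one, mul_inv_eq_iff_eq_mul] at h2
  exact h2

end abstractg

section eich

variable {ι : Type} [Fintype ι] [DecidableEq ι] {F : Type*} [Field F] {Q : (ι → F) → F}
  (hQ : IsNondegenerateQuadraticForm Q)

omit hQ in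
lemma eich_fix {g : GL ι F} {p b x : ι → F} (h : Eich Q g p b) (h1 : pol Q x b = 0) (h2 : pol Q x p = 0) :
    (g : Matrix ι ι F) *ᵥ x = x := by
  rw [h x, h1, h2]
  simp

include hQ

lemma eich_comm_same {g g' : GL ι F} {p b b' : ι → F} (hp : Q p = 0) (hb : pol Q p b = 0) (hb' : pol Q p b' = 0)
    (h : Eich Q g p b) (h' : Eich Q g' p b') : g * g' = g' * g := by
  have h1 := h.mul hQ h' hp hb hb'
  have h2 := h'.mul hQ h hp hb' hb
  rw [add_comm] at h2
  exact Eich.unique' h1 h2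

lemma comm_of_fix {h g : GL ι F} {p₀ b₀ p₁ b₁ : ι → F} (hh : Eich Q h p₀ b₀) (hp₀ : Q p₀ = 0)
    (hb₀ : pol Q p₀ b₀ = 0) (hg : Eich Q g p₁ b₁) (h1 : pol Q p₁ b₀ = 0) (h2 : pol Q p₁ p₀ = 0)
    (h3 : pol Q b₁ b₀ = 0) (h4 : pol Q b₁ p₀ = 0) : h * g = g * h := by
  have hiso := hh.mem_isometry hQ hp₀ hb₀
  have e := hg.conj hiso
  rw [eich_fix hh h1 h2, eich_fix hh h3 h4] at e
  have := Eich.unique' e hg
  rwa [mul_inv_eq_iff_eq_mul] at this

lemma eich_alt {g : GL ι F} {p q : ι → F} {l : F} (hp : Q p = 0) (hq : Q q = 0) (h : Eich Q g q (l • p)) :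
    Eich Q g p ((-l) • q) := by
  intro x
  rw [h x, pol_smul_right hQ, pol_smul_right hQ, hQ.smul, hQ.smul, hp, hq]
  simp only [mul_zero, zero_mul, zero_smul, sub_zero]
  module

lemma eich_comm {g g' z : GL ι F} {p q u w : ι → F} (hp : Q p = 0) (hq : Q q = 0) (hqp : pol Q q p = 0)
    (hqu : pol Q q u = 0) (hpu : pol Q p u = 0) (hwp : pol Q w p = 0) (hqw : pol Q q w = 0)
    (h : Eich Q g p u) (h' : Eich Q g' q w) (hz : Eich Q z q (pol Q w u • p)) :
    g * g' * g⁻¹ * g'⁻¹ = z := by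
  have hiso := h.mem_isometry hQ hp hpu
  have e := h'.conj hiso
  have e1 : (g : Matrix ι ι F) *ᵥ q = q := eich_fix h hqu hqp
  have e2 : (g : Matrix ι ι F) *ᵥ w = w + pol Q w u • p := by
    rw [h w, hwp]
    simp
  rw [e1, e2] at e
  have hql : pol Q q (pol Q w u • p) = 0 := by
    rw [pol_smul_right hQ, hqp, mul_zero]
  have e3 := h'.mul hQ hz hq hqw hql
  have e4 := Eich.unique' e e3
  rw [e4, eich_comm_same hQ hq hqw hql h' hz, mul_inv_cancel_right]

lemma eich_sum {g₁ g₂ g₃ g : GL ι F} {p q w : ι → F} (hp : Q p = 0) (hq : Q q = 0) (hpq : pol Q p q = 0)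
    (hpw : pol Q p w = 0) (hqw : pol Q q w = 0) (h1 : Eich Q g₁ p (Q w • q)) (h2 : Eich Q g₂ p w)
    (h3 : Eich Q g₃ q w) (h : Eich Q g (p + q) w) : g = g₁ * (g₂ * g₃) := by
  apply gl_ext_mulVec
  intro x
  rw [h x, Units.val_mul, Units.val_mul, ← mulVec_mulVec, ← mulVec_mulVec, h1 _]
  have hqq : pol Q q q = 0 := by rw [pol_self hQ, hq, mul_zero]
  have hpp : pol Q p p = 0 := by rw [pol_self hQ, hp, mul_zero]
  have hqp : pol Q q p = 0 := by rw [pol_symm hQ, hpq]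
  have hwp : pol Q w p = 0 := by rw [pol_symm hQ, hpw]
  have hwq : pol Q w q = 0 := by rw [pol_symm hQ, hqw]
  have hww : pol Q w w = 2 * Q w := pol_self hQ w
  set y := (g₃ : Matrix ι ι F) *ᵥ x with hy
  have hy0 : y = x + pol Q x w • q - pol Q x q • w - (Q w * pol Q x q) • q := h3 x
  have hy1 : pol Q y q = pol Q x q := by
    rw [hy, h3.pol_left hQ, hwq, hqq]
    ring
  have hy2 : pol Q y p = pol Q x p := by
    rw [hy, h3.pol_left hQ, hwp, hqp]
    ring
  have hy3 : pol Q y w = pol Q x w - pol Q x q * (2 * Q w) := by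
    rw [hy, h3.pol_left hQ, hww, hqw]
    ring
  have hz0 : (g₂ : Matrix ι ι F) *ᵥ y = y + pol Q y w • p - pol Q y p • w - (Q w * pol Q y p) • p := h2 y
  have hz1 : pol Q ((g₂ : Matrix ι ι F) *ᵥ y) q = pol Q x q := by
    rw [h2.pol_left hQ, hwq, hpq, hy1]
    ring
  have hz2 : pol Q ((g₂ : Matrix ι ι F) *ᵥ y) p = pol Q x p := by
    rw [h2.pol_left hQ, hwp, hpp, hy2]
    ring
  rw [pol_smul_right hQ, hz1, hz2, hQ.smul, hq, hz0, hy3, hy2, hy0, pol_add_right hQ]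
  simp only [mul_zero, zero_mul, zero_smul, sub_zero]
  module

end eich

section target

variable {n : ℕ} {F : Type u} {K : Type u} [Field F] [Field K] [Algebra F K] [QCj K] [QF F K] {a b : F}

local notation "QM" => quadFormMinus n F a b
local notation "QP" => quadFormPlus n F

lemma QM_split (v : VM n → F) : QM v = QP (fun r => v (Sum.inl r)) +
    (v (.inr 0) ^ 2 + a * v (.inr 0) * v (.inr 1) + b * v (.inr 1) ^ 2) := rfl

/-- Extension by zero. -/
def zJ : (Fin n ⊕ Fin n → F) →ₗ[F] (VM n → F) where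
  toFun x := Sum.elim x 0
  map_add' x y := by
    funext r
    rcases r with r | r <;> simp
  map_smul' c x := by
    funext r
    rcases r with r | r <;> simp

/-- The projection. -/
def zP : (VM n → F) →ₗ[F] (Fin n ⊕ Fin n → F) where
  toFun v r := v (Sum.inl r)
  map_add' x y := rfl
  map_smul' c x := rfl

lemma zJ_inl (x : Fin n ⊕ Fin n → F) (r : Fin n ⊕ Fin n) : zJ x (Sum.inl r) = x r := rfl
lemma zJ_inr (x : Fin n ⊕ Fin n → F) (t : Fin 2) : zJ x (Sum.inr t) = 0 := rfl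
lemma zP_apply (v : VM n → F) (r : Fin n ⊕ Fin n) : zP v r = v (Sum.inl r) := rfl

lemma QP_zero : QP (0 : Fin n ⊕ Fin n → F) = 0 := by
  simp [quadFormPlus]

/-- The embedding of the hyperbolic part. -/
def emb : Cfsg.Agent.Lib.OddStem.IsoEmb (QP) (QM) where
  J := zJ
  P := zP
  PJ x := rfl
  split x v := by
    rw [QM_split, QM_split]
    have h1 : (fun r => (zJ x + (v - zJ (zP v))) (Sum.inl r)) = x := by
      funext r
      simp [zJ_inl, zP_apply]
    have h2 : (fun r => (v - zJ (zP v)) (Sum.inl r)) = (0 : Fin n ⊕ Fin n → F) := by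
      funext r
      simp [zJ_inl, zP_apply]
    rw [h1, h2, QP_zero]
    simp [zJ_inr]

lemma exM_mulVec (A : GeneralLinearGroup (Fin n ⊕ Fin n) F) (v : VM n → F) :
    ((exM A : GeneralLinearGroup (VM n) F) : Matrix (VM n) (VM n) F) *ᵥ v =
      Sum.elim ((A : Matrix (Fin n ⊕ Fin n) (Fin n ⊕ Fin n) F) *ᵥ zP v) (fun t => v (Sum.inr t)) := by
  show fromBlocks (A : Matrix (Fin n ⊕ Fin n) (Fin n ⊕ Fin n) F) 0 0 1 *ᵥ v = _
  rw [fromBlocks_mulVec]
  funext r
  rcases r with r | r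
  · simp [zP, Function.comp_def]
  · simp [Function.comp_def]

lemma iOm_emb (t : Omega F (QP)) : iOm ((emb (n := n) (F := F) (a := a) (b := b)).extOm t) = exM (iO t) := by
  apply Units.ext
  apply Matrix.mulVec_injective
  funext v
  rw [exM_mulVec]
  have h := (emb (n := n) (F := F) (a := a) (b := b)).ext_mulVec t.1 v
  show (((emb (n := n) (F := F) (a := a) (b := b)).ext t.1).1 : Matrix (VM n) (VM n) F) *ᵥ v = _
  rw [h]
  funext r
  rcases r with r | r
  · show v (Sum.inl r) + zJ _ (Sum.inl r) = _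
    rw [zJ_inl]
    show v (Sum.inl r) + ((t.1.1 : Matrix (Fin n ⊕ Fin n) (Fin n ⊕ Fin n) F) *ᵥ zP v - zP v) r =
      (((iO t : GeneralLinearGroup (Fin n ⊕ Fin n) F) : Matrix (Fin n ⊕ Fin n) (Fin n ⊕ Fin n) F) *ᵥ zP v) r
    simp only [Pi.sub_apply, zP_apply]
    simp
    rfl
  · show v (Sum.inr r) + zJ _ (Sum.inr r) = _
    rw [zJ_inr]
    simp

lemma pol_zJ (v : VM n → F) (x : Fin n ⊕ Fin n → F) :
    pol (QM) v (zJ x) = pol (QP) (zP v) x := by
  show QM (v + zJ x) - QM v - QM (zJ x) = QP (zP v + x) - QP (zP v) - QP x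
  rw [QM_split (v + zJ x), QM_split v, QM_split (zJ x)]
  have h1 : (fun r => (v + zJ x) (Sum.inl r)) = zP v + x := rfl
  have h2 : (fun r => (zJ x : VM n → F) (Sum.inl r)) = x := rfl
  have h3 : (fun r => v (Sum.inl r)) = zP v := rfl
  rw [h1, h2, h3]
  simp [zJ_inr]

lemma Q_zJ (x : Fin n ⊕ Fin n → F) : QM (zJ x) = QP x := by
  rw [QM_split]
  have h2 : (fun r => (zJ x : VM n → F) (Sum.inl r)) = x := rfl
  rw [h2]
  simp [zJ_inr]

lemma exM_eich {g₀ : GeneralLinearGroup (Fin n ⊕ Fin n) F} {p₀ b₀ : Fin n ⊕ Fin n → F} (h : Eich (QP) g₀ p₀ b₀) :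
    Eich (QM) (exM g₀) (zJ p₀) (zJ b₀) := by
  intro v
  rw [exM_mulVec, h (zP v), pol_zJ, pol_zJ, Q_zJ]
  funext r
  rcases r with r | r
  · simp [zJ_inl, zP_apply]
  · simp [zJ_inr]

lemma zJ_e (i : Fin n) : zJ (Pi.single (Sum.inl i) 1 : Fin n ⊕ Fin n → F) = (eM i : VM n → F) := by
  funext r
  rcases r with r | r
  · rw [zJ_inl]
    simp [eM, Pi.single_apply]
  · rw [zJ_inr]
    simp [eM, Pi.single_apply]

variable [Fintype F]

/-- The long root elements come from the plus type subgroup. -/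
lemma exists_long (hn : 4 ≤ n) (i k : Fin n) (l : F) :
    ∃ t : Omega F (QP), Eich (QM) (exM (iO t)) (eM i) (l • eM k) := by
  have hn7 : 7 ≤ Fintype.card (Fin n ⊕ Fin n) := by
    simp
    omega
  have hpol : pol (QP) (Pi.single (Sum.inl i) 1) (l • Pi.single (Sum.inl k) 1) = 0 := by
    rw [pol_smul', pol_e]
    simp [Pi.single_apply]
  obtain ⟨g₀, hg₀⟩ := exists_eich (nd_plus (n := n) (F := F)) (Q_e i) hpol
  have hmem := hg₀.mem_omega nd_plus hn7 (Q_e i) hpol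
  rw [← iO_range] at hmem
  obtain ⟨t, rfl⟩ := hmem
  refine ⟨t, ?_⟩
  have h := exM_eich (a := a) (b := b) hg₀
  rw [map_smul, zJ_e, zJ_e] at h
  exact h

lemma exists_lev (hn : 4 ≤ n) (l : SpecialLinearGroup (Fin n) F) :
    ∃ t : Omega F (QP), exM (iO t) = levM l := by
  have hmem := levG_mem_omega (n := n) (F := F) (by omega) (by omega) l
  rw [← iO_range] at hmem
  obtain ⟨t, ht⟩ := hmem
  refine ⟨t, ?_⟩
  rw [ht]
  rfl

variable {Γ : Type u} [Group Γ] {σ : Γ →* Omega F (quadFormMinus n F a b)}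

lemma ex_lift (hs : Function.Surjective σ) {g : GeneralLinearGroup (VM n) F} (hg : g ∈ omegaGL (QM)) :
    ∃ x : Γ, iOm (σ x) = g := by
  rw [← iOm_range] at hg
  obtain ⟨o, rfl⟩ := hg
  obtain ⟨x, rfl⟩ := hs o
  exact ⟨x, rfl⟩

lemma comm_center (hcen : σ.ker ≤ center Γ) {x y : Γ} (h : iOm (σ x) * iOm (σ y) = iOm (σ y) * iOm (σ x)) :
    x * y * x⁻¹ * y⁻¹ ∈ center Γ := by
  apply hcen
  rw [MonoidHom.mem_ker]
  apply iOm_inj
  simp only [map_mul, map_inv, map_one]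
  rw [h]
  group

lemma eq_center (hcen : σ.ker ≤ center Γ) {x y : Γ} (h : iOm (σ x) = iOm (σ y)) :
    ∃ c ∈ center Γ, x = c * y := by
  refine ⟨x * y⁻¹, hcen ?_, by group⟩
  rw [MonoidHom.mem_ker]
  apply iOm_inj
  simp only [map_mul, map_inv, map_one]
  rw [h]
  group

section main

variable [Fintype K] [Finite Γ]

/-- The section over the plus type subgroup. -/
lemma exists_sec (hn : 5 ≤ n) (hF : Fintype.card F = 2) (hs : Function.Surjective σ) (hcen : σ.ker ≤ center Γ) :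
    ∃ s : Omega F (QP) →* Γ, ∀ t, iOm (σ (s t)) = exM (iO t) := by
  have h2 : (2 : F) = 0 := by
    have h := FiniteField.cast_card_eq_zero F
    rw [hF] at h
    exact_mod_cast h
  have hK : commutator (Omega F (QP)) = ⊤ :=
    Cfsg.Agent.Lib.LocalBal.OmMain.perfect_omega (F := F) (ι := Fin n ⊕ Fin n)
      (Q := Cfsg.Agent.Lib.Orth.Forms.plusForm n F) (Cfsg.Agent.Lib.Orth.Forms.plusForm_nondeg n)
      (by simp; omega)
  obtain ⟨s, hs'⟩ := Cfsg.Agent.Lib.Schur.SpStem.exists_section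
    (ρ := (emb (n := n) (F := F) (a := a) (b := b)).extOm) hs hcen hK (by
      intro Δ _ _ τ hτ z hz
      obtain ⟨w, _, hker, h3⟩ := Cfsg.Agent.Lib.OmStem.om_stem_bound (n := n) (F := F) (by omega)
        (fun h => by omega) hτ
      have hw := h3 h2
      have hz' : z ∈ τ.ker := hz
      rw [hker, hw] at hz'
      simpa using hz')
  exact ⟨s, fun t => by rw [hs', iOm_emb]⟩

lemma sec_comm {s : Omega F (QP) →* Γ} (hs' : ∀ t, iOm (σ (s t)) = exM (iO t)) (hcen : σ.ker ≤ center Γ)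
    {u v : Γ} {t₁ t₂ : Omega F (QP)} (hu : iOm (σ u) = exM (iO t₁)) (hv : iOm (σ v) = exM (iO t₂))
    (hc : exM (iO t₁) * exM (iO t₂) = exM (iO t₂) * exM (iO t₁)) : u * v = v * u := by
  have htt : t₁ * t₂ = t₂ * t₁ := by
    apply (emb (n := n) (F := F) (a := a) (b := b)).extOm_injective
    apply iOm_inj
    rw [map_mul, map_mul, map_mul, map_mul, iOm_emb, iOm_emb, hc]
  obtain ⟨c, hc1, rfl⟩ := eq_center hcen (hu.trans (hs' t₁).symm)
  obtain ⟨d, hd1, rfl⟩ := eq_center hcen (hv.trans (hs' t₂).symm)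
  have hst : s t₁ * s t₂ = s t₂ * s t₁ := by rw [← map_mul, htt, map_mul]
  have h1 : ∀ y, y * c = c * y := fun y => mem_center_iff.1 hc1 y
  have h2 : ∀ y, y * d = d * y := fun y => mem_center_iff.1 hd1 y
  calc c * s t₁ * (d * s t₂) = c * (s t₁ * d) * s t₂ := by group
    _ = c * (d * s t₁) * s t₂ := by rw [h2]
    _ = d * c * (s t₁ * s t₂) := by
        rw [show d * c = c * d from (h1 d)]
        group
    _ = d * c * (s t₂ * s t₁) := by rw [hst]
    _ = d * (c * s t₂) * s t₁ := by group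
    _ = d * (s t₂ * c) * s t₁ := by rw [h1]
    _ = d * s t₂ * (c * s t₁) := by group

/-- Lifts of long root elements commute with the lifts of the short root elements with the same centre. -/
lemma long_comm (C : QC F K a b) (hn : 4 ≤ n) (hs : Function.Surjective σ) (hcen : σ.ker ≤ center Γ)
    {i k c : Fin n} (hic : i ≠ c) (hkc : k ≠ c) (hik : i ≠ k) (l : F) (z : K) {Z W : Γ}
    (hZ : Eich (QM) (iOm (σ Z)) (eM i) (l • eM k)) (hW : iOm (σ W) = blk C i (uu z)) : Z * W = W * Z := by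
  have hQ := nd_M (n := n) C
  obtain ⟨t₁, ht₁⟩ := exists_long (a := a) (b := b) hn i c (1 : F)
  have et₂ := eich_T (a := a) (b := b) hkc (-l)
  have hn3 : 3 ≤ n := by omega
  have hI := Q_eM (n := n) (F := F) (a := a) (b := b) i
  have hK := Q_eM (n := n) (F := F) (a := a) (b := b) k
  have heW := eich_Y C i z
  rw [← hW] at heW
  obtain ⟨g₁, hg₁⟩ := ex_lift (σ := σ) hs (ht₁.mem_omega hQ (card_VM_ge hn3) hI (pol_eM_eM' C i c 1))
  obtain ⟨g₂, hg₂⟩ := ex_lift (σ := σ) hs (levM_mem_omega C hn3 (TT hkc (-l)))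
  have hzalt := eich_alt hQ hK hI hZ
  have hpw : pol (QM) ((-l) • fM c) ((1 : F) • eM c) = -l := by
    rw [pol_smul_left hQ, pol_smul_right hQ, pol_eM]
    simp [fM, Pi.single_apply]
  have hcomm := eich_comm (z := iOm (σ Z)) hQ hI hK (p := eM i) (q := eM k) (u := (1 : F) • eM c)
    (w := (-l) • fM c) (g := exM (iO t₁)) (g' := levM (TT hkc (-l)))
    (by rw [pol_eM]; simp [eM, Pi.single_apply, hik, Ne.symm hik])
    (pol_eM_eM' C k c 1) (pol_eM_eM' C i c 1)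
    (by rw [pol_smul_left hQ, pol_eM]; simp [fM, Pi.single_apply, hic, Ne.symm hic])
    (pol_eM_fM' C hkc (-l)) ht₁ et₂ (by rw [hpw]; exact hzalt)
  have hR : iOm (σ (g₁ * g₂ * g₁⁻¹ * g₂⁻¹)) = iOm (σ Z) := by
    simp only [map_mul, map_inv]
    rw [hg₁, hg₂]
    exact hcomm
  obtain ⟨e, he, hZe⟩ := eq_center hcen hR.symm
  have h1 : g₁ * W * g₁⁻¹ * W⁻¹ ∈ center Γ := comm_center hcen (by
    rw [hg₁]
    exact eich_comm_same hQ hI (pol_eM_eM' C i c 1) (pol_eM_uM' C i z) ht₁ heW)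
  have h2 : g₂ * W * g₂⁻¹ * W⁻¹ ∈ center Γ := comm_center hcen (by
    rw [hg₂]
    refine (comm_of_fix hQ heW hI (pol_eM_uM' C i z) et₂ (pol_eM_uM' C k z) ?_ ?_ ?_).symm
    · rw [pol_eM]
      simp [eM, Pi.single_apply]
    · rw [pol_smul_left hQ, pol_fM_uM', mul_zero]
    · rw [pol_smul_left hQ, pol_eM]
      simp [fM, Pi.single_apply, hic, Ne.symm hic])
  have h3 := Cfsg.Agent.Lib.OddStem.comm_of_comm h1 h2
  have h4 : ∀ y, y * e = e * y := fun y => mem_center_iff.1 he y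
  rw [hZe]
  calc e * (g₁ * g₂ * g₁⁻¹ * g₂⁻¹) * W = e * ((g₁ * g₂ * g₁⁻¹ * g₂⁻¹) * W) := by group
    _ = e * (W * (g₁ * g₂ * g₁⁻¹ * g₂⁻¹)) := by rw [h3.eq]
    _ = (e * W) * (g₁ * g₂ * g₁⁻¹ * g₂⁻¹) := by group
    _ = (W * e) * (g₁ * g₂ * g₁⁻¹ * g₂⁻¹) := by rw [h4]
    _ = W * (e * (g₁ * g₂ * g₁⁻¹ * g₂⁻¹)) := by group

end main

end target

end HUTwoAux

open HUTwoAux

variable {n : ℕ} {F : Type u} {K : Type u} [Field F] [Fintype F] [Field K] [Fintype K] [Algebra F K] [QCj K] [QF F K]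
  {a b : F} {Γ : Type u} [Group Γ] [Finite Γ] {σ : Γ →* Omega F (quadFormMinus n F a b)}

local notation "QM" => quadFormMinus n F a b

theorem hU_two (C : QC F K a b) (hn : 5 ≤ n) (hF : Fintype.card F = 2) (hs : Function.Surjective σ)
    (hcen : σ.ker ≤ center Γ) (j : Fin n) (s t : K) (x y : Γ) (hx : iOm (σ x) = blk C j (uu s))
    (hy : iOm (σ y) = blk C j (uu t)) : Commute x y := by
  classical
  have hQ := nd_M (n := n) C
  have hn3 : 3 ≤ n := by omega
  have hn4 : 4 ≤ n := by omega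
  haveI : Nontrivial (Fin n) := Fin.nontrivial_iff_two_le.mpr (by omega)
  obtain ⟨k, hk⟩ := exists_ne j
  have hjk : j ≠ k := hk.symm
  obtain ⟨c, hc1, hc2⟩ : ∃ c : Fin n, j ≠ c ∧ k ≠ c := by
    by_contra hcon
    push Not at hcon
    have hsub : (Finset.univ : Finset (Fin n)) ⊆ {j, k} := fun c _ => by
      by_cases h : j = c
      · simp [h]
      · simp [← hcon c h]
    have h1 := Finset.card_le_card hsub
    have h2 : ({j, k} : Finset (Fin n)).card ≤ 2 := Finset.card_le_two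
    simp only [Finset.card_univ, Fintype.card_fin] at h1
    omega
  obtain ⟨S, hS⟩ := exists_sec (a := a) (b := b) (σ := σ) hn hF hs hcen
  have hJ := Q_eM (n := n) (F := F) (a := a) (b := b) j
  have hKk := Q_eM (n := n) (F := F) (a := a) (b := b) k
  set u : VM n → F := uM C s with hu
  set w : VM n → F := uM C t with hw
  have eY := eich_Y C j s
  have eY' := eich_Y C j t
  have eP := eich_Y C k t
  have eτ := eich_T (a := a) (b := b) hjk (1 : F)
  obtain ⟨t₃, ht₃⟩ := exists_lev hn4 (TT hjk (1 : F))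
  set τh : Γ := S t₃ with hτh
  have hτ0 : iOm (σ τh) = levM (TT hjk (1 : F)) := by rw [hτh, hS, ht₃]
  obtain ⟨P, hP⟩ := ex_lift (σ := σ) hs (blk_mem_omega C hn3 k (uu t))
  obtain ⟨t₁, ht₁⟩ := exists_long (a := a) (b := b) hn4 k j (pol (QM) w u)
  obtain ⟨t₂, ht₂⟩ := exists_long (a := a) (b := b) hn4 j k ((QM) w)
  set Zh : Γ := S t₂ with hZh
  have hZ0 : iOm (σ Zh) = exM (iO t₂) := hS t₂
  have hzeY : pol (QM) (eM j) u = 0 := pol_eM_uM' C j s
  have hzeP : pol (QM) (eM j) w = 0 := pol_eM_uM' C j t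
  have hzkW : pol (QM) (eM k) w = 0 := pol_eM_uM' C k t
  have hzkU : pol (QM) (eM k) u = 0 := pol_eM_uM' C k s
  have hjkp : pol (QM) (eM j) (eM k) = 0 := by
    rw [pol_eM]
    simp [eM, Pi.single_apply]
  have hkjp : pol (QM) (eM k) (eM j) = 0 := by
    rw [pol_eM]
    simp [eM, Pi.single_apply]
  have hwj : pol (QM) w (eM j) = 0 := by rw [pol_symm hQ, hzeP]
  -- the commutator `R`
  set R : Γ := x * P * x⁻¹ * P⁻¹ with hR
  have hR0 : iOm (σ R) = exM (iO t₁) := by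
    rw [hR]
    simp only [map_mul, map_inv]
    rw [hx, hP]
    exact eich_comm hQ hJ hKk hkjp hzkU hzeY hwj hzkW eY eP ht₁
  have hRalt : Eich (QM) (iOm (σ R)) (eM j) ((-pol (QM) w u) • eM k) := by
    rw [hR0]
    exact eich_alt hQ hJ hKk ht₁
  have hRcent : pol (QM) (eM j) ((-pol (QM) w u) • eM k) = 0 := pol_eM_eM' C j k _
  have hZcent : pol (QM) (eM j) ((QM) w • eM k) = 0 := pol_eM_eM' C j k _
  have hτcent : pol (QM) (eM j) ((1 : F) • fM k) = 0 := pol_eM_fM' C hjk 1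
  -- commutations
  have hAZ : x * Zh = Zh * x := by
    have h1 : Eich (QM) (iOm (σ Zh)) (eM j) ((QM) w • eM k) := by rw [hZ0]; exact ht₂
    exact (long_comm C hn4 hs hcen hc1 hc2 hjk _ s h1 hx).symm
  have hBR : y * R = R * y := (long_comm C hn4 hs hcen hc1 hc2 hjk _ t hRalt hy).symm
  have hZR : Zh * R = R * Zh := by
    refine sec_comm hS hcen hZ0 hR0 ?_
    rw [← hR0]
    exact eich_comm_same hQ hJ hZcent hRcent ht₂ hRalt
  have hτR : τh * R = R * τh := by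
    refine sec_comm hS hcen (t₁ := t₃) (hτ0.trans ht₃.symm) hR0 ?_
    rw [← hR0, ht₃]
    exact eich_comm_same hQ hJ hτcent hRcent eτ hRalt
  have hAB : x * y * x⁻¹ * y⁻¹ ∈ center Γ := comm_center hcen (by
    rw [hx, hy]
    exact eich_comm_same hQ hJ hzeY hzeP eY eY')
  obtain ⟨c₂, hc₂, hτA⟩ : ∃ c₂ ∈ center Γ, τh * x * τh⁻¹ = c₂ * x := by
    have h1 : iOm (σ (τh * x * τh⁻¹)) = iOm (σ x) := by
      simp only [map_mul, map_inv]
      rw [hτ0, hx]
      have := eich_comm_same hQ hJ hτcent hzeY eτ eY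
      rw [this, mul_inv_cancel_right]
    exact eq_center hcen h1
  obtain ⟨c₁, hc₁, hτP⟩ : ∃ c₁ ∈ center Γ, τh * P * τh⁻¹ = c₁ * (Zh * (y * P)) := by
    have h1 : iOm (σ (τh * P * τh⁻¹)) = iOm (σ (Zh * (y * P))) := by
      simp only [map_mul, map_inv]
      rw [hτ0, hP, hZ0, hy]
      have e0 := eP.conj (levM_mem_iso (TT hjk (1 : F)))
      have e1 : (levM (TT hjk (1 : F))).1 *ᵥ (eM k : VM n → F) = eM j + eM k := by
        rw [eτ (eM k), pol_smul_right hQ, pol_fM, pol_eM, hQ.smul, Q_fM]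
        simp [eM, Pi.single_apply, hjk, Ne.symm hjk, add_comm]
      have e2 : (levM (TT hjk (1 : F))).1 *ᵥ (w : VM n → F) = w := levM_uM C _ t
      rw [e1, e2] at e0
      exact eich_sum hQ hJ hKk hjkp hzeP hzkW ht₂ eY' eP e0
    exact eq_center hcen h1
  exact abstract_end hc₁ hc₂ hτA hτP hAZ hBR hZR hτR hR hAB

end Cfsg.Agent.Lib.MinStem
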