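import Cfsg.Agent.Lib.MinStem.Target
import Cfsg.Agent.Lib.Schur.SL2Stem
import Cfsg.Agent.Lib.Schur.SpStem.Lift
import Cfsg.Agent.Lib.MinStem.ExcLam

/-!
# `q = 2`, all `n ≥ 3`: the lifts of the short root elements commute (replaces the certificates)

`π = iOm ∘ σ`, central kernel. `K = F₄`, `α ∈ Kˣ`, `ᾱ ≠ α`, `ζ = α / ᾱ`, `1 + ζ + ζ² = 0`; `R = blk i (dd α)` fixes all `e_k`, `f_k` (`N α = 1`) and `R z = ζ z` on `K`.
`E(p, v)` is the Eichler transformation (`Eich Q g p v`); write `⁅x, y⁆` for lifts. `Commute` of two `E`s when all four polars vanish (`eich_comm`).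
(d) `comm_of_scale'`: a lift `c` of an element commuting with all `g t`, fixed by `R`, `g` additive and `R g t R⁻¹ = g (ζ t)`: `c` commutes with all lifts of `g t`, since `t ↦ ⁅c, lift (g t)⁆` is additive and `ζ`-invariant, `ζ ≠ 1`.
Centres add (`eich_add_centre`): `E(p₁ + p₂, v) = E(p₁, Q(v) p₂) E(p₁, v) E(p₂, v)` for `p₁ ⊥ p₂`, `v ⊥ p₁, p₂`.
Step 1 (`step1`): `a, b, c` distinct. Lifts of `E(e_a, 1)`, `E(e_b, 1)` commute. `x` lift of `E(e_a,1)`, `p = e_a + f_c` (singular), `S₁` lift of `E(p,1)`, `h` lift of `E(e_b, e_c)`: `h p = p + e_b`, `h` fixes `e_a`, `1`. So `S₂ = h S₁ h⁻¹` lifts `E(p + e_b, 1) = E(p, e_b) E(p, 1) E(e_b, 1)`, and `⁅x, S₂⁆ = ⁅x, S₁⁆` (conjugate by `h`). By (d) `⁅x, lift E(p, e_b)⁆ = 1`. So `⁅x, B⁆ = 1`.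
Step 2 (`step2`): `A_z` lift of `E(e_a, z)`, `B_z` lift of `E(e_b, z)`, `T` lift of `E(e_a, f_b)`, `T e_b = e_a + e_b`. `T B_z T⁻¹` lifts `L_z A_z B_z`, `L_z` lift of `E(e_a, N(z) e_b)`. Conjugating the central `⁅B₁, B_ζ⁆` by `T`, and (d) for `L`, and for the lifts `D` of `E(e_a, t e_b)` (these are the `⁅A, B⁆`): `⁅A₁, A_ζ⁆ ⁅B₁, A_ζ⁆ ⁅A₁, B_ζ⁆ = 1`. `R` commutes with `D` (orders 3 and 2), so `⁅A_ζ, B₁⁆ = R ⁅A₁, B_{ζ²}⁆ R⁻¹ = ⁅A₁, B_{ζ²}⁆ = ⁅A₁, B₁⁆ ⁅A₁, B_ζ⁆ = ⁅A₁, B_ζ⁆` (Step 1). So `⁅A₁, A_ζ⁆ = 1`.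
Step 3: all `s, t`: biadditivity, and conjugation by `R`; `K = {0, 1, ζ, ζ²}`.
-/

set_option autoImplicit false
set_option linter.unusedSectionVars false
set_option linter.unusedVariables false
set_option linter.unusedSimpArgs false

namespace Cfsg.Agent.Lib.MinStem

open Matrix Cfsg Subgroup Cfsg.Agent.Lib.PresSp.M2 Cfsg.Agent.Lib.GeoOmega.Eichler Cfsg.Agent.Lib.QuadFn Cfsg.Geo
  Cfsg.Agent.Lib.Geo.QForm Cfsg.Agent.Lib.PresOm
open Cfsg.Agent.Lib.Schur.SL2Stem (commutator_congr commutator_mem_ker)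
open scoped commutatorElement

namespace LiftQ2

section group

variable {Γ G : Type*} [Group Γ] [Group G] {π : Γ →* G}

lemma cm_central (hcen : π.ker ≤ center Γ) {x y : Γ} (h : Commute (π x) (π y)) : ⁅x, y⁆ ∈ center Γ :=
  hcen (commutator_mem_ker h)

lemma cm_mul_right (hcen : π.ker ≤ center Γ) {x y y' : Γ} (h : Commute (π x) (π y')) :
    ⁅x, y * y'⁆ = ⁅x, y⁆ * ⁅x, y'⁆ := by
  have h2 : ⁅x, y * y'⁆ = ⁅x, y⁆ * (y * ⁅x, y'⁆ * y⁻¹) := by
    simp only [commutatorElement_def]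
    group
  rw [h2, mem_center_iff.1 (cm_central hcen h) y, mul_inv_cancel_right]

lemma cm_mul_left (hcen : π.ker ≤ center Γ) {x x' y : Γ} (h : Commute (π x') (π y)) :
    ⁅x * x', y⁆ = ⁅x', y⁆ * ⁅x, y⁆ := by
  have h2 : ⁅x * x', y⁆ = (x * ⁅x', y⁆ * x⁻¹) * ⁅x, y⁆ := by
    simp only [commutatorElement_def]
    group
  rw [h2, mem_center_iff.1 (cm_central hcen h) x, mul_inv_cancel_right]

lemma conj_central {z : Γ} (hz : z ∈ center Γ) (g : Γ) : g * z * g⁻¹ = z := by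
  rw [mem_center_iff.1 hz g, mul_inv_cancel_right]

lemma conj_cm (g x y : Γ) : g * ⁅x, y⁆ * g⁻¹ = ⁅g * x * g⁻¹, g * y * g⁻¹⁆ := by
  simp only [commutatorElement_def]
  group

lemma commute_of_cm {x y : Γ} (h : ⁅x, y⁆ = 1) : Commute x y := by
  rw [commutatorElement_def] at h
  exact (mul_inv_eq_one.1 (by simpa [mul_assoc] using h) : x * y * x⁻¹ = y) |> fun h' => mul_inv_eq_iff_eq_mul.1 h'

lemma cm_of_commute {x y : Γ} (h : Commute x y) : ⁅x, y⁆ = 1 := by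
  rw [commutatorElement_def, h.eq]
  group

lemma cm_L {L u v : Γ} (h1 : Commute L u) (h2 : Commute L v) : ⁅L * u, L * v⁆ = ⁅u, v⁆ := by
  have c : Commute L ⁅u, v⁆ := by
    rw [commutatorElement_def]
    exact ((h1.mul_right h2).mul_right h1.inv_right).mul_right h2.inv_right
  have c' : Commute L (u * v * u⁻¹) := (h1.mul_right h2).mul_right h1.inv_right
  have e1 : L * u * (L * v) * (L * u)⁻¹ * (L * v)⁻¹ = L * (u * L) * v * u⁻¹ * L⁻¹ * v⁻¹ * L⁻¹ := by group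
  have e2 : L * (L * u) * v * u⁻¹ * L⁻¹ * v⁻¹ * L⁻¹ = L * (L * (u * v * u⁻¹)) * L⁻¹ * v⁻¹ * L⁻¹ := by group
  simp only [commutatorElement_def]
  rw [e1, ← h1.eq, e2, c'.eq]
  have e3 : L * (u * v * u⁻¹ * L) * L⁻¹ * v⁻¹ * L⁻¹ = L * (u * v * u⁻¹ * v⁻¹) * L⁻¹ := by group
  rw [e3]
  rw [commutatorElement_def] at c
  rw [c.eq, mul_inv_cancel_right]

/-- The `d` lemma. -/
theorem comm_of_scale' {K : Type*} [Field K] (hcen : π.ker ≤ center Γ) {A : Γ} {g : K → G} (hr : ∀ t, g t ∈ π.range)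
    (hg : ∀ a b, g (a + b) = g a * g b) (hcomm : ∀ t, Commute (π A) (g t)) {w : K} (hw : w ≠ 1) {R : Γ}
    (hR1 : π R * π A * (π R)⁻¹ = π A) (hR2 : ∀ t, π R * g t * (π R)⁻¹ = g (w * t)) {t : K} {B : Γ} (hB : π B = g t) :
    Commute A B := by
  choose L hL using hr
  have hc : ∀ t, Commute (π A) (π (L t)) := fun t => by rw [hL]; exact hcomm t
  have hz : ∀ t, ⁅A, L t⁆ ∈ center Γ := fun t => cm_central hcen (hc t)
  have hadd : ∀ x y, ⁅A, L (x + y)⁆ = ⁅A, L x⁆ * ⁅A, L y⁆ := by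
    intro x y
    rw [← cm_mul_right hcen (hc y)]
    exact commutator_congr hcen rfl (by rw [map_mul, hL, hL, hL, hg])
  have hw' : ∀ x, ⁅A, L (w * x)⁆ = ⁅A, L x⁆ := by
    intro x
    have e := conj_cm R A (L x)
    rw [conj_central (hz x) R] at e
    rw [e]
    exact commutator_congr hcen (by simp only [map_mul, map_inv]; exact hR1.symm)
      (by simp only [map_mul, map_inv, hL]; exact (hR2 x).symm)
  have hw1 : w - 1 ≠ 0 := sub_ne_zero.2 hw
  have key : ⁅A, L t⁆ = 1 := by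
    set s := (w - 1)⁻¹ * t with hs
    have e1 : w * s = s + t := by
      rw [hs]
      field_simp
      ring
    have e2 := hw' s
    rw [e1, hadd] at e2
    exact (mul_eq_left.1 e2)
  apply commute_of_cm
  rw [commutator_congr hcen rfl (hB.trans (hL t).symm)]
  exact key

/-- Orders 3 and 2. -/
theorem comm_of_orders (hcen : π.ker ≤ center Γ) {R E : Γ} (h : Commute (π R) (π E)) (h3 : π R ^ 3 = 1)
    (h2 : π E * π E = 1) : Commute R E := by
  have hz := cm_central hcen h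
  have e2 : ⁅R, E * E⁆ = ⁅R, E⁆ * ⁅R, E⁆ := cm_mul_right hcen h
  have hEE : E * E ∈ center Γ := hcen (by rw [MonoidHom.mem_ker, map_mul, h2])
  have e21 : ⁅R, E * E⁆ = 1 := cm_of_commute (mem_center_iff.1 hEE R)
  have hRRR : R * R * R ∈ center Γ := hcen (by
    rw [MonoidHom.mem_ker, map_mul, map_mul, ← h3, pow_three, mul_assoc])
  have e31 : ⁅R * R * R, E⁆ = 1 := cm_of_commute (mem_center_iff.1 hRRR E).symm
  have hRR : Commute (π (R * R)) (π E) := by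
    rw [map_mul]
    exact h.mul_left h
  have e3 : ⁅R * R * R, E⁆ = ⁅R, E⁆ * ⁅R * R, E⁆ := cm_mul_left hcen h
  have e32 : ⁅R * R, E⁆ = ⁅R, E⁆ * ⁅R, E⁆ := cm_mul_left hcen h
  rw [e32, e31] at e3
  rw [e21] at e2
  apply commute_of_cm
  -- `u³ = 1`, `u² = 1`
  have e4 : ⁅R, E⁆ * 1 = 1 := by
    nth_rewrite 1 [e2]
    exact e3.symm
  simpa using e4

end group

section eich

variable {ι : Type} [Fintype ι] [DecidableEq ι] {F : Type*} [Field F] {Q : (ι → F) → F}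

lemma eich_fix {g : GeneralLinearGroup ι F} {p b x : ι → F} (h : Eich Q g p b) (h1 : pol Q x b = 0) (h2 : pol Q x p = 0) :
    (g : Matrix ι ι F) *ᵥ x = x := by
  rw [h x, h1, h2]
  simp

lemma eich_comm (hQ : IsNondegenerateQuadraticForm Q) {g g' : GeneralLinearGroup ι F} {p v p' v' : ι → F}
    (hg : Eich Q g p v) (hg' : Eich Q g' p' v') (hp' : Q p' = 0) (hb' : pol Q p' v' = 0)
    (h1 : pol Q p v' = 0) (h2 : pol Q p p' = 0) (h3 : pol Q v v' = 0) (h4 : pol Q v p' = 0) : Commute g g' := by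
  have hI := hg'.mem_isometry hQ hp' hb'
  have e := hg.conj hI
  rw [eich_fix hg' h1 h2, eich_fix hg' h3 h4] at e
  have := e.unique' hg
  exact (mul_inv_eq_iff_eq_mul.1 this).symm

/-- Conjugation of an Eichler transformation by an isometry fixing `p`, `v` up to the given images. -/
lemma eich_add_centre (hQ : IsNondegenerateQuadraticForm Q) {L g₁ g₂ : GeneralLinearGroup ι F} {p₁ p₂ v : ι → F}
    (hL : Eich Q L p₁ (Q v • p₂)) (h1 : Eich Q g₁ p₁ v) (h2 : Eich Q g₂ p₂ v) (hp₁ : Q p₁ = 0) (hp₂ : Q p₂ = 0)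
    (h12 : pol Q p₁ p₂ = 0) (h1v : pol Q p₁ v = 0) (h2v : pol Q p₂ v = 0) :
    Eich Q (L * g₁ * g₂) (p₁ + p₂) v := by
  intro x
  have h11 := pol_singular hQ hp₁
  have h22 := pol_singular hQ hp₂
  have h21 : pol Q p₂ p₁ = 0 := by rw [pol_symm hQ, h12]
  have hv1 : pol Q v p₁ = 0 := by rw [pol_symm hQ, h1v]
  have hv2 : pol Q v p₂ = 0 := by rw [pol_symm hQ, h2v]
  have hvv : pol Q v v = 2 * Q v := pol_self hQ v
  have e1 : pol Q ((g₂ : Matrix ι ι F) *ᵥ x) p₁ = pol Q x p₁ := by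
    rw [h2.pol_left hQ, h21, hv1]
    ring
  have e2 : pol Q ((g₂ : Matrix ι ι F) *ᵥ x) p₂ = pol Q x p₂ := by
    rw [h2.pol_left hQ, h22, hv2]
    ring
  have e3 : pol Q ((g₂ : Matrix ι ι F) *ᵥ x) v = pol Q x v - 2 * Q v * pol Q x p₂ := by
    rw [h2.pol_left hQ, h2v, hvv]
    ring
  have e4 : pol Q ((g₁ : Matrix ι ι F) *ᵥ ((g₂ : Matrix ι ι F) *ᵥ x)) p₁ = pol Q x p₁ := by
    rw [h1.pol_left hQ, h11, hv1, e1]
    ring
  have e5 : pol Q ((g₁ : Matrix ι ι F) *ᵥ ((g₂ : Matrix ι ι F) *ᵥ x)) p₂ = pol Q x p₂ := by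
    rw [h1.pol_left hQ, h12, hv2, e2]
    ring
  have hQs : Q (Q v • p₂) = 0 := by
    rw [hQ.smul, hp₂, mul_zero]
  rw [Units.val_mul, Units.val_mul, ← Matrix.mulVec_mulVec, ← Matrix.mulVec_mulVec, hL _, pol_smul_right hQ, hQs, e4, e5,
    h1 _, e1, e3, h2 x, pol_add_right hQ]
  module

end eich

section main

variable {n : ℕ} {F : Type*} {K : Type*} [Field F] [Fintype F] [Field K] [Algebra F K] [QCj K] [QF F K] {a b : F}
  {Γ : Type*} [Group Γ]

local notation "QM" => quadFormMinus n F a b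

/-- The setting. -/
structure Ctx (C : QC F K a b) (π : Γ →* GeneralLinearGroup (VM n) F) (ζ : K) (R : Γ) : Prop where
  hn : 3 ≤ n
  hcen : π.ker ≤ center Γ
  hr : ∀ g ∈ omegaGL (QM), g ∈ π.range
  h2 : (2 : F) = 0
  hnm : ∀ z : K, z ≠ 0 → (nm z : F) = 1
  h1 : ζ ≠ 1
  h0 : ζ ≠ 0
  hsq : ζ * ζ = 1 + ζ
  hRe : ∀ k, (π R : Matrix (VM n) (VM n) F) *ᵥ eM k = eM k
  hRf : ∀ k, (π R : Matrix (VM n) (VM n) F) *ᵥ fM k = fM k
  hRu : ∀ z, (π R : Matrix (VM n) (VM n) F) *ᵥ uM C z = uM C (ζ * z)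
  hRI : π R ∈ isometryGroup F (QM)
  hR3 : π R ^ 3 = 1

variable {C : QC F K a b} {π : Γ →* GeneralLinearGroup (VM n) F} {ζ : K} {R : Γ}

lemma pol_ee (i j : Fin n) : pol (QM) (eM i) (eM j) = 0 := by
  rw [pol_eM]
  simp [eM, Pi.single_apply]

lemma pol_ff (i j : Fin n) : pol (QM) (fM i) (fM j) = 0 := by
  rw [pol_fM]
  simp [fM, Pi.single_apply]

lemma pol_ef (i j : Fin n) : pol (QM) (eM i) (fM j) = if j = i then 1 else 0 := by
  rw [pol_fM]
  simp [eM, Pi.single_apply]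

lemma pol_fe (i j : Fin n) : pol (QM) (fM i) (eM j) = if j = i then 1 else 0 := by
  rw [pol_eM]
  simp [fM, Pi.single_apply]

lemma pol_ue (z : K) (j : Fin n) (C : QC F K a b) : pol (QM) (uM C z) (eM j) = 0 := by
  rw [pol_eM]
  simp [uM]

lemma pol_uf (z : K) (j : Fin n) (C : QC F K a b) : pol (QM) (uM C z) (fM j) = 0 := by
  rw [pol_fM]
  simp [uM]

lemma pol_eu (C : QC F K a b) (j : Fin n) (z : K) : pol (QM) (eM j) (uM C z) = 0 := by
  rw [pol_uM, zOf_eM, zero_mul, tr_zero]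

lemma pol_fu (C : QC F K a b) (j : Fin n) (z : K) : pol (QM) (fM j) (uM C z) = 0 := by
  rw [pol_uM, zOf_fM, zero_mul, tr_zero]

lemma pol_uu (C : QC F K a b) (z w : K) : pol (QM) (uM C z) (uM C w) = tr (z * cj w) := by
  rw [pol_uM, zOf_uM]

lemma uM_add' (C : QC F K a b) (z w : K) : (uM C (z + w) : VM n → F) = uM C z + uM C w := by
  funext r
  rcases r with r | r
  · simp [uM]
  · simp [uM, map_add]

namespace Ctx

variable (H : Ctx C π ζ R)
include H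

lemma lift {p v : VM n → F} (hp : (QM) p = 0) (hb : pol (QM) p v = 0) : ∃ x, Eich (QM) (π x) p v := by
  obtain ⟨g, hg⟩ := exists_eich (nd_M C) hp hb
  obtain ⟨x, hx⟩ := H.hr g (hg.mem_omega (nd_M C) (card_VM_ge H.hn) hp hb)
  exact ⟨x, hx ▸ hg⟩

lemma d {p : VM n → F} (hp : (QM) p = 0) (hRp : (π R : Matrix (VM n) (VM n) F) *ᵥ p = p)
    (hpu : ∀ z, pol (QM) p (uM C z) = 0) {c : Γ} (hc1 : Commute (π c) (π R))
    (hc2 : ∀ z g, Eich (QM) g p (uM C z) → Commute (π c) g) {B : Γ} {z : K} (hB : Eich (QM) (π B) p (uM C z)) :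
    Commute c B := by
  have hex : ∀ z, ∃ g, Eich (QM) g p (uM C z) := fun z => exists_eich (nd_M C) hp (hpu z)
  choose g hg using hex
  refine comm_of_scale' H.hcen (g := g) (w := ζ) ?_ ?_ (fun t => hc2 t _ (hg t)) H.h1 (R := R) ?_ ?_ (t := z) (B := B) ?_
  · exact fun t => H.hr _ ((hg t).mem_omega (nd_M C) (card_VM_ge H.hn) hp (hpu t))
  · intro s t
    have e := (hg s).mul (nd_M C) (hg t) hp (hpu s) (hpu t)
    rw [← uM_add'] at e
    exact (hg (s + t)).unique' e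
  · exact mul_inv_eq_iff_eq_mul.2 hc1.eq.symm
  · intro t
    have e := (hg t).conj H.hRI
    rw [hRp, H.hRu] at e
    exact e.unique' (hg _)
  · exact hB.unique' (hg z)

lemma long_comm_R {i j : Fin n} {t : F} {E : Γ} (hE : Eich (QM) (π E) (eM i) (t • eM j)) : Commute R E := by
  have hb : pol (QM) (eM i) (t • eM j) = 0 := by
    rw [pol_smul_right (nd_M C), pol_ee, mul_zero]
  refine comm_of_orders H.hcen ?_ H.hR3 ?_
  · have e := hE.conj H.hRI
    rw [Matrix.mulVec_smul, H.hRe, H.hRe] at e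
    have := e.unique' hE
    exact mul_inv_eq_iff_eq_mul.1 this
  · have e := hE.mul (nd_M C) hE (Q_eM i) hb hb
    have e0 : t • (eM j : VM n → F) + t • eM j = 0 := by
      rw [← add_smul, ← two_mul, H.h2, zero_mul, zero_smul]
    rw [e0] at e
    exact e.unique' (eich_zero C i)

lemma long_comm_Y {i j i' : Fin n} {t : F} {E : Γ} (hE : Eich (QM) (π E) (eM i) (t • eM j)) {z : K} {A : Γ}
    (hA : Eich (QM) (π A) (eM i') (uM C z)) : Commute E A := by
  have hR := (H.long_comm_R hE).map π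
  refine H.d (Q_eM i') (H.hRe i') (pol_eu C i') hR.symm ?_ hA
  intro w g hg
  refine eich_comm (nd_M C) hE hg (Q_eM i') (pol_eu C i' w) (pol_eu C i w) (pol_ee i i') ?_ ?_
  · rw [pol_smul_left (nd_M C), pol_eu, mul_zero]
  · rw [pol_smul_left (nd_M C), pol_ee, mul_zero]

lemma cm_long {i j : Fin n} {z w : K} {A B : Γ} (hA : Eich (QM) (π A) (eM i) (uM C z))
    (hB : Eich (QM) (π B) (eM j) (uM C w)) : ∃ t : F, Eich (QM) (π ⁅A, B⁆) (eM i) (t • eM j) := by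
  have nd := nd_M (n := n) C
  set t₀ : F := tr (z * cj w) with ht
  have hI := hB.mem_isometry nd (Q_eM j) (pol_eu C j w)
  have e := hA.conj hI
  have e1 : (π B : Matrix (VM n) (VM n) F) *ᵥ eM i = eM i := eich_fix hB (pol_eu C i w) (pol_ee i j)
  have e2 : (π B : Matrix (VM n) (VM n) F) *ᵥ uM C z = uM C z + t₀ • eM j := by
    rw [hB (uM C z), pol_uu, pol_ue]
    simp [ht]
  rw [e1, e2] at e
  have hb0 : pol (QM) (eM i) ((-t₀) • eM j) = 0 := by
    rw [pol_smul_right nd, pol_ee, mul_zero]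
  have hb1 : pol (QM) (eM i) (uM C z + t₀ • eM j) = 0 := by
    rw [pol_add_right nd, pol_eu, pol_smul_right nd, pol_ee]
    ring
  obtain ⟨Λ, hΛ⟩ := exists_eich nd (Q_eM i) hb0
  refine ⟨-t₀, ?_⟩
  have e3 := hΛ.mul nd e (Q_eM i) hb0 hb1
  have e4 : (-t₀) • (eM j : VM n → F) + (uM C z + t₀ • eM j) = uM C z := by
    rw [neg_smul]
    abel
  rw [e4] at e3
  have e5 := e3.unique' hA
  have e6 : π ⁅A, B⁆ = Λ := by
    have e7 : Λ = π A * (π B * π A * (π B)⁻¹)⁻¹ := eq_mul_inv_of_mul_eq e5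
    rw [e7, commutatorElement_def, map_mul, map_mul, map_mul, map_inv, map_inv]
    group
  rw [e6]
  exact hΛ

lemma same_centre {i : Fin n} {z w : K} {A B : Γ} (hA : Eich (QM) (π A) (eM i) (uM C z))
    (hB : Eich (QM) (π B) (eM i) (uM C w)) : Commute (π A) (π B) := by
  have nd := nd_M (n := n) C
  have e1 := hA.mul nd hB (Q_eM i) (pol_eu C i z) (pol_eu C i w)
  have e2 := hB.mul nd hA (Q_eM i) (pol_eu C i w) (pol_eu C i z)
  rw [add_comm] at e2
  exact e1.unique' e2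

lemma step1 {i j k : Fin n} (hij : i ≠ j) (hik : i ≠ k) (hjk : j ≠ k) {X B : Γ}
    (hX : Eich (QM) (π X) (eM i) (uM C 1)) (hB : Eich (QM) (π B) (eM j) (uM C 1)) : Commute X B := by
  have nd := nd_M (n := n) C
  have h2K : (1 : K) + 1 = 0 := by
    have := congrArg (algebraMap F K) H.h2
    rw [map_zero, map_ofNat] at this
    rw [one_add_one_eq_two]
    exact this
  have htr : (tr (1 : K) : F) = 0 := by
    apply alg_inj (K := K)
    rw [alg_tr', map_one, map_zero, h2K]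
  have huu : pol (QM) (uM C (1 : K)) (uM C (1 : K)) = 0 := by
    rw [pol_uu, map_one, mul_one, htr]
  set p : VM n → F := eM i + fM k with hp
  have hpe : ∀ l, pol (QM) p (eM l) = if l = k then 1 else 0 := by
    intro l
    rw [hp, pol_add_left nd, pol_ee, pol_fe, zero_add]
  have hpu : ∀ z, pol (QM) p (uM C z) = 0 := by
    intro z
    rw [hp, pol_add_left nd, pol_eu, pol_fu, add_zero]
  have hQp : (QM) p = 0 := by
    rw [hp, Q_add nd, Q_eM, Q_fM, pol_ef, if_neg (Ne.symm hik)]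
    simp
  have hep : pol (QM) (eM i) p = 0 := by
    rw [hp, pol_add_right nd, pol_ee, pol_ef, if_neg (Ne.symm hik), add_zero]
  have hup : ∀ z, pol (QM) (uM C z) p = 0 := by
    intro z
    rw [hp, pol_add_right nd, pol_ue, pol_uf, add_zero]
  obtain ⟨S, hS⟩ := H.lift hQp (hpu 1)
  have hpej : pol (QM) p (eM j) = 0 := by
    rw [hpe, if_neg hjk]
  obtain ⟨h, hh⟩ := H.lift (Q_eM j) (pol_ee j k)
  set c : F := (QM) (uM C (1 : K)) with hc
  have hps : pol (QM) p (c • eM j) = 0 := by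
    rw [pol_smul_right nd, hpej, mul_zero]
  obtain ⟨Y, hY⟩ := H.lift hQp hps
  -- the conjugate of `S`
  have hI := hh.mem_isometry nd (Q_eM j) (pol_ee j k)
  have e := hS.conj hI
  have e1 : (π h : Matrix (VM n) (VM n) F) *ᵥ p = p + eM j := by
    rw [hh p, hpe k, if_pos rfl, hpej]
    simp
  have e2 : (π h : Matrix (VM n) (VM n) F) *ᵥ uM C 1 = uM C 1 := eich_fix hh (pol_ue 1 k C) (pol_ue 1 j C)
  rw [e1, e2] at e
  have e3 := eich_add_centre nd hY hS hB hQp (Q_eM j) hpej (hpu 1) (pol_eu C j 1)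
  have e4 := e.unique' e3
  -- commutation in the target
  have c1 : Commute (π X) (π S) := eich_comm nd hX hS hQp (hpu 1) (pol_eu C i 1) hep huu (hup 1)
  have c2 : Commute (π X) (π B) := eich_comm nd hX hB (Q_eM j) (pol_eu C j 1) (pol_eu C i 1) (pol_ee i j) huu (pol_ue 1 j C)
  have hYR : Commute (π Y) (π R) := by
    have e5 := hY.conj H.hRI
    have e6 : (π R : Matrix (VM n) (VM n) F) *ᵥ p = p := by
      rw [hp, Matrix.mulVec_add, H.hRe, H.hRf]
    rw [e6, Matrix.mulVec_smul, H.hRe] at e5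
    have := e5.unique' hY
    exact (mul_inv_eq_iff_eq_mul.1 this).symm
  have cY : Commute Y X := by
    refine H.d (Q_eM i) (H.hRe i) (pol_eu C i) hYR ?_ hX
    intro z g hg
    refine eich_comm nd hY hg (Q_eM i) (pol_eu C i z) (hpu z) ?_ ?_ ?_
    · rw [hpe, if_neg hik]
    · rw [pol_smul_left nd, pol_eu, mul_zero]
    · rw [pol_smul_left nd, pol_ee, mul_zero]
  have hhX : π (h * X * h⁻¹) = π X := by
    have e5 := hX.conj hI
    rw [eich_fix hh (pol_ee i k) (pol_ee i j), e2] at e5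
    simp only [map_mul, map_inv]
    exact e5.unique' hX
  have hhS : π (h * S * h⁻¹) = π (Y * S * B) := by
    simp only [map_mul, map_inv]
    exact e4
  have hz : ⁅X, S⁆ ∈ center Γ := cm_central H.hcen c1
  have e7 : ⁅X, S⁆ = ⁅X, Y * S * B⁆ := by
    have e8 := conj_cm h X S
    rw [conj_central hz h] at e8
    rw [e8]
    exact commutator_congr H.hcen hhX hhS
  have e9 : ⁅X, Y * S * B⁆ = ⁅X, Y⁆ * ⁅X, S⁆ * ⁅X, B⁆ := by
    rw [cm_mul_right H.hcen c2, cm_mul_right H.hcen c1]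
  rw [e9, cm_of_commute cY.symm, one_mul] at e7
  apply commute_of_cm
  exact (mul_eq_left.1 e7.symm)

lemma step2 {i j k : Fin n} (hij : i ≠ j) (hik : i ≠ k) (hjk : j ≠ k) {A₁ A₂ : Γ}
    (h1 : Eich (QM) (π A₁) (eM i) (uM C 1)) (h2 : Eich (QM) (π A₂) (eM i) (uM C ζ)) : Commute A₁ A₂ := by
  have nd := nd_M (n := n) C
  have h2K : (1 : K) + 1 = 0 := by
    have := congrArg (algebraMap F K) H.h2
    rw [map_zero, map_ofNat] at this
    rw [one_add_one_eq_two]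
    exact this
  obtain ⟨B₁, hB₁⟩ := H.lift (Q_eM j) (pol_eu C j (1 : K))
  obtain ⟨B₂, hB₂⟩ := H.lift (Q_eM j) (pol_eu C j ζ)
  obtain ⟨B₃, hB₃⟩ := H.lift (Q_eM j) (pol_eu C j (1 + ζ))
  have hef : pol (QM) (eM i) (fM j) = 0 := by
    rw [pol_ef, if_neg (Ne.symm hij)]
  obtain ⟨T, hT⟩ := H.lift (Q_eM i) hef
  have hee1 : pol (QM) (eM i) ((1 : F) • eM j) = 0 := by
    rw [pol_smul_right nd, pol_ee, mul_zero]
  obtain ⟨L, hL⟩ := H.lift (Q_eM i) hee1
  have hIT := hT.mem_isometry nd (Q_eM i) hef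
  -- the conjugates of the `B`
  have key : ∀ z : K, (nm z : F) = 1 → ∀ {Az Bz : Γ}, Eich (QM) (π Az) (eM i) (uM C z) → Eich (QM) (π Bz) (eM j) (uM C z) →
      π (T * Bz * T⁻¹) = π (L * (Az * Bz)) := by
    intro z hz Az Bz hAz hBz
    have e := hBz.conj hIT
    have e1 : (π T : Matrix (VM n) (VM n) F) *ᵥ eM j = eM i + eM j := by
      rw [hT (eM j), pol_ef, if_pos rfl, pol_ee]
      simp [add_comm]
    rw [e1, eich_fix hT (pol_uf z j C) (pol_ue z i C)] at e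
    have hL' : Eich (QM) (π L) (eM i) ((QM) (uM C z) • eM j) := by
      rw [Q_uM, hz]
      exact hL
    have e3 := eich_add_centre nd hL' hAz hBz (Q_eM i) (Q_eM j) (pol_ee i j) (pol_eu C i z) (pol_eu C j z)
    have e4 := e.unique' e3
    simp only [map_mul, map_inv]
    rw [e4, mul_assoc]
  have hnm1 : (nm (1 : K) : F) = 1 := nm_one
  have hnmζ : (nm ζ : F) = 1 := H.hnm ζ H.h0
  have e1 := key 1 hnm1 h1 hB₁
  have e2 := key ζ hnmζ h2 hB₂
  -- `L` is central in the group of the `A` and `B`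
  have cL1 : Commute L A₁ := H.long_comm_Y hL h1
  have cL2 : Commute L A₂ := H.long_comm_Y hL h2
  have cL3 : Commute L B₁ := H.long_comm_Y hL hB₁
  have cL4 : Commute L B₂ := H.long_comm_Y hL hB₂
  have cB : Commute (π B₁) (π B₂) := H.same_centre hB₁ hB₂
  have cA : Commute (π A₁) (π A₂) := H.same_centre h1 h2
  have zB : ⁅B₁, B₂⁆ ∈ center Γ := cm_central H.hcen cB
  have zA : ⁅A₁, A₂⁆ ∈ center Γ := cm_central H.hcen cA
  have e3 : ⁅B₁, B₂⁆ = ⁅A₁ * B₁, A₂ * B₂⁆ := by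
    have e4 := conj_cm T B₁ B₂
    rw [conj_central zB T] at e4
    rw [e4, commutator_congr H.hcen e1 e2]
    -- removing `L`
    exact cm_L (cL1.mul_right cL3) (cL2.mul_right cL4)
  -- the long root commutators
  obtain ⟨t₁₂, hD₁₂⟩ := H.cm_long h1 hB₂
  obtain ⟨t₂₁, hD₂₁⟩ := H.cm_long h2 hB₁
  obtain ⟨t₁₃, hD₁₃⟩ := H.cm_long h1 hB₃
  have cD₁₂A₂ : Commute ⁅A₁, B₂⁆ A₂ := H.long_comm_Y hD₁₂ h2
  have cD₁₂B₁ : Commute ⁅A₁, B₂⁆ B₁ := H.long_comm_Y hD₁₂ hB₁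
  have cD₂₁A₁ : Commute ⁅A₂, B₁⁆ A₁ := H.long_comm_Y hD₂₁ h1
  -- expansion
  have e6 : ⁅A₁ * B₁, A₂ * B₂⁆ = ⁅A₂, B₁⁆⁻¹ * ⁅B₁, B₂⁆ * (⁅A₁, A₂⁆ * ⁅A₁, B₂⁆) := by
    have i1 : ⁅A₁ * B₁, A₂ * B₂⁆ = A₁ * ⁅B₁, A₂ * B₂⁆ * A₁⁻¹ * ⁅A₁, A₂ * B₂⁆ := by
      simp only [commutatorElement_def]
      group
    have i2 : ⁅B₁, A₂ * B₂⁆ = ⁅B₁, A₂⁆ * (A₂ * ⁅B₁, B₂⁆ * A₂⁻¹) := by
      simp only [commutatorElement_def]
      group
    have i3 : ⁅A₁, A₂ * B₂⁆ = ⁅A₁, A₂⁆ * (A₂ * ⁅A₁, B₂⁆ * A₂⁻¹) := by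
      simp only [commutatorElement_def]
      group
    have i4 : ⁅B₁, A₂⁆ = ⁅A₂, B₁⁆⁻¹ := (commutatorElement_inv A₂ B₁).symm
    rw [i1, i2, i3, conj_central zB A₂, i4, (mul_inv_eq_iff_eq_mul.2 cD₁₂A₂.eq.symm : A₂ * ⁅A₁, B₂⁆ * A₂⁻¹ = ⁅A₁, B₂⁆)]
    congr 1
    have c5 : Commute A₁ (⁅A₂, B₁⁆⁻¹ * ⁅B₁, B₂⁆) :=
      (cD₂₁A₁.symm.inv_right).mul_right (mem_center_iff.1 zB A₁)
    exact mul_inv_eq_iff_eq_mul.2 c5.eq
  -- `R`
  have hR13 : Commute R ⁅A₁, B₃⁆ := H.long_comm_R hD₁₃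
  have e7 : ⁅A₁, B₃⁆ = ⁅A₂, B₁⁆ := by
    have e8 := conj_cm R A₁ B₃
    rw [mul_inv_eq_iff_eq_mul.2 hR13.eq] at e8
    rw [e8]
    refine commutator_congr H.hcen ?_ ?_
    · have e9 := h1.conj H.hRI
      rw [H.hRe, H.hRu, mul_one] at e9
      simp only [map_mul, map_inv]
      exact e9.unique' h2
    · have e9 := hB₃.conj H.hRI
      have e10 : ζ * (1 + ζ) = 1 := by
        calc ζ * (1 + ζ) = ζ + ζ * ζ := by ring
          _ = 1 + (ζ * (1 + 1)) := by rw [H.hsq]; ring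
          _ = 1 := by rw [h2K]; ring
      rw [H.hRe, H.hRu, e10] at e9
      simp only [map_mul, map_inv]
      exact e9.unique' hB₁
  have e8 : ⁅A₁, B₃⁆ = ⁅A₁, B₂⁆ := by
    have e9 : π B₃ = π (B₁ * B₂) := by
      have e10 := hB₁.mul nd hB₂ (Q_eM j) (pol_eu C j 1) (pol_eu C j ζ)
      rw [← uM_add'] at e10
      rw [map_mul]
      exact hB₃.unique' e10
    rw [commutator_congr H.hcen rfl e9]
    have i1 : ⁅A₁, B₁ * B₂⁆ = ⁅A₁, B₁⁆ * (B₁ * ⁅A₁, B₂⁆ * B₁⁻¹) := by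
      simp only [commutatorElement_def]
      group
    rw [i1, cm_of_commute (H.step1 hij hik hjk h1 hB₁), one_mul]
    exact mul_inv_eq_iff_eq_mul.2 cD₁₂B₁.eq.symm
  -- conclusion
  rw [← e7, e8] at e6
  rw [e6] at e3
  apply commute_of_cm
  have z2 : ⁅A₁, B₂⁆⁻¹ * ⁅B₁, B₂⁆ * (⁅A₁, A₂⁆ * ⁅A₁, B₂⁆) = ⁅B₁, B₂⁆ * ⁅A₁, A₂⁆ := by
    calc ⁅A₁, B₂⁆⁻¹ * ⁅B₁, B₂⁆ * (⁅A₁, A₂⁆ * ⁅A₁, B₂⁆) = (⁅B₁, B₂⁆ * ⁅A₁, B₂⁆⁻¹) * (⁅A₁, A₂⁆ * ⁅A₁, B₂⁆) := by
          rw [mem_center_iff.1 zB]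
      _ = ⁅B₁, B₂⁆ * (⁅A₁, B₂⁆⁻¹ * ⁅A₁, A₂⁆) * ⁅A₁, B₂⁆ := by group
      _ = ⁅B₁, B₂⁆ * (⁅A₁, A₂⁆ * ⁅A₁, B₂⁆⁻¹) * ⁅A₁, B₂⁆ := by rw [mem_center_iff.1 zA]
      _ = _ := by group
  rw [z2] at e3
  exact (mul_eq_left.1 e3.symm)

lemma all {j i k : Fin n} (hji : j ≠ i) (hjk : j ≠ k) (hik : i ≠ k) (hK : ∀ z : K, z = 0 ∨ z = 1 ∨ z = ζ ∨ z = 1 + ζ)
    (s t : K) {x y : Γ} (hx : Eich (QM) (π x) (eM j) (uM C s)) (hy : Eich (QM) (π y) (eM j) (uM C t)) : Commute x y := by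
  have nd := nd_M (n := n) C
  have Pz : ∀ t : K, ∀ {x y : Γ}, Eich (QM) (π x) (eM j) (uM C 0) → Eich (QM) (π y) (eM j) (uM C t) → Commute x y := by
    intro t x y hx hy
    rw [uM_zero'] at hx
    have e := hx.unique' (eich_zero C j)
    have hz : x ∈ center Γ := H.hcen (by rw [MonoidHom.mem_ker, e])
    exact (mem_center_iff.1 hz y).symm
  have Ps : ∀ t : K, ∀ {x y : Γ}, Eich (QM) (π x) (eM j) (uM C t) → Eich (QM) (π y) (eM j) (uM C t) → Commute x y := by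
    intro t x y hx hy
    apply commute_of_cm
    rw [commutator_congr H.hcen rfl (hy.unique' hx), commutatorElement_self]
  have P1 : ∀ {x y : Γ}, Eich (QM) (π x) (eM j) (uM C 1) → Eich (QM) (π y) (eM j) (uM C ζ) → Commute x y :=
    fun hx hy => H.step2 hji hjk hik hx hy
  have P2 : ∀ {x y : Γ}, Eich (QM) (π x) (eM j) (uM C 1) → Eich (QM) (π y) (eM j) (uM C (1 + ζ)) → Commute x y := by
    intro x y hx hy
    obtain ⟨y₀, hy₀⟩ := H.lift (Q_eM j) (pol_eu C j ζ)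
    have e := hx.mul nd hy₀ (Q_eM j) (pol_eu C j 1) (pol_eu C j ζ)
    rw [← uM_add'] at e
    have e1 : π y = π (x * y₀) := by
      rw [map_mul]
      exact hy.unique' e
    apply commute_of_cm
    rw [commutator_congr H.hcen rfl e1]
    exact cm_of_commute ((Commute.refl x).mul_right (P1 hx hy₀))
  have P3 : ∀ {x y : Γ}, Eich (QM) (π x) (eM j) (uM C ζ) → Eich (QM) (π y) (eM j) (uM C (1 + ζ)) → Commute x y := by
    intro x y hx hy
    obtain ⟨x₀, hx₀⟩ := H.lift (Q_eM j) (pol_eu C j 1)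
    obtain ⟨y₀, hy₀⟩ := H.lift (Q_eM j) (pol_eu C j ζ)
    have e1 := hx₀.conj H.hRI
    rw [H.hRe, H.hRu, mul_one] at e1
    have e2 := hy₀.conj H.hRI
    rw [H.hRe, H.hRu, H.hsq] at e2
    apply commute_of_cm
    have e3 : π x = π (R * x₀ * R⁻¹) := by
      simp only [map_mul, map_inv]
      exact hx.unique' e1
    have e4 : π y = π (R * y₀ * R⁻¹) := by
      simp only [map_mul, map_inv]
      exact hy.unique' e2
    rw [commutator_congr H.hcen e3 e4, ← conj_cm, cm_of_commute (P1 hx₀ hy₀)]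
    simp
  rcases hK s with rfl | rfl | rfl | rfl
  · exact Pz _ hx hy
  · rcases hK t with rfl | rfl | rfl | rfl
    · exact (Pz _ hy hx).symm
    · exact Ps _ hx hy
    · exact P1 hx hy
    · exact P2 hx hy
  · rcases hK t with rfl | rfl | rfl | rfl
    · exact (Pz _ hy hx).symm
    · exact (P1 hy hx).symm
    · exact Ps _ hx hy
    · exact P3 hx hy
  · rcases hK t with rfl | rfl | rfl | rfl
    · exact (Pz _ hy hx).symm
    · exact (P2 hy hx).symm
    · exact (P3 hy hx).symm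
    · exact Ps _ hx hy

end Ctx

end main

/-- The lifts of the short root elements commute, `q = 2`. -/
theorem hU_q2 {n : ℕ} {F : Type*} {K : Type*} [Field F] [Fintype F] [Field K] [Fintype K] [Algebra F K] [QCj K] [QF F K]
    {a b : F} {Γ : Type*} [Group Γ] {σ : Γ →* Omega F (quadFormMinus n F a b)} (C : QC F K a b) (hn : 3 ≤ n)
    (hF : Fintype.card F = 2) (hs : Function.Surjective σ) (hcen : σ.ker ≤ center Γ) (j : Fin n) (s t : K) (x y : Γ)
    (hx : iOm (σ x) = blk C j (uu s)) (hy : iOm (σ y) = blk C j (uu t)) : Commute x y := by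
  classical
  -- the field
  have hF1 : ∀ u : F, u ≠ 0 → u = 1 := by
    intro u hu
    have := FiniteField.pow_card_sub_one_eq_one u hu
    rw [hF] at this
    simpa using this
  have h2 : (2 : F) = 0 := by
    by_contra h
    have h1 := hF1 2 h
    have h3 : (1 : F) + 1 = 1 := by rw [one_add_one_eq_two, h1]
    simpa using h3
  have hnm : ∀ z : K, z ≠ 0 → (nm z : F) = 1 := fun z hz => hF1 _ (nm_ne_zero hz)
  have hcard : Fintype.card K = 4 := by
    rw [Fintype.card_congr C.co.toEquiv]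
    simp [hF]
  have h2K : (2 : K) = 0 := by
    have := congrArg (algebraMap F K) h2
    rwa [map_zero, map_ofNat] at this
  obtain ⟨z₀, hz₀⟩ := QCj.cj_ne (K := K)
  have hz₀0 : z₀ ≠ 0 := by
    rintro rfl
    exact hz₀ (map_zero _)
  set α : Kˣ := Units.mk0 z₀ hz₀0 with hα
  have hαc : (α : K) = z₀ := rfl
  set ζ : K := ((rhoU α : Kˣ) : K) with hζ
  have hζ0 : ζ ≠ 0 := (rhoU α).ne_zero
  have hζ1 : ζ ≠ 1 := by
    intro h
    apply hz₀
    rw [hζ, coe_rhoU] at h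
    have e : (cj ((α⁻¹ : Kˣ) : K) : K) = (cj z₀ : K)⁻¹ := by
      rw [Units.val_inv_eq_inv_val, map_inv₀, hαc]
    rw [e, hαc] at h
    have hc : (cj z₀ : K) ≠ 0 := by simpa using hz₀0
    field_simp at h
    exact h.symm
  have hpow : ∀ u : K, u ≠ 0 → u ^ 3 = 1 := by
    intro u hu
    have := FiniteField.pow_card_sub_one_eq_one u hu
    rwa [hcard] at this
  have hsq : ζ * ζ = 1 + ζ := by
    have h3 := hpow ζ hζ0
    have h4 : (ζ - 1) * (ζ * ζ + ζ + 1) = 0 := by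
      linear_combination h3
    have h5 := (mul_eq_zero.1 h4).resolve_left (sub_ne_zero.2 hζ1)
    linear_combination h5 - h2K * (1 + ζ)
  have hK : ∀ z : K, z = 0 ∨ z = 1 ∨ z = ζ ∨ z = 1 + ζ := by
    have h1z : (1 : K) + ζ ≠ 0 := by
      intro h
      apply hζ1
      linear_combination h - h2K
    have hS : ({0, 1, ζ, 1 + ζ} : Finset K) = Finset.univ := by
      apply Finset.eq_univ_of_card
      rw [hcard, Finset.card_insert_of_notMem, Finset.card_insert_of_notMem, Finset.card_insert_of_notMem,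
        Finset.card_singleton]
      · simp only [Finset.mem_singleton]
        intro h
        have : (1 : K) = 0 := by linear_combination -h
        exact one_ne_zero this
      · simp only [Finset.mem_insert, Finset.mem_singleton, not_or]
        refine ⟨hζ1.symm, ?_⟩
        intro h
        have : ζ = 0 := by linear_combination -h
        exact hζ0 this
      · simp only [Finset.mem_insert, Finset.mem_singleton, not_or]
        exact ⟨zero_ne_one, hζ0.symm, h1z.symm⟩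
    intro z
    have hz := Finset.mem_univ z
    rw [← hS] at hz
    simpa using hz
  -- the indices
  have h3n : 2 ≤ (Finset.univ.erase j).card := by
    rw [Finset.card_erase_of_mem (Finset.mem_univ j), Finset.card_univ, Fintype.card_fin]
    omega
  obtain ⟨i, hi, k, hk, hik⟩ := Finset.one_lt_card.1 h3n
  have hij : j ≠ i := (Finset.ne_of_mem_erase hi).symm
  have hkj : j ≠ k := (Finset.ne_of_mem_erase hk).symm
  -- the map
  let π : Γ →* GeneralLinearGroup (VM n) F := iOm.comp σ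
  have hπ : ∀ w, π w = iOm (σ w) := fun w => rfl
  have hr : ∀ g ∈ omegaGL (quadFormMinus n F a b), g ∈ π.range := by
    intro g hg
    rw [← iOm_range] at hg
    obtain ⟨w, rfl⟩ := hg
    obtain ⟨w', rfl⟩ := hs w
    exact ⟨w', rfl⟩
  have hcen' : π.ker ≤ center Γ := by
    intro w hw
    apply hcen
    rw [MonoidHom.mem_ker] at *
    exact iOm_inj (by rw [map_one]; exact hw)
  obtain ⟨R, hR⟩ := hr _ (blk_mem_omega C hn j (dd α))
  have hα3 : α ^ 3 = 1 := by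
    ext
    simpa [hαc] using hpow z₀ hz₀0
  have hinv : ((α⁻¹ : Kˣ) : K) ≠ 0 := (α⁻¹).ne_zero
  have H : Ctx C π ζ R := by
    refine ⟨hn, hcen', hr, h2, hnm, hζ1, hζ0, hsq, ?_, ?_, ?_, ?_, ?_⟩
    · intro k'
      rw [hR]
      by_cases h : k' = j
      · subst h
        have e := blk_vec C k' (dd α) (1 : F) (0 : K) (0 : F)
        simpa [uM_zero', hnm (α : K) α.ne_zero] using e
      · exact blk_eM_ne C h _
    · intro k'
      rw [hR]
      by_cases h : k' = j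
      · subst h
        have e := blk_vec C k' (dd α) (0 : F) (0 : K) (1 : F)
        have hn' : (nm ((α : K)⁻¹) : F) = 1 := hnm _ (inv_ne_zero α.ne_zero)
        simpa [uM_zero', hn'] using e
      · exact blk_fM_ne C h _
    · intro z
      rw [hR]
      exact blk_dd_uM C j α z
    · rw [hR]
      exact blk_mem_iso C j (dd α)
    · rw [hR, ← map_pow]
      have e : (dd α : M2 K) ^ 3 = dd (α ^ 3) := by
        simp only [pow_three, ← dd_mul]
      rw [e, hα3, dd_one, map_one]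
  have hx' : Eich (quadFormMinus n F a b) (π x) (eM j) (uM C s) := by
    rw [hπ, hx]
    exact eich_Y C j s
  have hy' : Eich (quadFormMinus n F a b) (π y) (eM j) (uM C t) := by
    rw [hπ, hy]
    exact eich_Y C j t
  exact H.all hij hkj hik hK s t hx' hy'


end LiftQ2

section lamtwo

universe u

variable {n : ℕ} {F : Type u} {K : Type u} [Field F] [Fintype F] [Field K] [Fintype K] [Algebra F K] [QCj K] [QF F K]
  {a b : F} {Γ : Type u} [Group Γ] [Finite Γ] {σ : Γ →* Omega F (quadFormMinus n F a b)}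

/-- (helper6) The Levi section for `q = 2`: see `ExcLam.exists_lam_char2`. -/
theorem exists_lam_two (C : QC F K a b) (hn : 3 ≤ n) (hF : Fintype.card F = 2) (hs : Function.Surjective σ)
    (hcen : σ.ker ≤ center Γ) : ∃ lam : SpecialLinearGroup (Fin n) F →* Γ, ∀ l, iOm (σ (lam l)) = levM l := by
  have h2 : (2 : F) = 0 := by
    have h := Nat.cast_card_eq_zero F
    rw [hF] at h
    exact_mod_cast h
  exact ExcLam.exists_lam_char2 C h2 hn hs hcen

end lamtwo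

end Cfsg.Agent.Lib.MinStem
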