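import Cfsg.Agent.Lib.MinStem.LiftSL2
import Cfsg.Agent.Lib.MinStem.LamF4
import Cfsg.Agent.Lib.MinStem.LiftQ2
import Cfsg.Agent.Lib.Schur.SLnStem2
import Cfsg.Agent.Lib.Schur.SpStem.Lift
import Cfsg.Agent.Lib.Schur.SpStem.Sec
import Cfsg.Agent.S2117
import Cfsg.Agent.Lib.Schur.SpStem.Sec

/-!
# The Levi section and the rank one group in a central extension (module L)

Setting: `σ : Γ →* Ω` surjective, central kernel, `π = iOm ∘ σ`.

`exists_lam_gen`: as `exists_lam` in `OddStem/Lift.lean`, `flipSec_of_central` in `OmStem/Bound.lean` (`SpStem.exists_section`, `SLnStem.stem_sl_trivial`, `levM_mem_omega`). The Levi subgroup is perfect for `n ≥ 3`.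
`exists_M_gen`: `card K ≠ 4, 9`: `SpStem.exists_section`, `SpStem/Sec.sl2_perfect`, S2117 (`card_K`).
`hU_three` (`q = 3`, `K = F₉`): `κ(x, y) = ⁅x, y⁆` for lifts `x`, `y` of `blk C j (uu s)`, `blk C j (uu t)`: central, independent of the lifts, biadditive in `(s, t)` (`SchE6.Can.comm_lift`, or `SpStem.comm_mul_right`), alternating. `κ³ = 1` (`3 s = 0`). `r` a lift of `blk C i wn`, `i ≠ j`, conjugates to lifts of `uu (- s̄)`, `uu (- t̄)` (`blk_twist`, `tau_uu`), so `κ(s, t) = κ(-s̄, -t̄)`.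
  For `s̄ = s`, `t̄ = -t`: `κ(s, t) = κ(-s, t) = κ(s, t)⁻¹`, so `κ² = 1`, `κ = 1`. `s̄ = s`, `t̄ = t`: `s, t ∈ F = F₃`, `t = c s`, `c ∈ {0, 1, -1}`: `κ(s, t) = κ(s,s)^c = 1`. Same for `s̄ = -s`, `t̄ = -t` (`t = c s` as the `-1` eigenspace is a line: `t s⁻¹` is fixed). Decompose `s = (s + s̄)/2 + (s - s̄)/2`.
`exists_M`: `q ≠ 2, 3`: `exists_M_gen`; `q = 3`: `lift_sl2`, `hU_three`; `q = 2`: `lift_sl2`, `hU_two`. (`α` with `α² ≠ 1`: `K` has at least `4` elements, `X² - 1` has at most two roots.)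
`exists_theta_data`: choose `a ≠ b` in `Fin n`, `lam`, `M`. `theta`: `SpStem.commute_lift` with `K := M2 K` (`sl2_perfect`), target `levM_blk` with `Mu l b b 1`. `tw`: `SpStem.conj_lift`, target `levM_blk` with `Mu (tt hab ζ) b b ζ⁻¹` (`Mu.tt_b`).
-/

set_option autoImplicit false

namespace Cfsg.Agent.Lib.MinStem

open Matrix Cfsg Subgroup Cfsg.Agent.Lib.PresOm Cfsg.Agent.Lib.PresSp.M2 Cfsg.Agent.Lib.PresSp.Mono
  Cfsg.Agent.Lib.PresSLn.TwoGen

open scoped commutatorElement

universe u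

variable {n : ℕ} {F : Type u} {K : Type u} [Field F] [Fintype F] [Field K] [Fintype K] [Algebra F K] [QCj K] [QF F K]
  {a b : F} {Γ : Type u} [Group Γ] [Finite Γ] {σ : Γ →* Omega F (quadFormMinus n F a b)}

namespace LiftL1

section kappa

variable {F K : Type*} [Field F] [Fintype F] [Field K] [Algebra F K] [QCj K] [QF F K]

lemma fix_cases (hF : Fintype.card F = 3) {c : K} (hc : cj c = c) : c = 0 ∨ c = 1 ∨ c = -1 := by
  classical
  have h3 : (3 : F) = 0 := by
    have h0 := FiniteField.cast_card_eq_zero F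
    rw [hF] at h0
    exact_mod_cast h0
  have h2 : (2 : F) ≠ 0 := by
    intro h
    have h5 : (1 : F) = 3 - 2 := by norm_num
    rw [h3, h, sub_zero] at h5
    exact one_ne_zero h5
  have hd : ∀ d : F, d = 0 ∨ d = 1 ∨ d = -1 := by
    have hne : (1 : F) ≠ -1 := by
      intro h
      apply h2
      have h5 : (2 : F) = 1 - (-1) := by norm_num
      rw [h5, ← h, sub_self]
    have hS : ({0, 1, -1} : Finset F) = Finset.univ := by
      apply Finset.eq_univ_of_card
      rw [hF, Finset.card_insert_of_notMem, Finset.card_insert_of_notMem, Finset.card_singleton]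
      · simpa using hne
      · simp
    intro d
    have h5 : d ∈ ({0, 1, -1} : Finset F) := by rw [hS]; exact Finset.mem_univ d
    simpa using h5
  have h1 : algebraMap F K (tr c) = 2 * c := by rw [alg_tr', hc]; ring
  have h2K : (2 : K) ≠ 0 := by
    have h5 := (map_ne_zero (algebraMap F K)).2 h2
    rw [map_ofNat] at h5
    exact h5
  have e : c = algebraMap F K ((tr c : F) * 2⁻¹) := by
    rw [map_mul, h1, map_inv₀, map_ofNat]
    field_simp
  rcases hd ((tr c : F) * 2⁻¹) with h | h | h <;> rw [h] at e <;> simp at e <;> simp [e]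

/-- An alternating biadditive form on `F₉` invariant under the twist is trivial. -/
theorem kappa_trivial (hF : Fintype.card F = 3) {A : Type*} [CommGroup A] (κ : K → K → A)
    (hr : ∀ s t t', κ s (t + t') = κ s t * κ s t') (hl : ∀ s s' t, κ (s + s') t = κ s t * κ s' t)
    (halt : ∀ s, κ s s = 1) (htw : ∀ s t, κ (-(cj s)) (-(cj t)) = κ s t) (s t : K) : κ s t = 1 := by
  have h3K : (3 : K) = 0 := by
    have h0 := FiniteField.cast_card_eq_zero F
    rw [hF] at h0
    have h5 : (3 : F) = 0 := by exact_mod_cast h0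
    have h6 : algebraMap F K (3 : F) = 0 := by rw [h5, map_zero]
    rw [map_ofNat] at h6
    exact h6
  have hr0 : ∀ s, κ s 0 = 1 := fun s => by
    have h5 := hr s 0 0
    rw [add_zero] at h5
    exact left_eq_mul.1 h5
  have hl0 : ∀ t, κ 0 t = 1 := fun t => by
    have h5 := hl 0 0 t
    rw [add_zero] at h5
    exact left_eq_mul.1 h5
  have hrn : ∀ s t, κ s (-t) = (κ s t)⁻¹ := fun s t => by
    have h5 := hr s t (-t)
    rw [add_neg_cancel, hr0] at h5
    exact eq_inv_of_mul_eq_one_right h5.symm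
  have hln : ∀ s t, κ (-s) t = (κ s t)⁻¹ := fun s t => by
    have h5 := hl s (-s) t
    rw [add_neg_cancel, hl0] at h5
    exact eq_inv_of_mul_eq_one_right h5.symm
  have htw' : ∀ s t, κ (cj s) (cj t) = κ s t := fun s t => by
    rw [← htw s t, hln, hrn, inv_inv]
  have hcube : ∀ s t, κ s t ^ 3 = 1 := fun s t => by
    have e : t + t + t = 0 := by
      have h5 : t + t + t = 3 * t := by ring
      rw [h5, h3K, zero_mul]
    have h5 := hr s (t + t) t
    rw [e, hr0, hr s t t] at h5
    rw [pow_three, ← mul_assoc]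
    exact h5.symm
  have hone : ∀ x : A, x⁻¹ = x → x ^ 3 = 1 → x = 1 := fun x h1 h2 => by
    have h3 : x * x = 1 := by
      nth_rw 1 [← h1]
      exact inv_mul_cancel x
    rw [pow_three, h3, mul_one] at h2
    exact h2
  have hmul : ∀ a c, cj c = c → κ a (c * a) = 1 := fun a c hc => by
    rcases fix_cases (F := F) hF hc with rfl | rfl | rfl
    · rw [zero_mul, hr0]
    · rw [one_mul, halt]
    · rw [neg_one_mul, hrn, halt, inv_one]
  have hA : ∀ a b, cj a = a → cj b = -b → κ a b = 1 := fun a b ha hb =>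
    hone _ (by have h5 := htw' a b; rw [ha, hb, hrn] at h5; exact h5) (hcube a b)
  have hD : ∀ a b, cj a = -a → cj b = b → κ a b = 1 := fun a b ha hb =>
    hone _ (by have h5 := htw' a b; rw [ha, hb, hln] at h5; exact h5) (hcube a b)
  have hB : ∀ a b, cj a = a → cj b = b → κ a b = 1 := fun a b ha hb => by
    by_cases h0 : a = 0
    · rw [h0, hl0]
    · have h5 := hmul a (b / a) (by rw [map_div₀, ha, hb])
      rwa [div_mul_cancel₀ _ h0] at h5
  have hC : ∀ a b, cj a = -a → cj b = -b → κ a b = 1 := fun a b ha hb => by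
    by_cases h0 : a = 0
    · rw [h0, hl0]
    · have h5 := hmul a (b / a) (by rw [map_div₀, ha, hb, neg_div_neg_eq])
      rwa [div_mul_cancel₀ _ h0] at h5
  have hdec : ∀ x : K, ∃ p m, x = p + m ∧ cj p = p ∧ cj m = -m := fun x => by
    refine ⟨2 * (x + cj x), 2 * (x - cj x), ?_, ?_, ?_⟩
    · have h5 : 2 * (x + cj x) + 2 * (x - cj x) = x + 3 * x := by ring
      rw [h5, h3K, zero_mul, add_zero]
    · simp only [map_mul, map_add, QCj.cj_cj, map_ofNat]
      ring
    · simp only [map_mul, map_sub, QCj.cj_cj, map_ofNat]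
      ring
  obtain ⟨p, m, rfl, hp, hm⟩ := hdec s
  obtain ⟨p', m', rfl, hp', hm'⟩ := hdec t
  rw [hl, hr, hr, hB p p' hp hp', hA p m' hp hm', hD m p' hm hp', hC m m' hm hm']
  simp

end kappa

lemma comm_of_central {Γ : Type*} [Group Γ] {a a' b b' : Γ} (h1 : a⁻¹ * a' ∈ center Γ)
    (h2 : b⁻¹ * b' ∈ center Γ) : ⁅a', b'⁆ = ⁅a, b⁆ := by
  obtain ⟨c, hc, rfl⟩ : ∃ c ∈ center Γ, a' = a * c := ⟨_, h1, by group⟩
  obtain ⟨d, hd, rfl⟩ : ∃ d ∈ center Γ, b' = b * d := ⟨_, h2, by group⟩
  simp only [commutatorElement_def]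
  have hc' : ∀ y, c * y = y * c := fun y => (mem_center_iff.1 hc y).symm
  have hd' : ∀ y, d * y = y * d := fun y => (mem_center_iff.1 hd y).symm
  calc a * c * (b * d) * (a * c)⁻¹ * (b * d)⁻¹ = a * (c * (b * d)) * c⁻¹ * a⁻¹ * (b * d)⁻¹ := by group
    _ = a * (b * d) * (c * c⁻¹) * a⁻¹ * (b * d)⁻¹ := by rw [hc']; group
    _ = a * b * (d * a⁻¹) * d⁻¹ * b⁻¹ := by simp only [mul_inv_cancel, mul_one]; group
    _ = a * b * a⁻¹ * b⁻¹ := by rw [hd']; group

end LiftL1

/-- The number of elements of `K`. -/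
lemma card_K (C : QC F K a b) : Fintype.card K = Fintype.card F ^ 2 := by
  rw [Fintype.card_congr C.co.toEquiv]
  simp

theorem exists_lam_gen (C : QC F K a b) (hn : 3 ≤ n) (h3 : n = 3 → Fintype.card F ≠ 2 ∧ Fintype.card F ≠ 4)
    (h4 : n = 4 → Fintype.card F ≠ 2) (hs : Function.Surjective σ) (hcen : σ.ker ≤ center Γ) :
    ∃ lam : SpecialLinearGroup (Fin n) F →* Γ, ∀ l, iOm (σ (lam l)) = levM l := by
  classical
  have hl : ∀ l, (levM l) ∈ (iOm : Omega F (quadFormMinus n F a b) →* _).range := by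
    intro l
    rw [iOm_range]
    exact levM_mem_omega C hn l
  let e := MonoidHom.ofInjective (iOm_inj (n := n) (F := F) (a := a) (b := b))
  let ρ : SpecialLinearGroup (Fin n) F →* Omega F (quadFormMinus n F a b) :=
    e.symm.toMonoidHom.comp ((levM (n := n) (F := F)).codRestrict _ hl)
  have hρ : ∀ l, iOm (ρ l) = levM l := fun l =>
    congrArg Subtype.val (e.apply_symm_apply ((levM (n := n) (F := F)).codRestrict _ hl l))
  have hK : commutator (SpecialLinearGroup (Fin n) F) = ⊤ :=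
    Cfsg.Agent.Lib.Classical.Transvections.commutator_sl_eq_top (F := F) (by rw [Fintype.card_fin]; omega)
  obtain ⟨s, hs'⟩ := Cfsg.Agent.Lib.Schur.SpStem.exists_section (ρ := ρ) hs hcen hK (by
      intro Δ _ _ τ hτ z hz
      exact Cfsg.Agent.Lib.Schur.SLnStem.stem_sl_trivial hτ (by rw [Fintype.card_fin]; omega)
        (by rw [Fintype.card_fin]; exact h3) (by rw [Fintype.card_fin]; exact h4) hz)
  exact ⟨s, fun l => by rw [hs', hρ]⟩

theorem exists_M_gen (C : QC F K a b) (hn : 3 ≤ n) (h4 : Fintype.card K ≠ 4) (h9 : Fintype.card K ≠ 9)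
    (hs : Function.Surjective σ) (hcen : σ.ker ≤ center Γ) (j : Fin n) :
    ∃ M : M2 K →* Γ, ∀ g, iOm (σ (M g)) = blk C j g := by
  classical
  have hl : ∀ g, (blk C j g) ∈ (iOm : Omega F (quadFormMinus n F a b) →* _).range := by
    intro g
    rw [iOm_range]
    exact blk_mem_omega C hn j g
  let e := MonoidHom.ofInjective (iOm_inj (n := n) (F := F) (a := a) (b := b))
  let ρ : M2 K →* Omega F (quadFormMinus n F a b) :=
    e.symm.toMonoidHom.comp ((blk C j).codRestrict _ hl)
  have hρ : ∀ g, iOm (ρ g) = blk C j g := fun g =>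
    congrArg Subtype.val (e.apply_symm_apply ((blk C j).codRestrict _ hl g))
  have hcard : 4 ≤ Fintype.card K := by
    rw [card_K C]
    have := Fintype.one_lt_card (α := F)
    nlinarith
  have hK := Cfsg.Agent.Lib.Schur.SpStem.sl2_perfect (F := K) hcard
  obtain ⟨s, hs'⟩ := Cfsg.Agent.Lib.Schur.SpStem.exists_section (ρ := ρ) hs hcen hK (by
      intro Δ _ _ τ hτ z hz
      obtain ⟨r, hr⟩ := (Cfsg.Agent.S2117.result (F := K) h4 h9).2 _ _ hτ
      obtain ⟨y, hy⟩ := hr ⟨z, hz⟩
      have hy1 : y = 1 := by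
        have hsub : Subsingleton (Multiplicative (ZMod 1)) :=
          inferInstanceAs (Subsingleton (ZMod 1))
        exact Subsingleton.elim _ _
      rw [hy1, map_one] at hy
      exact (congrArg Subtype.val hy).symm)
  exact ⟨s, fun g => by rw [hs', hρ]⟩

theorem hU_three (C : QC F K a b) (hn : 3 ≤ n) (hF : Fintype.card F = 3) (hs : Function.Surjective σ)
    (hcen : σ.ker ≤ center Γ) (j : Fin n) (s t : K) (x y : Γ) (hx : iOm (σ x) = blk C j (uu s))
    (hy : iOm (σ y) = blk C j (uu t)) : Commute x y := by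
  classical
  have hcenπ : ((iOm : Omega F (quadFormMinus n F a b) →* _).comp σ).ker ≤ center Γ := by
    intro x hx
    apply hcen
    rw [MonoidHom.mem_ker] at *
    exact iOm_inj (by simpa using hx)
  set π : Γ →* GeneralLinearGroup (VM n) F := (iOm : Omega F (quadFormMinus n F a b) →* _).comp σ with hπ
  have hπe : ∀ x, π x = iOm (σ x) := fun _ => rfl
  have hrange : ∀ (i : Fin n) (g : M2 K), ∃ γ, π γ = blk C i g := by
    intro i g
    have h1 : blk C i g ∈ (iOm : Omega F (quadFormMinus n F a b) →* _).range := by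
      rw [iOm_range]
      exact blk_mem_omega C hn i g
    obtain ⟨w, hw⟩ := h1
    obtain ⟨γ, rfl⟩ := hs w
    exact ⟨γ, hw⟩
  choose X hX using fun s : K => hrange j (uu s)
  have hU : ∀ s t : K, blk C j (uu (s + t)) = blk C j (uu s) * blk C j (uu t) := fun s t => by
    rw [uu_add, map_mul]
  have hcomU : ∀ s t : K, blk C j (uu s) * blk C j (uu t) = blk C j (uu t) * blk C j (uu s) := by
    intro s t
    rw [← hU, ← hU, add_comm]
  have hind : ∀ {a a' b b' : Γ}, π a = π a' → π b = π b' → ⁅a', b'⁆ = ⁅a, b⁆ := by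
    intro a a' b b' h1 h2
    refine LiftL1.comm_of_central (hcenπ ?_) (hcenπ ?_)
    · rw [MonoidHom.mem_ker, map_mul, map_inv, h1, inv_mul_cancel]
    · rw [MonoidHom.mem_ker, map_mul, map_inv, h2, inv_mul_cancel]
  have hmem : ∀ s t, ⁅X s, X t⁆ ∈ center Γ := by
    intro s t
    apply hcenπ
    rw [MonoidHom.mem_ker, map_commutatorElement, hX, hX]
    exact commutatorElement_eq_one_iff_mul_comm.2 (hcomU s t)
  letI instC : CommGroup (center Γ) :=
    { (inferInstance : Group (center Γ)) with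
      mul_comm := fun a b => Subtype.ext (mem_center_iff.1 b.2 a.1) }
  let κ : K → K → center Γ := fun s t => ⟨⁅X s, X t⁆, hmem s t⟩
  have hκ : ∀ s t, ((κ s t : center Γ) : Γ) = ⁅X s, X t⁆ := fun _ _ => rfl
  have hanti : ∀ s t, κ s t = (κ t s)⁻¹ := by
    intro s t
    apply Subtype.ext
    rw [hκ, Subgroup.coe_inv, hκ, commutatorElement_inv]
  have hr : ∀ s t t', κ s (t + t') = κ s t * κ s t' := by
    intro s t t'
    apply Subtype.ext
    rw [hκ, Subgroup.coe_mul, hκ, hκ]
    rw [hind (a := X s) (a' := X s) (b := X t * X t') (b' := X (t + t')) rfl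
      (by rw [map_mul, hX, hX, hX, hU])]
    exact Cfsg.Agent.Lib.Schur.SpStem.comm_mul_right hcenπ (by rw [hX, hX]; exact hcomU s t')
  have hl : ∀ s s' t, κ (s + s') t = κ s t * κ s' t := by
    intro s s' t
    rw [hanti, hr, mul_inv, ← hanti, ← hanti, mul_comm]
  have halt : ∀ s, κ s s = 1 := by
    intro s
    apply Subtype.ext
    rw [hκ, commutatorElement_self]
    rfl
  obtain ⟨i, hi⟩ : ∃ i : Fin n, j ≠ i := by
    have h2 : 1 < Fintype.card (Fin n) := by rw [Fintype.card_fin]; omega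
    obtain ⟨i, hi⟩ := Fintype.exists_ne_of_one_lt_card h2 j
    exact ⟨i, hi.symm⟩
  obtain ⟨r, hr'⟩ := hrange i (wn : M2 K)
  have htw : ∀ s t, κ (-(cj s)) (-(cj t)) = κ s t := by
    intro s t
    apply Subtype.ext
    rw [hκ, hκ]
    have h1 : ∀ s : K, π (r * X s * r⁻¹) = π (X (-(cj s))) := by
      intro s
      rw [map_mul, map_mul, map_inv, hr', hX, hX, blk_twist C hi, tau_uu]
    rw [hind (h1 s) (h1 t), ← conjugate_commutatorElement]
    have := mem_center_iff.1 (hmem s t) r
    rw [this, mul_inv_cancel_right]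
  have hk := LiftL1.kappa_trivial (F := F) hF κ hr hl halt htw s t
  have hk' : ⁅X s, X t⁆ = 1 := congrArg Subtype.val hk
  have h3 : ⁅x, y⁆ = 1 := by
    rw [hind (a := X s) (a' := x) (b := X t) (b' := y) (by rw [hX, hπe, hx]) (by rw [hX, hπe, hy]), hk']
  exact commutatorElement_eq_one_iff_mul_comm.1 h3

/-- The data and the first relations, for all `q` and all `n ≥ 3`. -/
theorem exists_theta_data_all (C : QC F K a b) (hn : 3 ≤ n)
    (hs : Function.Surjective σ) (hcen : σ.ker ≤ center Γ) :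
    ∃ D : BData (Fin n) F K Γ, BTheta D ∧ (∀ l, iOm (σ (D.lam l)) = levM l) ∧ (∀ g, iOm (σ (D.M g)) = blk C D.b g) := by
  classical
  have hq : 2 ≤ Fintype.card F := Fintype.one_lt_card
  have hK := card_K C
  have hK4 : 4 ≤ Fintype.card K := by
    rw [hK]
    nlinarith
  obtain ⟨lam, hlam⟩ : ∃ lam : SpecialLinearGroup (Fin n) F →* Γ, ∀ l, iOm (σ (lam l)) = levM l := by
    by_cases h2 : Fintype.card F = 2
    · have h20 : (2 : F) = 0 := by
        have h := Nat.cast_card_eq_zero F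
        rw [h2] at h
        exact_mod_cast h
      exact ExcLam.exists_lam_char2 C h20 hn hs hcen
    by_cases h34 : n = 3 ∧ Fintype.card F = 4
    · exact exists_lam_34 C h34.1 h34.2 hs hcen
    · refine exists_lam_gen C hn ?_ ?_ hs hcen
      · intro h
        exact ⟨h2, fun h4 => h34 ⟨h, h4⟩⟩
      · intro h h2'
        exact absurd h2' h2
  have hab : (⟨0, by omega⟩ : Fin n) ≠ ⟨1, by omega⟩ := by simp [Fin.ext_iff]
  set b' : Fin n := ⟨1, by omega⟩ with hb'
  let π : Γ →* GeneralLinearGroup (VM n) F := iOm.comp σ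
  have hπe : ∀ x, π x = iOm (σ x) := fun _ => rfl
  have hcenπ : π.ker ≤ center Γ := by
    intro x hx
    apply hcen
    rw [MonoidHom.mem_ker] at *
    exact iOm_inj (by simpa [π] using hx)
  have hrange : ∀ g, blk C b' g ∈ π.range := by
    intro g
    have h1 : blk C b' g ∈ (iOm : Omega F (quadFormMinus n F a b) →* _).range := by
      rw [iOm_range]
      exact blk_mem_omega C hn b' g
    obtain ⟨w, hw⟩ := h1
    obtain ⟨γ, rfl⟩ := hs w
    exact ⟨γ, hw⟩
  have hα : ∃ α : Kˣ, (α : K) ^ 2 ≠ 1 := by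
    by_contra hall
    push Not at hall
    have hsub : (Finset.univ : Finset K) ⊆ {0, 1, -1} := by
      intro x _
      by_cases hx : x = 0
      · simp [hx]
      have h1 := hall (Units.mk0 x hx)
      have h3 : (x - 1) * (x + 1) = 0 := by
        have : x ^ 2 = 1 := h1
        linear_combination this
      rcases mul_eq_zero.1 h3 with h4 | h4
      · simp [sub_eq_zero.1 h4]
      · simp [eq_neg_of_add_eq_zero_left h4]
    have h5 := Finset.card_le_card hsub
    have h6 : ({0, 1, -1} : Finset K).card ≤ 3 := Finset.card_le_three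
    rw [Finset.card_univ] at h5
    omega
  obtain ⟨M, hM⟩ : ∃ M : M2 K →* Γ, ∀ g, iOm (σ (M g)) = blk C b' g := by
    by_cases h2 : Fintype.card F = 2
    · obtain ⟨α, hα⟩ := hα
      exact lift_sl2 hα hcenπ (blk C b') hrange
        (fun s t x y hx hy => LiftQ2.hU_q2 C hn h2 hs hcen b' s t x y hx hy)
    by_cases h3 : Fintype.card F = 3
    · obtain ⟨α, hα⟩ := hα
      exact lift_sl2 hα hcenπ (blk C b') hrange
        (fun s t x y hx hy => hU_three C hn h3 hs hcen b' s t x y hx hy)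
    · refine exists_M_gen C hn ?_ ?_ hs hcen b'
      · rw [hK]
        intro h
        have h5 : Fintype.card F ≤ 2 := by nlinarith
        omega
      · rw [hK]
        intro h
        have h5 : Fintype.card F ≤ 3 := by nlinarith
        have h6 : 3 ≤ Fintype.card F := by
          by_contra h7
          have h8 : Fintype.card F ≤ 2 := by omega
          nlinarith
        omega
  have hpm : commutator (M2 K) = ⊤ := Cfsg.Agent.Lib.Schur.SpStem.sl2_perfect hK4
  refine ⟨⟨lam, M, _, b', hab⟩, ⟨?_, ?_⟩, hlam, hM⟩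
  · intro l h1 h3 g
    have hmu : Mu l b' b' 1 := ⟨by simpa using h1, by simpa using h3⟩
    refine Cfsg.Agent.Lib.Schur.SpStem.commute_lift (σ := π) hcenπ hpm M (lam l) (fun k => ?_) g
    have h4 := levM_blk C hmu k
    rw [kF_one, kp_one] at h4
    rw [hπe, hπe, hlam, hM]
    exact mul_inv_eq_iff_eq_mul.1 h4
  · intro ζ g
    have hmu : Mu (tt hab ζ) b' b' ζ⁻¹ := Mu.tt_b hab ζ
    refine Cfsg.Agent.Lib.Schur.SpStem.conj_lift (σ := π) hcenπ hpm M (M.comp (kp (kF ζ⁻¹)))
      (lam (tt hab ζ)) (fun k => ?_) g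
    have h4 := levM_blk C hmu k
    rw [hπe, hπe, hπe, hlam, hM, MonoidHom.comp_apply, hM]
    exact h4

/-- Compatibility form of `exists_theta_data_all`; the hypothesis `hexc` is not used. -/
theorem exists_theta_data (C : QC F K a b) (hn : 3 ≤ n) (_hexc : ¬ (Fintype.card F = 2 ∧ n < 5))
    (hs : Function.Surjective σ) (hcen : σ.ker ≤ center Γ) :
    ∃ D : BData (Fin n) F K Γ, BTheta D ∧ (∀ l, iOm (σ (D.lam l)) = levM l) ∧ (∀ g, iOm (σ (D.M g)) = blk C D.b g) :=
  exists_theta_data_all C hn hs hcen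

end Cfsg.Agent.Lib.MinStem
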