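import Cfsg.Agent.Lib.Classical.StSLn
import Cfsg.Agent.Lib.PresOm.Em

/-!
# Lifting `SL₂(K)` when the lifts of the root group commute (module LS)

`π : Γ →* G` central kernel, `θ : M2 K →* G` with values in the range of `π`, `α ∈ Kˣ`, `ζ = α² ≠ 1`.
`hU`: all lifts of `θ (uu s)`, `θ (uu t)` commute. Claim: `θ` lifts to `M : M2 K →* Γ`.
Canonical lifts `x t = x̃ * (R * x̃⁻¹ * R⁻¹)`, `R` a lift of `θ (dd α)`; see `LiftSL2Aux`.
-/

set_option autoImplicit false
set_option linter.unusedVariables false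
set_option linter.unusedSectionVars false
set_option linter.style.haveILetI false
set_option linter.unnecessarySeqFocus false

namespace Cfsg.Agent.Lib.MinStem

open Matrix Subgroup Cfsg.Agent.Lib.PresSp.M2

namespace LiftSL2Aux

section abstract

variable {K : Type*} [Field K] {Γ G : Type*} [Group Γ] [Group G] {π : Γ →* G}

/-- Elements of the kernel are central. -/
lemma ker_comm (hcen : π.ker ≤ center Γ) {z : Γ} (hz : π z = 1) (g : Γ) : g * z = z * g :=
  (Subgroup.mem_center_iff.mp (hcen hz)) g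

/-- The commutator with `R` depends only on the image. -/
lemma indep (hcen : π.ker ≤ center Γ) (R : Γ) {a b : Γ} (h : π a = π b) :
    a * (R * a⁻¹ * R⁻¹) = b * (R * b⁻¹ * R⁻¹) := by
  have hz : π (b⁻¹ * a) = 1 := by rw [map_mul, map_inv, h, inv_mul_cancel]
  have hc := ker_comm hcen hz
  have ha : a = b * (b⁻¹ * a) := by group
  generalize b⁻¹ * a = z at hz hc ha
  subst ha
  calc b * z * (R * (b * z)⁻¹ * R⁻¹) = b * (z * R) * z⁻¹ * b⁻¹ * R⁻¹ := by group
    _ = b * (R * z) * z⁻¹ * b⁻¹ * R⁻¹ := by rw [hc R]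
    _ = b * (R * b⁻¹ * R⁻¹) := by group

/-- Conjugation depends only on the image. -/
lemma conj_eq (hcen : π.ker ≤ center Γ) {a b : Γ} (h : π a = π b) (w : Γ) :
    a * w * a⁻¹ = b * w * b⁻¹ := by
  have hz : π (b⁻¹ * a) = 1 := by rw [map_mul, map_inv, h, inv_mul_cancel]
  have hc := ker_comm hcen hz
  have ha : a = b * (b⁻¹ * a) := by group
  generalize b⁻¹ * a = z at hz hc ha
  subst ha
  calc b * z * w * (b * z)⁻¹ = b * (z * w) * z⁻¹ * b⁻¹ := by group
    _ = b * (w * z) * z⁻¹ * b⁻¹ := by rw [hc w]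
    _ = b * w * b⁻¹ := by group

/-- The canonical lifts of a root group. -/
theorem can_root (hcen : π.ker ≤ center Γ) {X : K → G} (hXadd : ∀ s t, X (s + t) = X s * X t)
    (hXr : ∀ t, X t ∈ π.range) (R : Γ) {ξ : K} (hξ : ξ ≠ 1)
    (hRX : ∀ t, π R * X t * (π R)⁻¹ = X (ξ * t))
    (hU : ∀ (s t : K) (a b : Γ), π a = X s → π b = X t → Commute a b) :
    ∃ x : K → Γ, (∀ t, π (x t) = X t) ∧ (∀ s t, x (s + t) = x s * x t) ∧ (∀ t, R * x t * R⁻¹ = x (ξ * t)) := by
  classical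
  have hX0 : X 0 = 1 := by
    have h := hXadd 0 0
    rw [add_zero] at h
    exact (mul_eq_left.1 h.symm)
  have hXneg : ∀ t, (X t)⁻¹ = X (-t) := by
    intro t
    apply inv_eq_of_mul_eq_one_right
    rw [← hXadd, add_neg_cancel, hX0]
  choose lf hlf using hXr
  have h1ξ : 1 - ξ ≠ 0 := sub_ne_zero.mpr hξ.symm
  set c := (1 - ξ)⁻¹ with hc
  have hcξ : (1 - ξ) * c = 1 := mul_inv_cancel₀ h1ξ
  -- the conjugate of an inverse of a lift
  have hprime : ∀ (t : K) (a : Γ), π a = X t → π (R * a⁻¹ * R⁻¹) = X (-(ξ * t)) := by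
    intro t a ha
    rw [map_mul, map_mul, map_inv, map_inv, ha]
    have h : π R * (X t)⁻¹ * (π R)⁻¹ = (π R * X t * (π R)⁻¹)⁻¹ := by group
    rw [h, hRX, hXneg]
  refine ⟨fun t => lf (c * t) * (R * (lf (c * t))⁻¹ * R⁻¹), ?_, ?_, ?_⟩
  · intro t
    show π (lf (c * t) * (R * (lf (c * t))⁻¹ * R⁻¹)) = X t
    rw [map_mul, hprime _ _ (hlf _), hlf, ← hXadd]
    congr 1
    linear_combination t * hcξ
  · intro s t
    show lf (c * (s + t)) * (R * (lf (c * (s + t)))⁻¹ * R⁻¹) =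
      lf (c * s) * (R * (lf (c * s))⁻¹ * R⁻¹) * (lf (c * t) * (R * (lf (c * t))⁻¹ * R⁻¹))
    set a := lf (c * s) with ha
    set b := lf (c * t) with hb
    have ha1 : π a = X (c * s) := hlf _
    have hb1 : π b = X (c * t) := hlf _
    have hab : π (lf (c * (s + t))) = π (a * b) := by
      rw [hlf, map_mul, ha1, hb1, ← hXadd, mul_add]
    rw [indep hcen R hab]
    have ha' := hprime _ _ ha1
    have hb' := hprime _ _ hb1
    have c1 : Commute (R * a⁻¹ * R⁻¹) b := hU _ _ _ _ ha' hb1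
    have c2 : Commute (R * a⁻¹ * R⁻¹) (R * b⁻¹ * R⁻¹) := hU _ _ _ _ ha' hb'
    have e : R * (a * b)⁻¹ * R⁻¹ = (R * b⁻¹ * R⁻¹) * (R * a⁻¹ * R⁻¹) := by group
    rw [e]
    generalize R * a⁻¹ * R⁻¹ = a' at c1 c2 ⊢
    generalize R * b⁻¹ * R⁻¹ = b' at c2 ⊢
    calc a * b * (b' * a') = a * (b * b' * a') := by group
      _ = a * (a' * (b * b')) := by
        rw [(c1.mul_right c2).eq]
      _ = a * a' * (b * b') := by group
  · intro t
    show R * (lf (c * t) * (R * (lf (c * t))⁻¹ * R⁻¹)) * R⁻¹ =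
      lf (c * (ξ * t)) * (R * (lf (c * (ξ * t)))⁻¹ * R⁻¹)
    set a := lf (c * t) with ha
    have ha1 : π a = X (c * t) := hlf _
    have hab : π (lf (c * (ξ * t))) = π (R * a * R⁻¹) := by
      rw [hlf, map_mul, map_mul, map_inv, ha1, hRX]
      congr 1
      ring
    rw [indep hcen R hab]
    group

/-- The rank one relation from the element `R`. -/
theorem w_rel (hcen : π.ker ≤ center Γ) {x y : K → Γ} (hx : ∀ s t, x (s + t) = x s * x t)
    (hy : ∀ s t, y (s + t) = y s * y t) (R ω : Γ) {ζ κ : K} (hζ : ζ ≠ 1)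
    (hRx : ∀ u, R * x u * R⁻¹ = x (ζ * u)) (hRy : ∀ v, R⁻¹ * y v * R = y (ζ * v))
    (hR : π (R⁻¹ * ω) = π (ω * R)) (hcon : ∀ u, π (ω * x u * ω⁻¹) = π (y (κ * u))) (u : K) :
    ω * x u * ω⁻¹ = y (κ * u) := by
  have hy0 : y 0 = 1 := by
    have h := hy 0 0
    rw [add_zero] at h
    exact (mul_eq_left.1 h.symm)
  let e : K → Γ := fun u => (y (κ * u))⁻¹ * (ω * x u * ω⁻¹)
  have he1 : ∀ u, π (e u) = 1 := by
    intro u
    show π ((y (κ * u))⁻¹ * (ω * x u * ω⁻¹)) = 1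
    rw [map_mul, hcon, map_inv, inv_mul_cancel]
  have hec : ∀ u g, g * e u = e u * g := fun u g => ker_comm hcen (he1 u) g
  have hde : ∀ u, ω * x u * ω⁻¹ = y (κ * u) * e u := by
    intro u
    show _ = y (κ * u) * ((y (κ * u))⁻¹ * (ω * x u * ω⁻¹))
    group
  have hadd : ∀ s t, e (s + t) = e s * e t := by
    intro s t
    have h1 : ω * x (s + t) * ω⁻¹ = (ω * x s * ω⁻¹) * (ω * x t * ω⁻¹) := by
      rw [hx]; group
    have h2 : y (κ * (s + t)) = y (κ * s) * y (κ * t) := by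
      rw [mul_add, hy]
    have h3 := hde (s + t)
    rw [h1, hde s, hde t, h2] at h3
    -- `y a * e s * (y b * e t) = y a * y b * e (s + t)`
    have h4 : y (κ * s) * e s * (y (κ * t) * e t) = y (κ * s) * y (κ * t) * (e s * e t) := by
      calc y (κ * s) * e s * (y (κ * t) * e t) = y (κ * s) * (e s * y (κ * t)) * e t := by group
        _ = y (κ * s) * (y (κ * t) * e s) * e t := by rw [hec s (y (κ * t))]
        _ = y (κ * s) * y (κ * t) * (e s * e t) := by group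
    rw [h4] at h3
    exact (mul_left_cancel h3).symm
  -- the key relation
  have hkey : ∀ u, R⁻¹ * (ω * x u * ω⁻¹) * R = ω * x (ζ * u) * ω⁻¹ := by
    intro u
    have h1 := conj_eq hcen hR (x u)
    have h2 : ω * x (ζ * u) * ω⁻¹ = ω * R * x u * (ω * R)⁻¹ := by
      rw [← hRx u]; group
    rw [h2, ← h1]
    group
  have hinv : ∀ u, e u = e (ζ * u) := by
    intro u
    have h1 := hkey u
    rw [hde u, hde (ζ * u)] at h1
    have h2 : R⁻¹ * (y (κ * u) * e u) * R = (R⁻¹ * y (κ * u) * R) * e u := by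
      calc R⁻¹ * (y (κ * u) * e u) * R = R⁻¹ * y (κ * u) * (e u * R) := by group
        _ = R⁻¹ * y (κ * u) * (R * e u) := by rw [hec u R]
        _ = (R⁻¹ * y (κ * u) * R) * e u := by group
    rw [h2, hRy] at h1
    have h3 : ζ * (κ * u) = κ * (ζ * u) := by ring
    rw [h3] at h1
    exact mul_left_cancel h1
  have h1ζ : 1 - ζ ≠ 0 := sub_ne_zero.mpr hζ.symm
  have hall : ∀ v, e v = 1 := by
    intro v
    set w := (1 - ζ)⁻¹ * v with hw
    have hv : v + ζ * w = w := by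
      rw [hw]
      field_simp
      ring
    have h2 := hadd v (ζ * w)
    rw [hv, hinv w] at h2
    exact (mul_eq_right.mp h2.symm)
  rw [hde u, hall u, mul_one]

end abstract

section matrices

variable {F : Type*} [Field F]

lemma wx_coe {t : F} (ht : t ≠ 0) :
    (uu t * ll (-t⁻¹) * uu t).1 = !![0, t; -t⁻¹, 0] := by
  have h : t * t⁻¹ = 1 := mul_inv_cancel₀ ht
  have h' : t⁻¹ * t = 1 := inv_mul_cancel₀ ht
  simp only [Cfsg.Agent.Lib.PresSp.M2.coe_mul, coe_uu, coe_ll, Matrix.mul_fin_two]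
  ext i j
  fin_cases i <;> fin_cases j <;> simp [h, h', mul_neg]

lemma wy_coe {t : F} (ht : t ≠ 0) :
    (ll t * uu (-t⁻¹) * ll t).1 = !![0, -t⁻¹; t, 0] := by
  have h : t * t⁻¹ = 1 := mul_inv_cancel₀ ht
  have h' : t⁻¹ * t = 1 := inv_mul_cancel₀ ht
  simp only [Cfsg.Agent.Lib.PresSp.M2.coe_mul, coe_uu, coe_ll, Matrix.mul_fin_two]
  ext i j
  fin_cases i <;> fin_cases j <;> simp [h, h', mul_neg]

lemma wx_conj {t : F} (ht : t ≠ 0) (u : F) :
    (uu t * ll (-t⁻¹) * uu t) * uu u * (uu t * ll (-t⁻¹) * uu t)⁻¹ = ll (-(t⁻¹ ^ 2 * u)) := by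
  have h : t * t⁻¹ = 1 := mul_inv_cancel₀ ht
  have h' : t⁻¹ * t = 1 := inv_mul_cancel₀ ht
  rw [mul_inv_eq_iff_eq_mul]
  have hw := wx_coe ht
  generalize uu t * ll (-t⁻¹) * uu t = W at hw ⊢
  apply Subtype.ext
  simp only [Cfsg.Agent.Lib.PresSp.M2.coe_mul _ _, hw, coe_uu, coe_ll, Matrix.mul_fin_two]
  ext i j
  fin_cases i <;> fin_cases j <;> simp <;> field_simp

lemma wy_conj {t : F} (ht : t ≠ 0) (u : F) :
    (ll t * uu (-t⁻¹) * ll t) * ll u * (ll t * uu (-t⁻¹) * ll t)⁻¹ = uu (-(t⁻¹ ^ 2 * u)) := by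
  have h : t * t⁻¹ = 1 := mul_inv_cancel₀ ht
  have h' : t⁻¹ * t = 1 := inv_mul_cancel₀ ht
  rw [mul_inv_eq_iff_eq_mul]
  have hw := wy_coe ht
  generalize ll t * uu (-t⁻¹) * ll t = W at hw ⊢
  apply Subtype.ext
  simp only [Cfsg.Agent.Lib.PresSp.M2.coe_mul _ _, hw, coe_uu, coe_ll, Matrix.mul_fin_two]
  ext i j
  fin_cases i <;> fin_cases j <;> simp <;> field_simp

lemma wx_dd {t : F} (ht : t ≠ 0) (α : Fˣ) :
    (dd α)⁻¹ * (uu t * ll (-t⁻¹) * uu t) = (uu t * ll (-t⁻¹) * uu t) * dd α := by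
  have hw := wx_coe ht
  generalize uu t * ll (-t⁻¹) * uu t = W at hw ⊢
  rw [← dd_inv]
  apply Subtype.ext
  simp only [Cfsg.Agent.Lib.PresSp.M2.coe_mul _ _, hw, coe_dd, Matrix.mul_fin_two]
  ext i j
  fin_cases i <;> fin_cases j <;> simp [mul_comm]

lemma wy_dd {t : F} (ht : t ≠ 0) (α : Fˣ) :
    (dd α)⁻¹ * (ll t * uu (-t⁻¹) * ll t) = (ll t * uu (-t⁻¹) * ll t) * dd α := by
  have hw := wy_coe ht
  generalize ll t * uu (-t⁻¹) * ll t = W at hw ⊢
  rw [← dd_inv]
  apply Subtype.ext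
  simp only [Cfsg.Agent.Lib.PresSp.M2.coe_mul _ _, hw, coe_dd, Matrix.mul_fin_two]
  ext i j
  fin_cases i <;> fin_cases j <;> simp [mul_comm]

end matrices

end LiftSL2Aux

open LiftSL2Aux in
theorem lift_sl2 {K : Type*} [Field K] [Fintype K] {α : Kˣ} (hα : (α : K) ^ 2 ≠ 1) {Γ G : Type*} [Group Γ] [Group G]
    {π : Γ →* G} (hcen : π.ker ≤ center Γ) (θ : M2 K →* G) (hr : ∀ g, θ g ∈ π.range)
    (hU : ∀ (s t : K) (x y : Γ), π x = θ (uu s) → π y = θ (uu t) → Commute x y) :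
    ∃ M : M2 K →* Γ, ∀ g, π (M g) = θ g := by
  set ζ : K := (α : K) ^ 2 with hζ
  have hζ0 : ζ ≠ 0 := pow_ne_zero _ α.ne_zero
  have hζinv : ((α⁻¹ : Kˣ) : K) ^ 2 = ζ⁻¹ := by
    rw [Units.val_inv_eq_inv_val, inv_pow]
  have hζ1 : ζ⁻¹ ≠ 1 := by
    intro h
    apply hα
    exact inv_eq_one.mp h
  -- lifts of the root groups of the opposite sign commute too
  obtain ⟨w, hw⟩ := hr wn
  have hUl : ∀ (s t : K) (x y : Γ), π x = θ (ll s) → π y = θ (ll t) → Commute x y := by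
    intro s t x y hx hy
    have hconj : ∀ (d : K) (z : Γ), π z = θ (ll d) → π (w⁻¹ * z * w) = θ (uu (-d)) := by
      intro d z hz
      rw [map_mul, map_mul, map_inv, hz, hw, ← map_inv, ← map_mul, ← map_mul]
      congr 1
      have := wn_uu (-d)
      rw [neg_neg] at this
      rw [← this]
      group
    have h := hU _ _ _ _ (hconj s x hx) (hconj t y hy)
    have h2 := h.eq
    have h3 : w⁻¹ * (x * y) * w = w⁻¹ * (y * x) * w := by
      calc w⁻¹ * (x * y) * w = (w⁻¹ * x * w) * (w⁻¹ * y * w) := by group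
        _ = (w⁻¹ * y * w) * (w⁻¹ * x * w) := h2
        _ = w⁻¹ * (y * x) * w := by group
    have h4 : x * y = y * x := by
      have := congrArg (fun g => w * g * w⁻¹) h3
      simpa [mul_assoc] using this
    exact h4
  obtain ⟨R, hR⟩ := hr (dd α)
  have hRuu : ∀ t, π R * θ (uu t) * (π R)⁻¹ = θ (uu (ζ * t)) := by
    intro t
    rw [hR, ← map_inv, ← map_mul, ← map_mul, dd_uu]
  have hRll : ∀ t, π R * θ (ll t) * (π R)⁻¹ = θ (ll (ζ⁻¹ * t)) := by
    intro t
    rw [hR, ← map_inv, ← map_mul, ← map_mul, dd_ll, hζinv]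
  obtain ⟨x, hx1, hx2, hx3⟩ := can_root (X := fun t => θ (uu t)) hcen
    (fun s t => by simp only [uu_add, map_mul]) (fun t => hr _) R hα hRuu hU
  obtain ⟨y, hy1, hy2, hy3⟩ := can_root (X := fun t => θ (ll t)) hcen
    (fun s t => by simp only [ll_add, map_mul]) (fun t => hr _) R hζ1 hRll hUl
  have hx3' : ∀ v, R⁻¹ * x v * R = x (ζ⁻¹ * v) := by
    intro v
    have := hx3 (ζ⁻¹ * v)
    rw [mul_inv_cancel_left₀ hζ0] at this
    rw [← this]
    group
  have hy3' : ∀ v, R⁻¹ * y v * R = y (ζ * v) := by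
    intro v
    have := hy3 (ζ * v)
    rw [inv_mul_cancel_left₀ hζ0] at this
    rw [← this]
    group
  have S : Cfsg.Agent.Lib.Classical.StSL2.Sys x y := by
    refine ⟨hx2, hy2, ?_, ?_⟩
    · intro t u ht
      have := w_rel (π := π) hcen hx2 hy2 R (x t * y (-t⁻¹) * x t) (ζ := ζ) (κ := -(t⁻¹ ^ 2)) hα hx3 hy3' ?_ ?_ u
      · rw [this]
        congr 1
        ring
      · simp only [map_mul, map_inv, hx1, hy1, hR]
        simp only [← map_mul, ← map_inv]
        rw [wx_dd ht]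
      · intro v
        simp only [map_mul, map_inv, hx1, hy1]
        simp only [← map_mul, ← map_inv]
        rw [wx_conj ht]
        congr 2
        ring
    · intro t u ht
      have := w_rel (π := π) hcen hy2 hx2 R (y t * x (-t⁻¹) * y t) (ζ := ζ⁻¹) (κ := -(t⁻¹ ^ 2)) hζ1 hy3 hx3' ?_ ?_ u
      · rw [this]
        congr 1
        ring
      · simp only [map_mul, map_inv, hx1, hy1, hR]
        simp only [← map_mul, ← map_inv]
        rw [wy_dd ht]
      · intro v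
        simp only [map_mul, map_inv, hx1, hy1]
        simp only [← map_mul, ← map_inv]
        rw [wy_conj ht]
        congr 2
        ring
  obtain ⟨M, hMx, hMy⟩ := Cfsg.Agent.Lib.Classical.StSLn.exists_theta S
  have hMuu : ∀ t, M (uu t) = x t := fun t => hMx t
  have hMll : ∀ t, M (ll t) = y t := fun t => hMy t
  refine ⟨M, ?_⟩
  intro g
  refine m2_induction (P := fun g => π (M g) = θ g) ?_ ?_ ?_ ?_ ?_ g
  · simp
  · intro d
    show π (M (uu d)) = _
    rw [hMuu, hx1]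
  · intro d
    show π (M (ll d)) = _
    rw [hMll, hy1]
  · intro g₁ g₂ h₁ h₂
    simp only [map_mul, h₁, h₂]
  · intro g₁ h₁
    simp only [map_inv, h₁]

end Cfsg.Agent.Lib.MinStem
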