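import Cfsg.Agent.Lib.OddStem.Lower

/-!
# S2099 module Lower

Lower bound for `M(PΩ⁻_{2n+2}(F))`, `F` of odd order: a stem extension of `Ω⁻` with kernel of order 2, inside the Clifford group of the plus form of rank `n+2`.
`J : V → H^{n+2}`, `(x,y,z₁,z₂) ↦ (x,z₁,z₂; y,z₁+a z₂,b z₂)` is isometric. Its orthogonal complement is the set of `W(s₁,s₂) = (0,s₁,s₂;0,-s₁,-a s₁-b s₂)`, `Q(W s) = -N(s)`.
Lifts `X` of `-1_V` to the spin group: `g = ψ(-1)` is `-1` on `J V` and `1` on `W`. With `u₁,u₂` an orthogonal basis of `W`, `Y = γ ρ(u₁) ρ(u₂)` satisfies `Y ρ(v) = ρ(g v) Y`, so `Y = c X`. From `Xᵀ B X = B`: `c² = (-1)^N Q(u₁) Q(u₂)`, and `Y² = -Q(u₁) Q(u₂)`, whence `X² = (-1)^(N+1)`, `N = n+2`.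
-/

set_option autoImplicit false

namespace Cfsg.Agent.Lib.MinStem

open Matrix Cfsg Subgroup QuadraticMap
open Cfsg.Agent.Lib.OmStem Cfsg.Agent.Lib.PresOm Cfsg.Agent.Lib.OddStem
open Cfsg.Agent.Lib.OddStem.LowerAux
open Cfsg.Agent.Lib.Orth.Bridge Cfsg.Agent.Lib.Orth.Refl Cfsg.Agent.Lib.Orth.Gen
  Cfsg.Agent.Lib.Orth.Spin Cfsg.Agent.Lib.Orth.Forms Cfsg.Agent.Lib.Orth.Closure

open scoped commutatorElement

universe u

namespace MinLowerAux

section rings

variable {A : Type*} [Ring A] {g r s t : A}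

lemma y_anti (hg : g * t = -(t * g)) (hr : r * t = -(t * r)) (hs : s * t = -(t * s)) :
    g * r * s * t = -(t * (g * r * s)) := by
  calc g * r * s * t = g * r * (s * t) := by rw [mul_assoc]
    _ = -(g * (r * t) * s) := by rw [hs]; simp only [mul_neg, mul_assoc]
    _ = (g * t) * r * s := by rw [hr]; simp only [mul_neg, neg_neg, neg_mul, mul_assoc]
    _ = _ := by rw [hg]; simp only [neg_mul, mul_assoc]

lemma y_comm1 (hg : g * r = -(r * g)) (hs : s * r = -(r * s)) : g * r * s * r = r * (g * r * s) := by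
  calc g * r * s * r = g * r * (s * r) := by rw [mul_assoc]
    _ = -(g * r * (r * s)) := by rw [hs]; simp only [mul_neg]
    _ = -((g * r) * r * s) := by simp only [mul_assoc]
    _ = r * g * r * s := by rw [hg]; simp only [neg_mul, neg_neg]
    _ = _ := by simp only [mul_assoc]

lemma y_comm2 (hg : g * s = -(s * g)) (hr : r * s = -(s * r)) : g * r * s * s = s * (g * r * s) := by
  calc g * r * s * s = g * (r * s) * s := by simp only [mul_assoc]
    _ = -(g * s * r * s) := by rw [hr]; simp only [mul_neg, neg_mul, mul_assoc]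
    _ = s * g * r * s := by rw [hg]; simp only [neg_mul, neg_neg]
    _ = _ := by simp only [mul_assoc]

end rings

section spinor

variable {N : ℕ} {F : Type u} [Field F]

/-- The lift of an involution with a fixed space with orthogonal basis `u₁,u₂`. -/
theorem sq_of_split {p : Omega F (quadFormPlus N F) × GeneralLinearGroup (Bt N) F} (hp : p ∈ Us N F)
    (u₁ u₂ : Fin N ⊕ Fin N → F) (h12 : polar (⇑(plusForm N F)) u₁ u₂ = 0)
    (h1 : quadFormPlus N F u₁ ≠ 0) (h2 : quadFormPlus N F u₂ ≠ 0)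
    (hg : ∀ v, ∃ (w : Fin N ⊕ Fin N → F) (s₁ s₂ : F), v = w + s₁ • u₁ + s₂ • u₂ ∧
      polar (⇑(plusForm N F)) w u₁ = 0 ∧ polar (⇑(plusForm N F)) w u₂ = 0 ∧
      (iO p.1 : GeneralLinearGroup _ F).1 *ᵥ v = -w + s₁ • u₁ + s₂ • u₂) :
    ((p.2 * p.2 : GeneralLinearGroup (Bt N) F) : MS N F) = ((-1 : F) ^ (N + 1)) • (1 : MS N F) := by
  obtain ⟨B, hB, hρ, hgam⟩ := exists_form N F
  have h0 := iso_of_us hB hρ hp
  have hanti : ∀ u v : Fin N ⊕ Fin N → F, polar (⇑(plusForm N F)) u v = 0 → OmStem.rho u * OmStem.rho v = -(OmStem.rho v * OmStem.rho u) := by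
    intro u v h
    have h3 := rho_anti u v
    rw [← LiftAux.polar_plus, h, zero_smul] at h3
    exact eq_neg_of_add_eq_zero_left h3
  have h21 : polar (⇑(plusForm N F)) u₂ u₁ = 0 := by rw [polar_comm]; exact h12
  set R₁ : MS N F := OmStem.rho u₁ with hR₁
  set R₂ : MS N F := OmStem.rho u₂ with hR₂
  set G : MS N F := gam F with hG
  set Y : MS N F := G * R₁ * R₂ with hYdef
  have hY : ∀ v, Y * OmStem.rho v = OmStem.rho ((iO p.1 : GeneralLinearGroup _ F).1 *ᵥ v) * Y := by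
    intro v
    obtain ⟨w, s₁, s₂, hv, hw1, hw2, hgv⟩ := hg v
    rw [hgv]
    have hw1' : polar (⇑(plusForm N F)) u₁ w = 0 := by rw [polar_comm]; exact hw1
    have hw2' : polar (⇑(plusForm N F)) u₂ w = 0 := by rw [polar_comm]; exact hw2
    have e1 : Y * OmStem.rho w = OmStem.rho (-w) * Y := by
      rw [rho_neg, neg_mul]
      exact y_anti (gam_rho w) (hanti _ _ hw1') (hanti _ _ hw2')
    have e2 : Y * R₁ = R₁ * Y := y_comm1 (gam_rho u₁) (hanti _ _ h21)
    have e3 : Y * R₂ = R₂ * Y := y_comm2 (gam_rho u₂) (hanti _ _ h12)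
    rw [hv, rho_add, rho_add, rho_add, rho_add, rho_smul, rho_smul, mul_add, mul_add, add_mul, add_mul, e1,
      mul_smul_comm, mul_smul_comm, smul_mul_assoc, smul_mul_assoc, e2, e3]
  set X : MS N F := (p.2 : MS N F) with hXdef
  set Xi : MS N F := ((p.2⁻¹ : GeneralLinearGroup (Bt N) F) : MS N F) with hXidef
  have hX : ∀ v, X * OmStem.rho v = OmStem.rho ((iO p.1 : GeneralLinearGroup _ F).1 *ᵥ v) * X := Us_le_Ut hp
  have hXi1 : Xi * X = 1 := by
    rw [hXidef, hXdef, ← Units.val_mul, inv_mul_cancel, Units.val_one]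
  have hXi2 : X * Xi = 1 := by
    rw [hXidef, hXdef, ← Units.val_mul, mul_inv_cancel, Units.val_one]
  have hcomm : ∀ v, (Xi * Y) * OmStem.rho v = OmStem.rho v * (Xi * Y) := by
    intro v
    have h3 : Xi * OmStem.rho ((iO p.1 : GeneralLinearGroup _ F).1 *ᵥ v) = OmStem.rho v * Xi := by
      calc Xi * OmStem.rho ((iO p.1 : GeneralLinearGroup _ F).1 *ᵥ v)
          = Xi * (OmStem.rho ((iO p.1 : GeneralLinearGroup _ F).1 *ᵥ v) * X * Xi) := by rw [mul_assoc (OmStem.rho _), hXi2, mul_one]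
        _ = Xi * (X * OmStem.rho v * Xi) := by rw [hX]
        _ = (Xi * X) * OmStem.rho v * Xi := by simp only [mul_assoc]
        _ = _ := by rw [hXi1, one_mul]
    rw [mul_assoc, hY, ← mul_assoc, h3, mul_assoc]
  obtain ⟨c, hc⟩ := scalar_of_comm hcomm
  have hYc : Y = c • X := by
    calc Y = X * (Xi * Y) := by rw [← mul_assoc, hXi2, one_mul]
      _ = _ := by rw [hc]; simp
  have hGc : R₁ * R₂ * G = G * (R₁ * R₂) := by
    have e1 : G * R₁ = -(R₁ * G) := gam_rho u₁
    have e2 : G * R₂ = -(R₂ * G) := gam_rho u₂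
    calc R₁ * R₂ * G = R₁ * (R₂ * G) := by rw [mul_assoc]
      _ = -(R₁ * (G * R₂)) := by rw [e2]; simp
      _ = -((R₁ * G) * R₂) := by rw [mul_assoc]
      _ = (G * R₁) * R₂ := by rw [e1]; simp
      _ = _ := by rw [mul_assoc]
  have hGG : G * G = 1 := gam_sq
  have hr1 : R₁ * R₁ = quadFormPlus N F u₁ • (1 : MS N F) := rho_sq u₁
  have hr2 : R₂ * R₂ = quadFormPlus N F u₂ • (1 : MS N F) := rho_sq u₂
  have hr12 : R₂ * R₁ = -(R₁ * R₂) := hanti _ _ h21
  have hYY : Y * Y = (-(quadFormPlus N F u₁ * quadFormPlus N F u₂)) • (1 : MS N F) := by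
    calc Y * Y = G * (R₁ * R₂ * G) * (R₁ * R₂) := by simp only [hYdef, mul_assoc]
      _ = (G * G) * (R₁ * (R₂ * R₁) * R₂) := by rw [hGc]; simp only [mul_assoc]
      _ = -((R₁ * R₁) * (R₂ * R₂)) := by rw [hGG, hr12]; simp only [one_mul, mul_neg, neg_mul, mul_assoc]
      _ = _ := by rw [hr1, hr2]; simp [smul_smul]; ring
  have hYB : Yᵀ * B * Y = ((-1 : F) ^ N * (quadFormPlus N F u₁ * quadFormPlus N F u₂)) • B := by
    have hρ1 : R₁ᵀ * B = B * R₁ := hρ u₁
    have hρ2 : R₂ᵀ * B = B * R₂ := hρ u₂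
    have ht : Yᵀ = R₂ᵀ * (R₁ᵀ * Gᵀ) := by
      rw [hYdef, transpose_mul, transpose_mul]
    calc Yᵀ * B * Y = R₂ᵀ * (R₁ᵀ * (Gᵀ * B)) * (G * R₁ * R₂) := by rw [ht]; simp only [mul_assoc, hYdef]
      _ = (-1 : F) ^ N • (R₂ᵀ * (R₁ᵀ * (B * G)) * (G * R₁ * R₂)) := by
          rw [hgam]; simp only [mul_smul_comm, smul_mul_assoc]
      _ = (-1 : F) ^ N • (R₂ᵀ * (R₁ᵀ * B) * ((G * G) * (R₁ * R₂))) := by simp only [mul_assoc]
      _ = (-1 : F) ^ N • (R₂ᵀ * B * ((R₁ * R₁) * R₂)) := by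
          rw [hGG, hρ1, one_mul]; simp only [mul_assoc]
      _ = (-1 : F) ^ N • (quadFormPlus N F u₁ • ((R₂ᵀ * B) * R₂)) := by
          rw [hr1]; simp only [smul_mul_assoc, one_mul, mul_smul_comm]
      _ = (-1 : F) ^ N • (quadFormPlus N F u₁ • (B * (R₂ * R₂))) := by
          rw [hρ2, mul_assoc]
      _ = _ := by
          rw [hr2]; simp only [mul_smul_comm, mul_one, smul_smul]
  have h4 : (c * c) • B = ((-1 : F) ^ N * (quadFormPlus N F u₁ * quadFormPlus N F u₂)) • B := by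
    rw [← hYB, hYc, transpose_smul, smul_mul_assoc, mul_smul_comm, smul_mul_assoc, h0, smul_smul]
  have h5 := scale_unique hB h4
  have hsgn : (-1 : F) ^ N * (-1) ^ N = 1 := by
    rw [← mul_pow]; simp
  have hsgn0 : (-1 : F) ^ N ≠ 0 := pow_ne_zero _ (by simp)
  have hcc : c * c ≠ 0 := by
    rw [h5]
    exact mul_ne_zero hsgn0 (mul_ne_zero h1 h2)
  have h6 : (c * c) • (X * X) = (-(quadFormPlus N F u₁ * quadFormPlus N F u₂)) • (1 : MS N F) := by
    rw [← hYY, hYc, smul_mul_assoc, mul_smul_comm, smul_smul]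
  have e : -(quadFormPlus N F u₁ * quadFormPlus N F u₂) = (c * c) * (-1 : F) ^ (N + 1) := by
    rw [h5, pow_succ]
    have e2 : (-1 : F) ^ N * (quadFormPlus N F u₁ * quadFormPlus N F u₂) * ((-1) ^ N * -1) =
        ((-1 : F) ^ N * (-1) ^ N) * (-(quadFormPlus N F u₁ * quadFormPlus N F u₂)) := by ring
    rw [e2, hsgn, one_mul]
  rw [e, mul_smul] at h6
  rw [Units.val_mul]
  have h7 := congrArg (fun M : MS N F => (c * c)⁻¹ • M) h6
  simpa only [smul_smul, inv_mul_cancel₀ hcc, one_smul, inv_mul_cancel_left₀ hcc] using h7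

end spinor

section form

variable {n : ℕ} {F : Type u} [Field F]

/-- The three-part description of a function on `Fin (n+2)`. -/
def cc (t s : F) (f : Fin n → F) : Fin (n + 2) → F :=
  fun i => Fin.lastCases (motive := fun _ => F) t
    (fun i' => Fin.lastCases (motive := fun _ => F) s f i') i

@[simp] lemma cc_last (t s : F) (f : Fin n → F) : cc t s f (Fin.last (n + 1)) = t := by simp [cc]

@[simp] lemma cc_last' (t s : F) (f : Fin n → F) : cc t s f (Fin.last n).castSucc = s := by simp [cc]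

@[simp] lemma cc_cast (t s : F) (f : Fin n → F) (j : Fin n) : cc t s f j.castSucc.castSucc = f j := by simp [cc]

lemma sum2 (f : Fin (n + 2) → F) :
    ∑ i, f i = ∑ j : Fin n, f j.castSucc.castSucc + f (Fin.last n).castSucc + f (Fin.last (n + 1)) := by
  rw [Fin.sum_univ_castSucc, Fin.sum_univ_castSucc]

lemma ext2 {f g : Fin (n + 2) → F} (h : ∀ j : Fin n, f j.castSucc.castSucc = g j.castSucc.castSucc)
    (h1 : f (Fin.last n).castSucc = g (Fin.last n).castSucc) (h2 : f (Fin.last (n + 1)) = g (Fin.last (n + 1))) : f = g := by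
  funext i
  induction i using Fin.lastCases with
  | last => exact h2
  | cast i =>
    induction i using Fin.lastCases with
    | last => exact h1
    | cast j => exact h j

variable (a b : F)

/-- The embedding `(x,y,z₁,z₂) ↦ (x,z₁,z₂; y,z₁+a z₂,b z₂)`. -/
def jj (v : (Fin n ⊕ Fin n) ⊕ Fin 2 → F) : Fin (n + 2) ⊕ Fin (n + 2) → F :=
  Sum.elim (cc (v (.inr 1)) (v (.inr 0)) (fun j => v (.inl (.inl j))))
    (cc (b * v (.inr 1)) (v (.inr 0) + a * v (.inr 1)) (fun j => v (.inl (.inr j))))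

/-- The embedding, as a linear map. -/
def JJ : ((Fin n ⊕ Fin n) ⊕ Fin 2 → F) →ₗ[F] (Fin (n + 2) ⊕ Fin (n + 2) → F) where
  toFun := jj a b
  map_add' := by
    intro u v
    funext x
    rcases x with i | i <;> revert i <;> rw [← funext_iff] <;> apply ext2 <;> simp [jj] <;> ring
  map_smul' := by
    intro c v
    funext x
    rcases x with i | i <;> revert i <;> rw [← funext_iff] <;> apply ext2 <;> simp [jj] <;> ring

lemma JJ_apply (v : (Fin n ⊕ Fin n) ⊕ Fin 2 → F) : JJ a b v = jj a b v := rfl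

theorem Q_JJ (v : (Fin n ⊕ Fin n) ⊕ Fin 2 → F) :
    plusForm (n + 2) F (JJ a b v) = minusForm n F a b v := by
  change quadFormPlus (n + 2) F (jj a b v) = quadFormMinus n F a b v
  simp only [quadFormPlus, quadFormMinus, jj, Sum.elim_inl, Sum.elim_inr]
  rw [sum2]
  simp only [cc_last, cc_last', cc_cast]
  ring

/-- The orthogonal complement. -/
def WW (s₁ s₂ : F) : Fin (n + 2) ⊕ Fin (n + 2) → F :=
  Sum.elim (cc s₂ s₁ 0) (cc (-(a * s₁) - b * s₂) (-s₁) 0)

theorem Q_WW (s₁ s₂ : F) : quadFormPlus (n + 2) F (WW a b s₁ s₂) = -(s₁ ^ 2 + a * s₁ * s₂ + b * s₂ ^ 2) := by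
  simp only [quadFormPlus, WW, Sum.elim_inl, Sum.elim_inr]
  rw [sum2]
  simp only [cc_last, cc_last', cc_cast, Pi.zero_apply, mul_zero, Finset.sum_const_zero]
  ring

theorem polar_JJ (w : Fin (n + 2) ⊕ Fin (n + 2) → F) (x : (Fin n ⊕ Fin n) ⊕ Fin 2 → F) :
    polar (⇑(plusForm (n + 2) F)) w (JJ a b x) =
      ∑ j : Fin n, (w (.inl j.castSucc.castSucc) * x (.inl (.inr j)) + w (.inr j.castSucc.castSucc) * x (.inl (.inl j))) +
      (w (.inl (Fin.last n).castSucc) * (x (.inr 0) + a * x (.inr 1)) + w (.inr (Fin.last n).castSucc) * x (.inr 0)) +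
      (w (.inl (Fin.last (n + 1))) * (b * x (.inr 1)) + w (.inr (Fin.last (n + 1))) * x (.inr 1)) := by
  rw [LiftAux.polar_plus, sum2, JJ_apply]
  simp only [jj, Sum.elim_inl, Sum.elim_inr, cc_last, cc_last', cc_cast]

theorem polar_WW_JJ (s₁ s₂ : F) (x : (Fin n ⊕ Fin n) ⊕ Fin 2 → F) :
    polar (⇑(plusForm (n + 2) F)) (WW a b s₁ s₂) (JJ a b x) = 0 := by
  rw [polar_JJ]
  simp only [WW, Sum.elim_inl, Sum.elim_inr, cc_last, cc_last', cc_cast, Pi.zero_apply, zero_mul, add_zero,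
    Finset.sum_const_zero, zero_add]
  ring

theorem polar_WW (s₁ s₂ t₁ t₂ : F) :
    polar (⇑(plusForm (n + 2) F)) (WW a b s₁ s₂) (WW a b t₁ t₂) =
      -(2 * s₁ * t₁) - a * s₁ * t₂ - a * s₂ * t₁ - 2 * b * s₂ * t₂ := by
  rw [LiftAux.polar_plus, sum2]
  simp only [WW, Sum.elim_inl, Sum.elim_inr, cc_last, cc_last', cc_cast, Pi.zero_apply, zero_mul, add_zero,
    Finset.sum_const_zero, zero_add]
  ring

/-- A vector orthogonal to the image of `J` is a `W`. -/
theorem eq_WW_of_perp (w : Fin (n + 2) ⊕ Fin (n + 2) → F)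
    (hw : ∀ x, polar (⇑(plusForm (n + 2) F)) w (JJ a b x) = 0) :
    w = WW a b (w (.inl (Fin.last n).castSucc)) (w (.inl (Fin.last (n + 1)))) := by
  have h1 : ∀ j : Fin n, w (.inr j.castSucc.castSucc) = 0 := by
    intro j
    have h := hw (Sum.elim (Sum.elim (Pi.single j 1) 0) 0)
    rw [polar_JJ] at h
    rw [Finset.sum_eq_single j] at h
    · simpa using h
    · intro i _ hi
      simp [hi]
    · simp
  have h2 : ∀ j : Fin n, w (.inl j.castSucc.castSucc) = 0 := by
    intro j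
    have h := hw (Sum.elim (Sum.elim 0 (Pi.single j 1)) 0)
    rw [polar_JJ] at h
    rw [Finset.sum_eq_single j] at h
    · simpa using h
    · intro i _ hi
      simp [hi]
    · simp
  have h3 : w (.inr (Fin.last n).castSucc) = -w (.inl (Fin.last n).castSucc) := by
    have h := hw (Sum.elim 0 ![1, 0])
    rw [polar_JJ] at h
    simp at h
    linear_combination h
  have h4 : w (.inr (Fin.last (n + 1))) = -(a * w (.inl (Fin.last n).castSucc)) - b * w (.inl (Fin.last (n + 1))) := by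
    have h := hw (Sum.elim 0 ![0, 1])
    rw [polar_JJ] at h
    simp at h
    linear_combination h
  funext x
  rcases x with i | i
  · revert i
    rw [← funext_iff]
    apply ext2
    · intro j
      simp [WW, h2]
    · simp [WW]
    · simp [WW]
  · revert i
    rw [← funext_iff]
    apply ext2
    · intro j
      simp [WW, h1]
    · simp [WW, h3]
    · simp [WW, h4]

/-- The vector `e_c + f_c` of the space. -/
def ww (c : Fin n) : (Fin n ⊕ Fin n) ⊕ Fin 2 → F :=
  Sum.elim (Sum.elim (Pi.single c 1) (Pi.single c 1)) 0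

theorem Q_ww (c : Fin n) : minusForm n F a b (ww c) = 1 := by
  change quadFormMinus n F a b (ww c) = 1
  simp only [quadFormMinus, ww, Sum.elim_inl, Sum.elim_inr]
  rw [Finset.sum_eq_single c]
  · simp
  · intro j _ hj
    simp [hj]
  · simp

theorem JJ_ww (c : Fin n) : (JJ a b (ww c : (Fin n ⊕ Fin n) ⊕ Fin 2 → F) : Fin (n + 2) ⊕ Fin (n + 2) → F) = LiftAux.vv c.castSucc.castSucc := by
  funext x
  rw [JJ_apply]
  rcases x with i | i <;> revert i <;> rw [← funext_iff] <;> apply ext2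
  · intro j
    simp [jj, ww, LiftAux.vv, Pi.single_apply, Fin.castSucc_inj]
  · simp [jj, ww, LiftAux.vv, Pi.single_apply, Fin.castSucc_inj, (Fin.castSucc_lt_last c).ne']
  · simp [jj, ww, LiftAux.vv, Pi.single_apply, Fin.castSucc_inj, (Fin.castSucc_lt_last c.castSucc).ne']
  · intro j
    simp [jj, ww, LiftAux.vv, Pi.single_apply, Fin.castSucc_inj]
  · simp [jj, ww, LiftAux.vv, Pi.single_apply, Fin.castSucc_inj, (Fin.castSucc_lt_last c).ne']
  · simp [jj, ww, LiftAux.vv, Pi.single_apply, Fin.castSucc_inj, (Fin.castSucc_lt_last c.castSucc).ne']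

end form

section neg

variable {n : ℕ} {F : Type u} [Field F] {a b : F}

/-- The square of a lift of `-1`. -/
theorem sq_over_neg (h2 : (2 : F) ≠ 0)
    (hab : ∀ z₁ z₂ : F, z₁ ^ 2 + a * z₁ * z₂ + b * z₂ ^ 2 = 0 → z₁ = 0 ∧ z₂ = 0)
    (E : IsoEmb (⇑(minusForm n F a b)) (⇑(plusForm (n + 2) F))) (hE : E.J = JJ a b)
    (x0 : Omega F (⇑(minusForm n F a b)))
    (hx0 : (((x0 : isometryGroup F (⇑(minusForm n F a b))) : GeneralLinearGroup ((Fin n ⊕ Fin n) ⊕ Fin 2) F) :
      Matrix ((Fin n ⊕ Fin n) ⊕ Fin 2) ((Fin n ⊕ Fin n) ⊕ Fin 2) F) = -1)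
    {p : Omega F (quadFormPlus (n + 2) F) × GeneralLinearGroup (Bt (n + 2)) F} (hp : p ∈ Us (n + 2) F)
    (hp1 : p.1 = E.extOm x0) :
    ((p.2 * p.2 : GeneralLinearGroup (Bt (n + 2)) F) : MS (n + 2) F) = ((-1 : F) ^ (n + 2 + 1)) • (1 : MS (n + 2) F) := by
  obtain ⟨h, rfl⟩ : ∃ h, a = 2 * h := ⟨a / 2, by field_simp⟩
  let u₁ : Fin (n + 2) ⊕ Fin (n + 2) → F := WW (2 * h) b 1 0
  let u₂ : Fin (n + 2) ⊕ Fin (n + 2) → F := WW (2 * h) b (-h) 1
  have hlin : ∀ s₁ s₂ : F, (WW (2 * h) b s₁ s₂ : Fin (n + 2) ⊕ Fin (n + 2) → F) = (s₁ + h * s₂) • u₁ + s₂ • u₂ := by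
    intro s₁ s₂
    funext x
    rcases x with i | i <;> revert i <;> rw [← funext_iff] <;> apply ext2 <;>
      simp [u₁, u₂, WW] <;> ring
  refine sq_of_split hp u₁ u₂ ?_ ?_ ?_ ?_
  · simp only [u₁, u₂]
    rw [polar_WW]
    ring
  · simp only [u₁]
    rw [Q_WW]
    simp
  · simp only [u₂]
    rw [Q_WW]
    intro hQ
    have h3 := hab (-h) 1 (by linear_combination -hQ)
    exact one_ne_zero h3.2
  · intro v
    have hmv : (iO p.1 : GeneralLinearGroup _ F).1 *ᵥ v = v + E.J (-E.P v - E.P v) := by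
      rw [hp1]
      have h3 := E.ext_mulVec x0.1 v
      rw [hx0, neg_mulVec, one_mulVec] at h3
      exact h3
    have hperp : ∀ x, polar (⇑(plusForm (n + 2) F)) (v - E.J (E.P v)) (E.J x) = 0 := by
      intro x
      have h0 : (⇑(plusForm (n + 2) F)) 0 = 0 := map_zero (plusForm (n + 2) F)
      have hQJ : ∀ x, plusForm (n + 2) F (E.J x) = minusForm n F (2 * h) b x := E.Q_J h0
      rw [polar_comm]
      have h1 : polar (⇑(plusForm (n + 2) F)) (E.J x) (v - E.J (E.P v)) =
          plusForm (n + 2) F (E.J x + (v - E.J (E.P v))) - plusForm (n + 2) F (E.J x) - plusForm (n + 2) F (v - E.J (E.P v)) := rfl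
      rw [h1, E.split, hQJ]
      ring
    have hr := eq_WW_of_perp (2 * h) b (v - E.J (E.P v)) (by
      intro x
      rw [← hE]
      exact hperp x)
    set s₁ := (v - E.J (E.P v)) (.inl (Fin.last n).castSucc)
    set s₂ := (v - E.J (E.P v)) (.inl (Fin.last (n + 1)))
    rw [hlin] at hr
    have hpolJ : ∀ (x) (s t : F), polar (⇑(plusForm (n + 2) F)) (E.J x) (WW (2 * h) b s t) = 0 := by
      intro x s t
      rw [polar_comm, hE]
      exact polar_WW_JJ _ _ _ _ _
    refine ⟨E.J (E.P v), s₁ + h * s₂, s₂, ?_, hpolJ _ _ _, hpolJ _ _ _, ?_⟩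
    · rw [add_assoc, ← hr]
      abel
    · rw [hmv, add_assoc, ← hr, map_sub, map_neg]
      abel

end neg

section cliff

variable {n : ℕ} {F : Type u} [Field F]

/-- The cover, for any perfect group embedded in `Ω⁺` with an element of the kernel as a commutator. The version of
`cover_of_embedding` with the map to the spin group. -/
theorem cover_of_embedding' [Fintype F] (h2 : (2 : F) ≠ 0) (hn : 4 ≤ n) {G : Type u} [Group G] (hG : commutator G = ⊤)
    (ψ : G →* Omega F (quadFormPlus n F)) (hψ : Function.Injective ψ)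
    (X Y : Omega F (quadFormPlus n F) × GeneralLinearGroup (Bt n) F) (hX : X ∈ Ut n F) (hY : Y ∈ Ut n F)
    (hXr : X.1 ∈ ψ.range) (hYr : Y.1 ∈ ψ.range)
    (hXY : ⁅X, Y⁆ = ((1 : Omega F (quadFormPlus n F)), (-1 : GeneralLinearGroup (Bt n) F))) :
    ∃ (C : Type u) (_ : Group C) (_ : Finite C) (π : C →* G)
      (i : C →* Omega F (quadFormPlus n F) × GeneralLinearGroup (Bt n) F),
      IsStemExtension π ∧ Nat.card π.ker = 2 ∧ Function.Injective i ∧ (∀ x, i x ∈ Us n F) ∧ ∀ x, (i x).1 = ψ (π x) := by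
  classical
  let fst' : (Omega F (quadFormPlus n F) × GeneralLinearGroup (Bt n) F) →* Omega F (quadFormPlus n F) := MonoidHom.fst _ _
  let Γ : Subgroup (Omega F (quadFormPlus n F) × GeneralLinearGroup (Bt n) F) := Ut n F ⊓ ψ.range.comap fst'
  let C : Subgroup (Omega F (quadFormPlus n F) × GeneralLinearGroup (Bt n) F) := ⁅Γ, Γ⁆
  have hCΓ : C ≤ Γ := Subgroup.commutator_le.2 fun _ h₁ _ h₂ =>
    mul_mem (mul_mem (mul_mem h₁ h₂) (inv_mem h₁)) (inv_mem h₂)
  have hCU : C ≤ Us n F := Subgroup.commutator_mono inf_le_left inf_le_left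
  haveI hfin : Finite C := Finite.of_injective (Subgroup.inclusion hCU) (Subgroup.inclusion_injective hCU)
  let e : G ≃* ψ.range := MonoidHom.ofInjective hψ
  let f : Γ →* ψ.range := (fst'.comp Γ.subtype).codRestrict ψ.range (fun x => x.2.2)
  let φ : Γ →* G := e.symm.toMonoidHom.comp f
  have hφ : ∀ x : Γ, ψ (φ x) = (x : Omega F (quadFormPlus n F) × GeneralLinearGroup (Bt n) F).1 := by
    intro x
    have h1 : e (φ x) = f x := e.apply_symm_apply _
    exact congrArg Subtype.val h1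
  have hφs : Function.Surjective φ := by
    intro g
    obtain ⟨p, hp⟩ := (piU_stem h2 hn).1 (ψ g)
    have hpU : (p : Omega F (quadFormPlus n F) × GeneralLinearGroup (Bt n) F) ∈ Ut n F := Us_le_Ut p.2
    have hpr : (p : Omega F (quadFormPlus n F) × GeneralLinearGroup (Bt n) F) ∈ Γ := ⟨hpU, ⟨g, hp.symm⟩⟩
    refine ⟨⟨_, hpr⟩, hψ ?_⟩
    rw [hφ]
    exact hp
  let π : C →* G := φ.comp (Subgroup.inclusion hCΓ)
  have hπ : ∀ x : C, ψ (π x) = (x : Omega F (quadFormPlus n F) × GeneralLinearGroup (Bt n) F).1 := fun x => hφ _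
  have hπs : Function.Surjective π := by
    intro g
    have hg : g ∈ (commutator Γ).map φ := by
      have h1 : (commutator Γ).map φ = ⊤ := by
        rw [commutator_def, Subgroup.map_commutator, (Subgroup.map_top_of_surjective φ hφs), ← commutator_def, hG]
      rw [h1]
      trivial
    obtain ⟨y, hy, rfl⟩ := hg
    have hyC : (y : Omega F (quadFormPlus n F) × GeneralLinearGroup (Bt n) F) ∈ C := by
      have h1 : (commutator Γ).map Γ.subtype = C := Subgroup.map_subtype_commutator _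
      rw [← h1]
      exact ⟨y, hy, rfl⟩
    refine ⟨⟨_, hyC⟩, ?_⟩
    change φ (Subgroup.inclusion hCΓ ⟨_, hyC⟩) = φ y
    congr 1
  have hker : ∀ x : C, π x = 1 → ((x : Omega F (quadFormPlus n F) × GeneralLinearGroup (Bt n) F) = 1 ∨
      (x : Omega F (quadFormPlus n F) × GeneralLinearGroup (Bt n) F) = ((1 : Omega F (quadFormPlus n F)), (-1 : GeneralLinearGroup (Bt n) F))) := by
    intro x hx
    have h1 : (x : Omega F (quadFormPlus n F) × GeneralLinearGroup (Bt n) F).1 = 1 := by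
      rw [← hπ, hx, map_one]
    rcases piU_ker (n := n) h2 hn (x := ⟨x.1, hCU x.2⟩) h1 with h3 | h3
    · left
      exact Prod.ext h1 h3
    · right
      exact Prod.ext h1 h3
  -- `C` is perfect
  have hle : C ≤ ⁅C, C⁆ := by
    have hcov : ∀ a ∈ Γ, ∃ c ∈ C, ∃ s ∈ Ut n F, s.1 = 1 ∧ a = c * s := by
      intro a ha
      obtain ⟨c, hc⟩ := hπs (φ ⟨a, ha⟩)
      have h1 : (c : Omega F (quadFormPlus n F) × GeneralLinearGroup (Bt n) F).1 = a.1 := by
        rw [← hπ, hc, hφ]
      refine ⟨c, c.2, (c : Omega F (quadFormPlus n F) × GeneralLinearGroup (Bt n) F)⁻¹ * a,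
        mul_mem (inv_mem (hCΓ c.2).1) ha.1, ?_, by group⟩
      change (c : Omega F (quadFormPlus n F) × GeneralLinearGroup (Bt n) F).1⁻¹ * a.1 = 1
      rw [h1, inv_mul_cancel]
    refine Subgroup.commutator_le.2 fun a ha b hb => ?_
    obtain ⟨c, hc, s, hs, hs1, rfl⟩ := hcov a ha
    obtain ⟨d, hd, t, ht, ht1, rfl⟩ := hcov b hb
    rw [comm_central (central_of_fst hs hs1) (central_of_fst ht ht1)]
    exact Subgroup.commutator_mem_commutator hc hd
  have hXΓ : X ∈ Γ := ⟨hX, hXr⟩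
  have hYΓ : Y ∈ Γ := ⟨hY, hYr⟩
  have hnegC : ((1 : Omega F (quadFormPlus n F)), (-1 : GeneralLinearGroup (Bt n) F)) ∈ C := by
    rw [← hXY]
    exact Subgroup.commutator_mem_commutator hXΓ hYΓ
  have hnegK : π ⟨_, hnegC⟩ = 1 := by
    apply hψ
    rw [hπ, map_one]
  refine ⟨C, inferInstance, hfin, π, C.subtype, ⟨hπs, ?_, ?_⟩, ?_, Subtype.val_injective, fun x => hCU x.2, fun x => (hπ x).symm⟩
  · intro x hx
    rw [Subgroup.mem_center_iff]
    intro y
    apply Subtype.ext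
    rcases hker x hx with h | h
    · change (y : Omega F (quadFormPlus n F) × GeneralLinearGroup (Bt n) F) * (x : Omega F (quadFormPlus n F) × GeneralLinearGroup (Bt n) F) = (x : Omega F (quadFormPlus n F) × GeneralLinearGroup (Bt n) F) * y
      rw [h]
      simp
    · change (y : Omega F (quadFormPlus n F) × GeneralLinearGroup (Bt n) F) * (x : Omega F (quadFormPlus n F) × GeneralLinearGroup (Bt n) F) = (x : Omega F (quadFormPlus n F) × GeneralLinearGroup (Bt n) F) * y
      rw [h]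
      refine Prod.ext (by simp) ?_
      simp
  · intro x _
    have h1 : (commutator C).map C.subtype = ⁅C, C⁆ := Subgroup.map_subtype_commutator _
    have h3 := hle x.2
    rw [← h1] at h3
    obtain ⟨y, hy, hye⟩ := h3
    have : y = x := Subtype.ext hye
    rwa [← this]
  · rw [Nat.card_eq_two_iff]
    refine ⟨1, ⟨⟨_, hnegC⟩, hnegK⟩, ?_, ?_⟩
    · intro h
      have h1 := congrArg (fun x : π.ker => ((x : C) : Omega F (quadFormPlus n F) × GeneralLinearGroup (Bt n) F).2) h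
      exact neg_ne_one_GL h2 h1.symm
    · ext ⟨x, hx⟩
      simp only [Set.mem_insert_iff, Set.mem_singleton_iff, Set.mem_univ, iff_true]
      rcases hker x hx with h | h
      · left
        exact Subtype.ext (Subtype.ext h)
      · right
        exact Subtype.ext (Subtype.ext h)

end cliff

end MinLowerAux

open MinLowerAux

variable {F : Type u} [Field F] [Fintype F]

/-- The lower bound: a stem extension of `Ω⁻_{2n+2}(F)`, `F` of odd order, with kernel of order 2, where for even `n` the lifts of `-1` do not have square `1`. -/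
theorem exists_cover {q : ℕ} (hF : Fintype.card F = q) (hq : Odd q) (n : ℕ) (hn : 3 ≤ n) (a b : F)
    (hab : ∀ z₁ z₂ : F, z₁ ^ 2 + a * z₁ * z₂ + b * z₂ ^ 2 = 0 → z₁ = 0 ∧ z₂ = 0) :
    ∃ (C : Type u) (_ : Group C) (_ : Finite C) (π : C →* Omega F (quadFormMinus n F a b)),
      IsStemExtension π ∧ Nat.card π.ker = 2 ∧
      (Even n → ∀ x : C, (((π x : Omega F (quadFormMinus n F a b)) : isometryGroup F (quadFormMinus n F a b)) :
        GeneralLinearGroup ((Fin n ⊕ Fin n) ⊕ Fin 2) F).1 = -1 → x * x ≠ 1) := by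
  classical
  have h2 : (2 : F) ≠ 0 := by
    intro h
    have h1 : ringChar F = 2 := by
      have := CharP.ringChar_of_prime_eq_zero (R := F) (p := 2) Nat.prime_two (by exact_mod_cast h)
      exact this
    have h3 := FiniteField.even_card_iff_char_two.1 h1
    rw [hF] at h3
    rcases hq with ⟨k, rfl⟩
    omega
  have hQ' := minusForm_nondeg (F := F) n hab
  obtain ⟨E, hE⟩ := exists_isoEmb (minusForm n F a b) (plusForm (n + 2) F) hQ' (MinLowerAux.JJ a b) (MinLowerAux.Q_JJ a b)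
  have hcard1 : 4 < Fintype.card ((Fin n ⊕ Fin n) ⊕ Fin 2) := by
    simp
    omega
  have hG : commutator (Omega F (quadFormMinus n F a b)) = ⊤ :=
    Cfsg.Agent.Lib.LocalBal.OmMain.perfect_omega (F := F) (ι := (Fin n ⊕ Fin n) ⊕ Fin 2) (Q := minusForm n F a b) hQ'
      (by simp; omega)
  let a0 : Fin n := ⟨0, by omega⟩
  let a1 : Fin n := ⟨1, by omega⟩
  let a2 : Fin n := ⟨2, by omega⟩
  have h01 : a0.castSucc.castSucc ≠ a1.castSucc.castSucc := by simp [a0, a1, Fin.ext_iff]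
  have h12 : a1.castSucc.castSucc ≠ a2.castSucc.castSucc := by simp [a1, a2, Fin.ext_iff]
  have h02 : a0.castSucc.castSucc ≠ a2.castSucc.castSucc := by simp [a0, a2, Fin.ext_iff]
  obtain ⟨X, Y, hX, hY, hX1, hY1, hXY⟩ := exists_neg_comm (n := n + 2) (F := F) (by omega) h01 h12 h02
  -- elements of the image
  have hcard : Fintype.card F ≠ 2 ∨ Fintype.card ((Fin n ⊕ Fin n) ⊕ Fin 2) ≠ 4 := by
    right
    omega
  let r' : Fin n → isometryGroup F (⇑(minusForm n F a b)) := fun c => reflEl (minusForm n F a b) (MinLowerAux.ww c)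
  have hmem : ∀ c d : Fin n, r' c * r' d ∈ Omega F (⇑(minusForm n F a b)) := by
    intro c d
    refine (word_mem_Omega_iff (minusForm n F a b) hQ' hcard (r' c * r' d) [MinLowerAux.ww c, MinLowerAux.ww d] ?_ ?_).mpr ⟨by simp, ?_⟩
    · intro v hv
      simp only [List.mem_cons, List.not_mem_nil, or_false] at hv
      rcases hv with rfl | rfl <;> rw [MinLowerAux.Q_ww] <;> exact one_ne_zero
    · simp only [List.map_cons, List.map_nil, List.prod_cons, List.prod_nil, mul_one]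
      rw [← reflEl_val, ← reflEl_val]
      rfl
    · simp only [List.map_cons, List.map_nil, List.prod_cons, List.prod_nil, mul_one, MinLowerAux.Q_ww]
      exact ⟨1, by simp⟩
  have hrange : ∀ (c d : Fin n) (Z : Omega F (quadFormPlus (n + 2) F)),
      (Z : isometryGroup F (quadFormPlus (n + 2) F)) = reflEl (plusForm (n + 2) F) (LiftAux.vv c.castSucc.castSucc) * reflEl (plusForm (n + 2) F) (LiftAux.vv d.castSucc.castSucc) →
      Z ∈ (E.extOm).range := by
    intro c d Z hZ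
    refine ⟨⟨r' c * r' d, hmem c d⟩, ?_⟩
    apply Subtype.ext
    rw [hZ]
    change E.ext (r' c * r' d) = _
    rw [map_mul]
    change E.ext (reflEl (minusForm n F a b) (MinLowerAux.ww c)) * E.ext (reflEl (minusForm n F a b) (MinLowerAux.ww d)) = _
    rw [ext_reflEl, ext_reflEl, hE, MinLowerAux.JJ_ww, MinLowerAux.JJ_ww]
  obtain ⟨C, iC, fC, π, i, hπ, hcardC, hi, hiU, hi1⟩ :=
    cover_of_embedding' h2 (by omega) hG E.extOm E.extOm_injective X Y hX hY (hrange _ _ _ hX1) (hrange _ _ _ hY1) hXY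
  refine ⟨C, iC, fC, π, hπ, hcardC, ?_⟩
  intro hev x hx hxx
  have h3 := sq_over_neg h2 hab E hE (π x) hx (hiU x) (hi1 x)
  have h4 : (i x).2 * (i x).2 = 1 := by
    have h5 := congrArg (fun z => (i z).2) hxx
    simpa using h5
  rw [h4, Units.val_one] at h3
  have h6 : (-1 : F) ^ (n + 2 + 1) = -1 := by
    rw [pow_succ, pow_add, hev.neg_one_pow]
    simp
  rw [h6] at h3
  have h7 := congrFun (congrFun h3 (fun _ => false)) (fun _ => false)
  simp at h7
  exact h2 (by linear_combination h7)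

end Cfsg.Agent.Lib.MinStem
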