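import Cfsg.Agent.Lib.PresOm.Em

/-!
# S2099: the quadratic extension `K / F` (module Q)

`QF F K`: an abstract quadratic extension with its conjugation `cj`, norm `nm : K → F`, trace `tr : K → F`.
All of `Lib/MinStem` (except the target over the explicit form) only uses this class.
`QC F K a b`: coordinates `K ≃ F²` in which the norm form is `z₁² + a z₁ z₂ + b z₂²`.
`exists_QC` (stub: module QE): for an anisotropic form such `K` exists, a finite field in the same universe.
Proof: `K = AdjoinRoot (X² - a X + b)`, `θ = root`, irreducible since anisotropic (a root `r` of `X² - a X + b` gives `r² - a r + b = 0`, i.e. the form vanishes at `(r, -1)`...).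
`cj = x ↦ x ^ q` (Frobenius) or the `AdjoinRoot.liftHom` sending `θ ↦ a - θ`.  `co z = (c₁, c₂)` with `z = c₁ + c₂ θ`.
`nm z = c₁² + a c₁ c₂ + b c₂²`, `tr z = 2 c₁ + a c₂`. `θ (a - θ) = b`. `tr_surj`: `tr` is not zero (if `a ≠ 0`: `tr θ = a`; if `a = 0`: the char is odd, `tr 1 = 2`) and `F`-linear.
-/

set_option autoImplicit false

namespace Cfsg.Agent.Lib.MinStem

open Matrix Cfsg.Agent.Lib.PresOm Cfsg.Agent.Lib.PresSp.M2

universe u v

/-- The conjugation of a quadratic extension. -/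
class QCj (K : Type*) [Field K] where
  /-- conjugation -/
  cj : K ≃+* K
  cj_cj : ∀ z : K, cj (cj z) = z
  cj_ne : ∃ z : K, cj z ≠ z

export QCj (cj)

/-- A quadratic extension with conjugation, norm and trace. -/
class QF (F : Type*) (K : Type*) [Field F] [Field K] [Algebra F K] [QCj K] where
  /-- norm -/
  nm : K → F
  /-- trace -/
  tr : K → F
  cj_alg : ∀ t : F, cj (algebraMap F K t) = algebraMap F K t
  alg_nm : ∀ z : K, algebraMap F K (nm z) = z * cj z
  alg_tr : ∀ z : K, algebraMap F K (tr z) = z + cj z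
  tr_surj : ∀ x : F, ∃ z : K, tr z = x

export QF (nm tr)

section lemmas

variable {F : Type*} {K : Type*} [Field F] [Field K] [Algebra F K] [QCj K] [QF F K]

/-- The scalars of `K`. -/
abbrev ιF (F : Type*) {K : Type*} [Field F] [Field K] [Algebra F K] (t : F) : K := algebraMap F K t

/-- The unit of `K` of a unit of `F`. -/
abbrev kF {F : Type*} {K : Type*} [Field F] [Field K] [Algebra F K] (u : Fˣ) : Kˣ := Units.map (algebraMap F K).toMonoidHom u

omit [QCj K] [QF F K] in
lemma kF_one : (kF (1 : Fˣ) : Kˣ) = 1 := map_one _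

omit [QCj K] [QF F K] in
lemma kF_inv (u : Fˣ) : (kF u⁻¹ : Kˣ) = (kF u)⁻¹ := map_inv _ _

omit [QCj K] [QF F K] in
lemma kF_mul (u v : Fˣ) : (kF (u * v) : Kˣ) = kF u * kF v := map_mul _ _ _

omit [QCj K] [QF F K] in
lemma coe_kF (u : Fˣ) : ((kF u : Kˣ) : K) = algebraMap F K (u : F) := rfl

omit [QCj K] [QF F K] in
lemma coe_kF_inv (u : Fˣ) : (((kF u : Kˣ)⁻¹ : Kˣ) : K) = algebraMap F K ((u⁻¹ : Fˣ) : F) := by
  rw [← map_inv]
  rfl

omit [QCj K] [QF F K] in
lemma alg_inj : Function.Injective (algebraMap F K) := (algebraMap F K).injective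

@[simp] lemma cj_alg' (t : F) : (cj (algebraMap F K t) : K) = algebraMap F K t := QF.cj_alg t
@[simp] lemma cj_cj' (z : K) : (cj (cj z) : K) = z := QCj.cj_cj z
lemma alg_nm' (z : K) : algebraMap F K (nm z) = z * cj z := QF.alg_nm z
lemma alg_tr' (z : K) : algebraMap F K (tr z) = z + cj z := QF.alg_tr z

lemma tr_add (z w : K) : (tr (z + w) : F) = tr z + tr w := by
  apply alg_inj (K := K)
  simp only [alg_tr', map_add]
  ring

lemma tr_zero : (tr (0 : K) : F) = 0 := by
  apply alg_inj (K := K)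
  simp [alg_tr']

lemma tr_neg (z : K) : (tr (-z) : F) = - tr z := by
  apply alg_inj (K := K)
  simp only [alg_tr', map_neg]
  ring

lemma tr_cj (z : K) : (tr (cj z : K) : F) = tr z := by
  apply alg_inj (K := K)
  simp only [alg_tr', cj_cj']
  ring

lemma tr_smul (t : F) (z : K) : (tr (algebraMap F K t * z) : F) = t * tr z := by
  apply alg_inj (K := K)
  simp only [alg_tr', map_mul, cj_alg']
  ring

lemma nm_mul (z w : K) : (nm (z * w) : F) = nm z * nm w := by
  apply alg_inj (K := K)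
  simp only [alg_nm', map_mul]
  ring

lemma nm_one : (nm (1 : K) : F) = 1 := by
  apply alg_inj (K := K)
  simp [alg_nm']

lemma nm_zero : (nm (0 : K) : F) = 0 := by
  apply alg_inj (K := K)
  simp [alg_nm']

lemma nm_neg (z : K) : (nm (-z) : F) = nm z := by
  apply alg_inj (K := K)
  simp only [alg_nm', map_neg]
  ring

lemma nm_cj (z : K) : (nm (cj z : K) : F) = nm z := by
  apply alg_inj (K := K)
  simp only [alg_nm', cj_cj']
  ring

lemma nm_alg (t : F) : (nm (algebraMap F K t) : F) = t ^ 2 := by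
  apply alg_inj (K := K)
  simp only [alg_nm', cj_alg', map_pow]
  ring

/-- `N(z + w) = N z + N w + Tr(z w̄)`. -/
lemma nm_add (z w : K) : (nm (z + w) : F) = nm z + nm w + tr (z * cj w) := by
  apply alg_inj (K := K)
  simp only [alg_nm', alg_tr', map_add, map_mul, cj_cj']
  ring

lemma nm_ne_zero {z : K} (hz : z ≠ 0) : (nm z : F) ≠ 0 := by
  intro h
  have h1 := alg_nm' (F := F) z
  rw [h, map_zero] at h1
  have hc : (cj z : K) ≠ 0 := by
    simpa using hz
  exact mul_ne_zero hz hc h1.symm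

end lemmas

section mats

variable {K : Type*} [Field K] [QCj K]

/-- The conjugation on `SL₂(K)`. -/
noncomputable def cjM : M2 K →* M2 K := SpecialLinearGroup.map ((cj : K ≃+* K) : K →+* K)

omit [QCj K] in
lemma coe_map_apply (f : K →+* K) (g : M2 K) (i j : Fin 2) : (SpecialLinearGroup.map f g).1 i j = f (g.1 i j) := rfl

lemma cjM_apply (g : M2 K) (i j : Fin 2) : (cjM g).1 i j = cj (g.1 i j) := rfl

/-- The twist by `r_j`: `g ↦ kp (-1) (ḡ)`. -/
noncomputable def tau : M2 K →* M2 K := (kp (-1 : Kˣ)).comp cjM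

lemma tau_apply (g : M2 K) : tau g = kp (-1 : Kˣ) (cjM g) := rfl

lemma cjM_uu (t : K) : cjM (uu t) = uu (cj t) := by
  apply Subtype.ext
  ext i j
  fin_cases i <;> fin_cases j <;> simp [cjM_apply, coe_uu]

lemma cjM_ll (t : K) : cjM (ll t) = ll (cj t) := by
  apply Subtype.ext
  ext i j
  fin_cases i <;> fin_cases j <;> simp [cjM_apply, coe_ll]

lemma cjM_wn : cjM (wn : M2 K) = wn := by
  apply Subtype.ext
  ext i j
  fin_cases i <;> fin_cases j <;> simp [cjM_apply, coe_wn]

/-- Conjugate unit. -/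
noncomputable def cjU (u : Kˣ) : Kˣ := Units.map ((cj : K ≃+* K) : K →+* K).toMonoidHom u

lemma coe_cjU (u : Kˣ) : ((cjU u : Kˣ) : K) = cj (u : K) := rfl

lemma coe_cjU_inv (u : Kˣ) : ((((cjU u)⁻¹ : Kˣ)) : K) = cj ((u⁻¹ : Kˣ) : K) := by
  rw [← coe_cjU]
  exact congrArg _ (map_inv (Units.map ((cj : K ≃+* K) : K →+* K).toMonoidHom) u).symm

lemma cjM_dd (u : Kˣ) : cjM (dd u) = dd (cjU u) := by
  apply Subtype.ext
  ext i j
  fin_cases i <;> fin_cases j <;> simp [cjM_apply, coe_dd, coe_cjU, coe_cjU_inv, -Units.val_inv_eq_inv_val]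

lemma tau_uu (t : K) : tau (uu t) = uu (- cj t) := by
  rw [tau_apply, cjM_uu, kp_uu]
  simp

lemma tau_ll (t : K) : tau (ll t) = ll (- cj t) := by
  rw [tau_apply, cjM_ll, kp_ll]
  simp

lemma tau_dd (u : Kˣ) : tau (dd u) = dd (cjU u) := by
  rw [tau_apply, cjM_dd, kp_dd]

lemma tau_wn : tau (wn : M2 K) = wn⁻¹ := by
  rw [tau_apply, cjM_wn, kp_neg_one_wn]

lemma kp_cjM (u : Kˣ) (g : M2 K) : cjM (kp u g) = kp (cjU u) (cjM g) := by
  apply Subtype.ext
  ext i j
  fin_cases i <;> fin_cases j <;> simp [cjM_apply, kp_coe, coe_cjU, coe_cjU_inv, -Units.val_inv_eq_inv_val]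

lemma cjU_neg_one : cjU (-1 : Kˣ) = -1 := by
  apply Units.ext
  simp [coe_cjU]

lemma cjM_cjM (g : M2 K) : cjM (cjM g) = g := by
  apply Subtype.ext
  ext i j
  simp [cjM_apply]

lemma tau_tau (g : M2 K) : tau (tau g) = g := by
  simp only [tau_apply]
  rw [kp_cjM, cjU_neg_one, kp_kp, cjM_cjM]
  simp [kp_one]

end mats

/-- Coordinates on `K`: the norm form is `z₁² + a z₁ z₂ + b z₂²`. -/
structure QC (F : Type*) (K : Type*) [Field F] [Field K] [Algebra F K] [QCj K] [QF F K] (a b : F) where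
  /-- the coordinates -/
  co : K ≃ₗ[F] (Fin 2 → F)
  nm_co : ∀ z : K, nm z = co z 0 ^ 2 + a * co z 0 * co z 1 + b * co z 1 ^ 2

end Cfsg.Agent.Lib.MinStem
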